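import Cfsg.Agent.H18.TT6
import Cfsg.Agent.H28.Fis5
import Cfsg.Agent.H23.Iso

/-! Fischer's theorem, part 0: calculus of 3-transpositions, residues, linear models. -/

set_option autoImplicit false

namespace H1.Fi
open Cfsg H18 H28 H23 Subgroup

/-- conjugation -/
scoped notation:75 g:76 " ⊳ " x:75 => g * x * g⁻¹

variable {G : Type*} [Group G] {D : Set G} {a b c d x y z w g : G}

theorem fx (h : Commute a b) : a ⊳ b = b := conj_eq_iff_commute.2 h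
theorem cmi : Commute (g ⊳ a) (g ⊳ b) ↔ Commute a b := commute_conj_iff g a b
theorem cjj : g ⊳ a ⊳ b = (g ⊳ a) ⊳ (g ⊳ b) := by group
theorem cjm (g k x : G) : (g * k) ⊳ x = g ⊳ k ⊳ x := by group
theorem cjs (h : Commute a b) (x : G) : a ⊳ b ⊳ x = b ⊳ a ⊳ x := by rw [← cjm, h.eq, cjm]
theorem cm3 (h1 : Commute x a) (h2 : Commute x b) : Commute x (a ⊳ b) := (h1.mul_right h2).mul_right h1.inv_right
theorem cmf (h1 : Commute a x) : Commute x (a ⊳ b) ↔ Commute x b := by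
  conv_lhs => rw [← fx h1]
  exact cmi
theorem nc3 (h1 : Commute x a) (h2 : ¬ Commute x b) : ¬ Commute x (a ⊳ b) := mt (cmf h1.symm).1 h2
theorem ncl (n : ¬ Commute a b) : ¬ Commute a (a ⊳ b) := nc3 (Commute.refl a) n
theorem nel (n : ¬ Commute a b) : a ⊳ b ≠ a := fun e => ncl n (by rw [e])
theorem ner (n : ¬ Commute a b) : a ⊳ b ≠ b := fun e => n (conj_eq_iff_commute.1 e)
theorem ncs (n : ¬ Commute a b) : ¬ Commute b a := fun c => n c.symm
theorem nce (n : ¬ Commute a b) : a ≠ b := fun e => n (e ▸ Commute.refl a)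
theorem ne_of (h1 : Commute x a) (h2 : ¬ Commute x b) : a ≠ b := fun e => h2 (e ▸ h1)

section
variable (h : IsThreeTranspositionSet D)
include h
theorem cc (ha : a ∈ D) (x : G) : a ⊳ a ⊳ x = x := by rw [← cjm, tt_sq h ha]; simp
theorem br (ha : a ∈ D) (hb : b ∈ D) (n : ¬ Commute a b) : a ⊳ b = b ⊳ a := by
  rw [tt_inv h ha, tt_inv h hb, tt_braid h ha hb n]
theorem cmv (ha : a ∈ D) : Commute (a ⊳ x) y ↔ Commute x (a ⊳ y) := by
  rw [← cmi (g := a), cc h ha]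
theorem eqv (ha : a ∈ D) : a ⊳ x = y ↔ x = a ⊳ y :=
  ⟨fun e => by rw [← e, cc h ha], fun e => by rw [e, cc h ha]⟩
theorem cje (ha : a ∈ D) (b x : G) : (a ⊳ b) ⊳ x = a ⊳ b ⊳ a ⊳ x := by rw [cjj, cc h ha]
theorem nc3' (ha : a ∈ D) (hb : b ∈ D) (n : ¬ Commute a b) (h1 : Commute x b) (h2 : ¬ Commute x a) :
    ¬ Commute x (a ⊳ b) := br h ha hb n ▸ nc3 h1 h2
theorem ncr (ha : a ∈ D) (hb : b ∈ D) (n : ¬ Commute a b) : ¬ Commute b (a ⊳ b) :=
  nc3' h ha hb n (Commute.refl b) (ncs n)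
theorem cb3 (ha : a ∈ D) (hb : b ∈ D) (n : ¬ Commute a b) : (a ⊳ b) ⊳ a = b := by
  rw [cje h ha, fx (Commute.refl a), ← br h ha hb n, cc h ha]
theorem cb4 (ha : a ∈ D) (hb : b ∈ D) (n : ¬ Commute a b) : (a ⊳ b) ⊳ b = a := by
  rw [br h ha hb n, cb3 h hb ha (ncs n)]
theorem cb5 (ha : a ∈ D) (hb : b ∈ D) (n : ¬ Commute a b) : b ⊳ a ⊳ b = a := by rw [br h ha hb n, cc h hb]
theorem s4 (hc : c ∈ D) (hy : y ∈ D) (hz : z ∈ D) (n1 : ¬ Commute y c) (n2 : ¬ Commute z c) (k : Commute y z) :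
    Commute c (y ⊳ z ⊳ c) := cjm y z c ▸ tt_s4 h hc hy hz n1 n2 k
theorem s4ne (hc : c ∈ D) (hy : y ∈ D) (hz : z ∈ D) (n1 : ¬ Commute y c) (k : y ≠ z) : y ⊳ z ⊳ c ≠ c := fun e =>
  n1 ((tt_commute_mul_iff h hy hz hc k).1 (conj_eq_iff_commute.1 (cjm y z c ▸ e)).symm).1.symm
theorem s4sw (hc : c ∈ D) (hy : y ∈ D) (hz : z ∈ D) (n1 : ¬ Commute y c) (n2 : ¬ Commute z c) (k : Commute y z) :
    c ⊳ (y ⊳ z ⊳ c) ⊳ y = z := by
  rw [cje h hy, fx (Commute.refl y), cje h hz, fx k.symm, ← br h hy hc n1, cjs k, fx (Commute.refl y) |> fun _ => cc h hy c,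
    br h hz hc n2, cc h hc]
theorem lin (hc : c ∈ D) (hy : y ∈ D) (hz : z ∈ D) (n1 : ¬ Commute y c) (n2 : ¬ Commute z c) (e : y ⊳ c = z ⊳ c) :
    y = z := tt_line_inj h hc hy hz n1 n2 e
end

/-- a closed set of 3-transpositions -/
structure FS (A : Set G) : Prop where
  tt : IsThreeTranspositionSet A
  clo : Clo A

theorem FS.of (h : TT D) : FS D := ⟨h.tt, fun x _ y hy => h.cj x y hy⟩
theorem FS.nb (h : FS D) (l : List G) : FS (Nb D l) := ⟨tt_subset h.tt nb_sub, h.clo.nb l⟩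

/-- a star with centre `x` and three leaves -/
structure St (D : Set G) (x a b c : G) : Prop where
  fs : FS D
  mx : x ∈ D
  ma : a ∈ D
  mb : b ∈ D
  mc : c ∈ D
  ab : Commute a b
  ac : Commute a c
  bc : Commute b c
  nab : a ≠ b
  nac : a ≠ c
  nbc : b ≠ c
  ax : ¬ Commute a x
  bx : ¬ Commute b x
  cx : ¬ Commute c x

/-- the fourth leaf -/
def z4 (x a b c : G) : G := x ⊳ a ⊳ b ⊳ c ⊳ x

namespace St
variable (h : St D x a b c)
include h
theorem sw1 : St D x b a c :=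
  ⟨h.fs, h.mx, h.mb, h.ma, h.mc, h.ab.symm, h.bc, h.ac, h.nab.symm, h.nbc, h.nac, h.bx, h.ax, h.cx⟩
theorem sw2 : St D x a c b :=
  ⟨h.fs, h.mx, h.ma, h.mc, h.mb, h.ac, h.ab, h.bc.symm, h.nac, h.nab, h.nbc.symm, h.ax, h.cx, h.bx⟩
theorem e1 : z4 x b a c = z4 x a b c := by rw [z4, z4, cjs h.ab]
theorem e2 : z4 x a c b = z4 x a b c := by rw [z4, z4, cjs h.bc]
theorem mem : z4 x a b c ∈ D :=
  h.fs.clo _ h.mx _ (h.fs.clo _ h.ma _ (h.fs.clo _ h.mb _ (h.fs.clo _ h.mc _ h.mx)))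
theorem ca : Commute a (z4 x a b c) := by
  have t := h.fs.tt
  rw [z4, ← cmv t h.mx, ← br t h.ma h.mx h.ax, cmi]
  exact s4 t h.mx h.mb h.mc h.bx h.cx h.bc
theorem cb : Commute b (z4 x a b c) := h.e1 ▸ h.sw1.ca
theorem cc' : Commute c (z4 x a b c) := h.e2 ▸ h.sw2.cb
theorem nx : ¬ Commute (z4 x a b c) x := by
  have t := h.fs.tt
  rw [z4, cmv t h.mx, fx (Commute.refl x)]
  refine ncs (nc3' t h.ma (h.fs.clo _ h.mb _ (h.fs.clo _ h.mc _ h.mx)) ?_ (s4 t h.mx h.mb h.mc h.bx h.cx h.bc) (ncs h.ax))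
  exact nc3 h.ab (nc3 h.ac h.ax)
theorem na : z4 x a b c ≠ a := fun e => by
  have t := h.fs.tt
  rw [z4, eqv t h.mx, ← br t h.ma h.mx h.ax] at e
  exact s4ne t h.mx h.mb h.mc h.bx h.nbc (conj_inj e)
theorem nb : z4 x a b c ≠ b := h.e1 ▸ h.sw1.na
theorem nc : z4 x a b c ≠ c := h.e2 ▸ h.sw2.nb
theorem act : z4 x a b c ⊳ x = a ⊳ b ⊳ c ⊳ x := by
  rw [br h.fs.tt h.mem h.mx h.nx, z4, cc h.fs.tt h.mx]
theorem uniq (hw : w ∈ D) (n : ¬ Commute w x) (e : w ⊳ x = a ⊳ b ⊳ c ⊳ x) : w = z4 x a b c :=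
  lin h.fs.tt h.mx hw h.mem n h.nx (e.trans h.act.symm)
theorem st : St D x a b (z4 x a b c) :=
  ⟨h.fs, h.mx, h.ma, h.mb, h.mem, h.ab, h.ca, h.cb, h.nab, h.na.symm, h.nb.symm, h.ax, h.bx, h.nx⟩
theorem zz : z4 x a b (z4 x a b c) = c := (h.st.uniq h.mc h.cx (by
  rw [h.act, cjs h.ab.symm (a := b), cc h.fs.tt h.ma, cc h.fs.tt h.mb])).symm
/-- the key test -/
theorem key (h1 : Commute w a) (h2 : Commute w x) : Commute w (z4 x a b c) ↔ Commute x (b ⊳ c ⊳ w) := by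
  have t := h.fs.tt
  rw [z4, cmf h2.symm, cmf h1.symm, ← cmv t h.mb, ← cmv t h.mc, cjs h.bc.symm]
  exact ⟨Commute.symm, Commute.symm⟩
/-- an element swapping two leaves -/
theorem swap : ∃ g ∈ closure D, g ⊳ a = b ∧ g ⊳ b = a ∧ g ⊳ c = z4 x a b c := by
  have t := h.fs.tt
  have m : a ⊳ b ⊳ x ∈ D := h.fs.clo _ h.ma _ (h.fs.clo _ h.mb _ h.mx)
  refine ⟨x * (a ⊳ b ⊳ x), mul_mem (subset_closure h.mx) (subset_closure m), ?_, ?_, ?_⟩ <;> rw [cjm]
  · exact s4sw t h.mx h.ma h.mb h.ax h.bx h.ab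
  · rw [cjs h.ab]; exact s4sw t h.mx h.mb h.ma h.bx h.ax h.ab.symm
  · rw [br t m h.mc (ncs (nc3 h.ac.symm (nc3 h.bc.symm h.cx))), z4, cjs h.ac.symm, cjs h.bc.symm]
end St

/-- a set of leaves at `x` closed under the fourth leaf -/
structure Lf (D : Set G) (x : G) (F : Set G) : Prop where
  fs : FS D
  mx : x ∈ D
  sub : F ⊆ D
  cm : ∀ a ∈ F, ∀ b ∈ F, Commute a b
  nc : ∀ a ∈ F, ¬ Commute a x
  cl : ∀ a ∈ F, ∀ b ∈ F, ∀ c ∈ F, a ≠ b → a ≠ c → b ≠ c → z4 x a b c ∈ F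

theorem Lf.st {F : Set G} (h : Lf D x F) (ha : a ∈ F) (hb : b ∈ F) (hc : c ∈ F) (n1 : a ≠ b) (n2 : a ≠ c) (n3 : b ≠ c) :
    St D x a b c := ⟨h.fs, h.mx, h.sub ha, h.sub hb, h.sub hc, h.cm _ ha _ hb, h.cm _ ha _ hc, h.cm _ hb _ hc, n1, n2, n3,
      h.nc _ ha, h.nc _ hb, h.nc _ hc⟩

theorem Lf.even {F : Set G} (h : Lf D x F) (f : F.Finite) (ha : a ∈ F) (hb : b ∈ F) (n : a ≠ b) : Even F.ncard := by
  classical
  have := f.to_subtype
  have := Fintype.ofFinite F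
  let φ : F → F := fun c => if e : c.1 = a then ⟨b, hb⟩ else if e' : c.1 = b then ⟨a, ha⟩ else
    ⟨_, h.cl a ha b hb c c.2 n (Ne.symm e) (Ne.symm e')⟩
  have i : Function.Involutive φ := fun c => Subtype.ext (by
    by_cases e : c.1 = a
    · simp [φ, e, n.symm]
    by_cases e' : c.1 = b
    · simp [φ, e', n.symm]
    have s := h.st ha hb c.2 n (Ne.symm e) (Ne.symm e')
    simp [φ, e, e', s.na, s.nb, s.zz])
  by_contra o
  obtain ⟨c, hc⟩ := Equiv.Perm.exists_fixed_point_of_prime (p := 2) (n := 1) (α := F) (by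
    rwa [← Nat.card_eq_fintype_card, Nat.card_coe_set_eq, ← even_iff_two_dvd]) (σ := i.toPerm φ) (by
      ext c; simp [sq, i c])
  have hc := congrArg Subtype.val (show φ c = c from hc)
  by_cases e : c.1 = a
  · simp [φ, e, n.symm] at hc
  by_cases e' : c.1 = b
  · simp [φ, e', n.symm, n] at hc
  simp only [φ, e, e', dif_neg, not_false_eq_true] at hc
  exact (h.st ha hb c.2 n (Ne.symm e) (Ne.symm e')).nc hc

/-- there is no Steiner quadruple system on six points -/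
theorem Lf.six {F : Set G} (h : Lf D x F) : F.ncard ≠ 6 := fun e => by
  have f : F.Finite := Set.finite_of_ncard_ne_zero (by omega)
  have pick : ∀ l : List G, l.length < 6 → ∃ y ∈ F, y ∉ l := fun l hl => by
    classical
    by_contra! k
    have := Set.ncard_le_ncard (t := (l.toFinset : Set G)) (fun y hy => by simpa using k y hy)
    rw [Set.ncard_coe_finset] at this
    have := l.toFinset_card_le
    omega
  obtain ⟨a, ha, -⟩ := pick [] (by simp)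
  obtain ⟨b, hb, n1⟩ := pick [a] (by simp)
  obtain ⟨c, hc, n2⟩ := pick [a, b] (by simp)
  simp only [List.mem_cons, List.not_mem_nil, or_false, not_or] at n1 n2
  have s1 := h.st ha hb hc (Ne.symm n1) (Ne.symm n2.1) (Ne.symm n2.2)
  obtain ⟨d, hd, n3⟩ := pick [a, b, c, z4 x a b c] (by simp)
  simp only [List.mem_cons, List.not_mem_nil, or_false, not_or] at n3
  have s2 := h.st ha hb hd (Ne.symm n1) (Ne.symm n3.1) (Ne.symm n3.2.1)
  have s3 := h.st ha hc hd (Ne.symm n2.1) (Ne.symm n3.1) (Ne.symm n3.2.2.1)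
  have m1 := h.cl a ha b hb c hc s1.nab s1.nac s1.nbc
  have m2 := h.cl a ha b hb d hd s2.nab s2.nac s2.nbc
  have m3 := h.cl a ha c hc d hd s3.nab s3.nac s3.nbc
  have k1 : z4 x a b d ≠ c := fun k => n3.2.2.2 (by rw [← k, s2.zz])
  have k2 : z4 x a b d ≠ z4 x a b c := fun k => n3.2.2.1 (by rw [← s2.zz, k, s1.zz])
  have k3 : z4 x a c d ≠ b := fun k => n3.2.2.2 (by rw [← s3.zz, k, s1.e2])
  have k4 : z4 x a c d ≠ z4 x a b c := fun k => n3.2.1 (by rw [← s3.zz, k, ← s1.e2, s1.sw2.zz])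
  have k5 : z4 x a c d ≠ z4 x a b d := fun k => n2.2 (by
    rw [← s3.sw2.zz, s3.e2, k, ← s2.e2, s2.sw2.zz])
  classical
  have := Set.ncard_le_ncard (s := ({a, b, c, z4 x a b c, d, z4 x a b d, z4 x a c d} : Finset G)) (t := F) (by
    intro y hy
    simp only [Finset.coe_insert, Finset.coe_singleton, Set.mem_insert_iff, Set.mem_singleton_iff] at hy
    rcases hy with rfl | rfl | rfl | rfl | rfl | rfl | rfl <;> assumption) f
  rw [Set.ncard_coe_finset, Finset.card_insert_of_notMem, Finset.card_insert_of_notMem, Finset.card_insert_of_notMem,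
    Finset.card_insert_of_notMem, Finset.card_insert_of_notMem, Finset.card_insert_of_notMem, Finset.card_singleton] at this
  · omega
  all_goals simp only [Finset.mem_insert, Finset.mem_singleton, not_or]
  · exact k5.symm
  · exact ⟨s2.nc.symm, s3.nc.symm⟩
  · exact ⟨Ne.symm n3.2.2.2, k2.symm, k4.symm⟩
  · exact ⟨s1.nc.symm, s3.nbc, k1.symm, s3.nb.symm⟩
  · exact ⟨s1.nbc, s1.nb.symm, s2.nbc, s2.nb.symm, k3.symm⟩
  · exact ⟨s1.nab, s1.nac, s1.na.symm, s2.nac, s2.na.symm, s3.na.symm⟩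

end H1.Fi
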