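import Cfsg.Agent.H27.Golay
import Cfsg.Prelude.Def_JankoFourType
/-! Commuting elements of order three in `M22` and an outer involution fixing one, inverting the other. -/
set_option maxRecDepth 100000
open Subgroup Cfsg Cfsg.Spor H27

namespace H1.F22

def na : Net := (.cons 5 2 (.cons 18 4 (.cons 14 8 (.cons 14 16 (.cons 5 32 (.cons 10 64 (.cons 5 128 (.cons 4 256 (.cons 9 512 (.cons 3 1024 (.cons 2 131072 (.cons 1 1048576 .nil))))))))))))
def nb : Net := (.cons 11 4 (.cons 14 8 (.cons 9 16 (.cons 13 32 (.cons 1 128 (.cons 4 256 (.cons 12 512 (.cons 11 1024 (.cons 3 2048 (.cons 1 16384 (.cons 2 131072 (.cons 2 262144 .nil))))))))))))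
def ns : Net := (.cons 23 1 (.cons 2 4 (.cons 5 8 (.cons 10 128 (.cons 12 512 (.cons 7 4096 (.cons 1 16384 (.cons 2 262144 .nil))))))))

theorem ca : m24chk na = true := by decide +kernel
theorem cb : m24chk nb = true := by decide +kernel
theorem cs : m24chk ns = true := by decide +kernel

noncomputable def a0 : Equiv.Perm GolayPt := GE.perm na
noncomputable def b0 : Equiv.Perm GolayPt := GE.perm nb
noncomputable def s0 : Equiv.Perm GolayPt := GE.perm ns
theorem aa : Acts 24 GE.e a0 na := acts_of_m24chk ca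
theorem ab : Acts 24 GE.e b0 nb := acts_of_m24chk cb
theorem as : Acts 24 GE.e s0 ns := acts_of_m24chk cs

theorem mem22 {g : Equiv.Perm GolayPt} :
    g ∈ M22 ↔ g ∈ M24 ∧ g • (none : GolayPt) = none ∧ g • (some 0 : GolayPt) = some 0 := by
  simp only [M22, M23, mem_inf, MulAction.mem_stabilizer_iff, and_assoc]

theorem ma : a0 ∈ M22 := mem22.2 ⟨perm_mem_M24 ca,
  (aa.act 23 (by norm_num)).trans (by decide +kernel), (aa.act 0 (by norm_num)).trans (by decide +kernel)⟩
theorem mb : b0 ∈ M22 := mem22.2 ⟨perm_mem_M24 cb,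
  (ab.act 23 (by norm_num)).trans (by decide +kernel), (ab.act 0 (by norm_num)).trans (by decide +kernel)⟩
theorem s1 : s0 • (none : GolayPt) = some 0 := (as.act 23 (by norm_num)).trans (by decide +kernel)
theorem s2 : s0 • (some 0 : GolayPt) = none := (as.act 0 (by norm_num)).trans (by decide +kernel)
theorem ss : s0 * s0 = 1 := GE.acts_ext (as.mul as) Acts.one (by decide +kernel)

theorem key {g : Equiv.Perm GolayPt} (hg : g ∈ M22) : s0 * g * s0 ∈ M22 := by
  obtain ⟨h1, h2, h3⟩ := mem22.1 hg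
  have hs : s0 ∈ M24 := perm_mem_M24 cs
  refine mem22.2 ⟨mul_mem (mul_mem hs h1) hs, ?_, ?_⟩
  · rw [mul_smul, mul_smul, s1, h3, s2]
  · rw [mul_smul, mul_smul, s2, h2, s1]

theorem ii (g : Equiv.Perm GolayPt) : s0 * (s0 * g * s0) * s0 = g := by
  calc s0 * (s0 * g * s0) * s0 = (s0 * s0) * g * (s0 * s0) := by simp only [mul_assoc]
    _ = g := by rw [ss, one_mul, mul_one]

noncomputable def sg : MulAut ↥M22 where
  toFun g := ⟨s0 * g * s0, key g.2⟩
  invFun g := ⟨s0 * g * s0, key g.2⟩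
  left_inv g := Subtype.ext (ii g)
  right_inv g := Subtype.ext (ii g)
  map_mul' g h := Subtype.ext (by
    change s0 * ((g : Equiv.Perm GolayPt) * h) * s0 = s0 * g * s0 * (s0 * h * s0)
    calc s0 * ((g : Equiv.Perm GolayPt) * h) * s0 = s0 * g * (s0 * s0) * h * s0 := by
          rw [ss, mul_one]; simp only [mul_assoc]
      _ = _ := by simp only [mul_assoc])

theorem f22 : ∃ (a b : ↥M22) (σ : MulAut ↥M22), a ^ 3 = 1 ∧ b ^ 3 = 1 ∧ a * b = b * a ∧ a ≠ 1 ∧
    b ∉ zpowers a ∧ σ a = a ∧ σ b = b⁻¹ := by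
  refine ⟨⟨a0, ma⟩, ⟨b0, mb⟩, sg, Subtype.ext ?_, Subtype.ext ?_, Subtype.ext ?_, fun h => ?_, fun h => ?_,
    Subtype.ext ?_, Subtype.ext ?_⟩
  · change a0 ^ 3 = 1
    rw [pow_three]
    exact GE.acts_ext (aa.mul (aa.mul aa)) Acts.one (by decide +kernel)
  · change b0 ^ 3 = 1
    rw [pow_three]
    exact GE.acts_ext (ab.mul (ab.mul ab)) Acts.one (by decide +kernel)
  · exact GE.acts_ext (aa.mul ab) (ab.mul aa) (by decide +kernel)
  · have e : a0 = 1 := congrArg Subtype.val h
    have := aa.act 1 (by norm_num)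
    rw [e, one_smul] at this
    exact absurd this (by decide +kernel)
  · have h1 : (⟨a0, ma⟩ : ↥M22) ∈ MulAction.stabilizer (↥M22) (GE.e 11) :=
      (aa.act 11 (by norm_num)).trans (by decide +kernel)
    have h2 : b0 • GE.e 11 = GE.e 11 := (zpowers_le_of_mem h1) h
    rw [ab.act 11 (by norm_num)] at h2
    exact absurd h2 (by decide +kernel)
  · exact GE.acts_ext ((as.mul aa).mul as) aa (by decide +kernel)
  · exact GE.acts_ext ((as.mul ab).mul as) ab.inv (by decide +kernel)

end H1.F22
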