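import Cfsg.Agent.H1.Fz

/-! Fischer's theorem: the induction. -/

set_option autoImplicit false
set_option linter.unusedSectionVars false

namespace H1.Fi
open Cfsg H18 H28 H23 Module Subgroup Equiv

universe u
variable {G : Type u} [Group G] [Finite G] {D : Set G} {d : G} {n : ℕ}

theorem IsSym.seven (k : IsSym D n) (hd : d ∈ D) {a b : G} (ha : a ∈ dd D d) (hb : b ∈ dd D d) (c : Commute a b)
    (nv : ¬ Vr (dd D d) a b) : 7 ≤ n := by
  obtain ⟨τ, f⟩ := k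
  have key : ∀ {x y}, x ∈ {s : Perm (Fin n) | s.IsSwap} → y ∈ {s : Perm (Fin n) | s.IsSwap} → τ y ∈ dd D (τ x) →
      Commute x y ∧ y ≠ x := fun hx hy m => ⟨(f.comm hx hy).1 m.2.2, mt (congrArg τ) m.2.1⟩
  obtain ⟨_, hd', rfl⟩ := f.surj hd
  obtain ⟨_, ha', rfl⟩ := f.surj ha.1
  obtain ⟨_, hb', rfl⟩ := f.surj hb.1
  have k1 := key hd' ha' ha
  have k2 := key hd' hb' hb
  have k3 := key ha' hb' ⟨hb.1, fun e => nv (e ▸ fun _ _ => Iff.rfl), c⟩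
  by_contra hn
  refine nv fun e he => ?_
  obtain ⟨_, he', rfl⟩ := f.surj he.1
  have k4 := key hd' he' he
  rw [f.comm ha' he', f.comm hb' he']
  obtain ⟨i, j, a, rfl⟩ := hd'
  obtain ⟨k, l, b, rfl⟩ := ha'
  obtain ⟨p, q, c', rfl⟩ := hb'
  obtain ⟨r, t, e, rfl⟩ := he'
  have : ∀ {i j k l : Fin n}, i ≠ j → k ≠ l → Commute (swap i j) (swap k l) ∧ swap k l ≠ swap i j →
      k ≠ i ∧ k ≠ j ∧ l ≠ i ∧ l ≠ j := fun a b c => ((sw_iff a b).1 c.1).resolve_right (by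
    rintro (⟨rfl, rfl⟩ | ⟨rfl, rfl⟩)
    exacts [c.2 rfl, c.2 (swap_comm _ _)])
  have m1 := this a b k1
  have m2 := this a c' k2
  have m3 := this b c' k3
  have m4 := this a e k4
  have m5 : ∀ r, r ∈ [i, j, k, l, p, q] := fun r => by
    by_contra m
    have := List.Nodup.length_le_card (l := [r, i, j, k, l, p, q]) (List.nodup_cons.2 ⟨m, by simp; grind⟩)
    simp at this; omega
  have m6 := m5 r
  have m7 := m5 t
  rw [sw_iff b e, sw_iff c' e]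
  simp only [List.mem_cons, List.not_mem_nil, or_false] at m6 m7
  grind

theorem step_c (h : TP D) (hd : d ∈ D) (nw : ∀ b c, ¬ Wl D d b c)
    (nv : ∀ a ∈ dd D d, ∀ b ∈ dd D d, Vr (dd D d) a b → a = b) (ih : Ty (dd D d)) : TyC D := by
  have R : ∀ b ∈ D, ∃ τ, FIso (dd D d) (dd D b) τ := fun b hb =>
    let ⟨g, e⟩ := h.cls d hd b hb; ⟨_, e ▸ fdd (fcj h.toTT g) hd⟩
  have T : ∀ b ∈ D, TP (sub (dd D b)) := fun b hb => tp_res h hb (fun p q w =>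
    let ⟨g, e⟩ := h.cls b hb d hd; nw _ _ (e ▸ w.conj h.toTT g)) fun p hp q hq v => by
      obtain ⟨τ, f⟩ := R b hb
      obtain ⟨p, hp', rfl⟩ := f.surj hp
      obtain ⟨q, hq', rfl⟩ := f.surj hq
      rw [nv p hp' q hq' fun e he => by rw [← f.comm hp' he, ← f.comm hq' he]; exact v _ (f.mem he)]
  by_cases s : Sy D
  · by_cases st : ∃ x a b c, St D x a b c
    · obtain ⟨x, a, b, c, st⟩ := st
      exact Or.inr (Or.inl (sy_c h s (T a st.ma) st))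
    obtain ⟨n, -, k⟩ := sy_a h s fun x a b c q => st ⟨x, a, b, c, q⟩
    obtain ⟨a, ha, b, hb, e, c⟩ := tp_wide h hd nw
    exact Or.inl ⟨n, k.seven hd ha hb c (mt (nv a ha b hb) e), k⟩
  have hD : IsThreeTranspositionGroup D := ⟨h.tt, h.cj, h.gen⟩
  have cj : ∀ y ∈ D, IsConj d y := fun y hy => isConj_iff.2 (h.cls d hd y hy)
  have lc : ∀ {M : Type} [Group M] {A : Set M} {σ : G → M}, FIso (dd D d) A σ → Loc D A := fun f =>
    let ⟨_, f, _⟩ := f.symm; loc_of_conj h.cj hd cj (nbd D d ▸ f)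
  have sym : ∀ n, ¬ IsSym (dd D d) n := fun n k => by
    have k' : ∀ b ∈ D, IsSym (dd D b) n := fun b hb => let ⟨_, f⟩ := R b hb; k.fiso f
    obtain ⟨e, x, a, b, s', l⟩ := ex_lc h (fun b hb => (k' b hb).sy) s
    exact l.sym h (T e l.md) (k' e l.md).sy fun _ _ _ _ => (k' e l.md).nst
  have o3 : ∀ {d n}, d ∈ D → 5 ≤ n → IsO3 (dd D d) n → TyC D := fun hd hn k =>
    Or.inr (Or.inr (Or.inl ⟨_, Nat.succ_le_succ hn, loc_o3 h hd hn k⟩))
  rcases ih with k | (⟨n, hn, k⟩ | ⟨n, hn, k⟩) | ⟨n, hn, k⟩ | ⟨n, hn, k⟩ | ⟨n, hn, k⟩ | ⟨σ, k⟩ | ⟨σ, k⟩ | ⟨σ, k⟩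
  · exact (sym _ k).elim
  · have k' : ∀ b ∈ D, IsSp (dd D b) n := fun b hb => let ⟨_, f⟩ := R b hb; k.fiso f
    have sy : ∀ b ∈ D, Sy (dd D b) := fun b hb => let ⟨_, _, _, _, _, _, _, l⟩ := k' b hb; l.sy2
    obtain ⟨e, x, a, b, s', l⟩ := ex_lc h sy s
    exact (l.sp h (T s' l.ms.1) (sy s' l.ms.1) (k' e l.md)).elim
  · rcases loc_u h hd T hn k with rfl | rfl
    · exact o3 hd le_rfl k.o3
    obtain ⟨_, f⟩ := k.u22
    obtain ⟨_, f, -⟩ := f.symm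
    exact Or.inr (Or.inr (Or.inr (Or.inl (fiso22 hD (lc f) hd cj))))
  · exact (sym _ k).elim
  · have k' : ∀ b ∈ D, IsO2 (dd D b) n := fun b hb => let ⟨_, f⟩ := R b hb; k.fiso f
    obtain ⟨e, x, a, b, s', l⟩ := ex_lc h (fun b hb => let ⟨_, _, _, _, _, _, _, l⟩ := k' b hb; l.sy2) s
    exact o3 l.md le_rfl (l.o2 h hn (k' e l.md))
  · exact o3 hd (by omega) k
  · exact Or.inr (Or.inr (Or.inr (Or.inr (Or.inl (fiso23 hD (lc k) hd cj)))))
  · exact Or.inr (Or.inr (Or.inr (Or.inr (Or.inr (fiso24' h (lc k))))))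
  · exact (no_loc24 (lc k) hd).elim

/-- Fischer's theorem for Fischer spaces -/
theorem fischer (h : TP D) : Ty D := by
  induction e : D.ncard using Nat.strong_induction_on generalizing G with
  | _ N ih =>
  obtain ⟨d, hd⟩ := h.ne
  by_cases nw : ∃ b c, Wl D d b c
  · obtain ⟨b, c, w⟩ := nw
    obtain ⟨e, he⟩ := w.equiv_s5 h
    obtain ⟨_, f, -⟩ := (show FIso D _ e from ⟨(FS.of h.toTT).clo, he ▸ e.injective.injOn.bijOn_image,
      fun _ _ _ _ => by simp⟩).symm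
    exact Or.inl ⟨_, f⟩
  by_cases nv : ∃ a ∈ dd D d, ∃ b ∈ dd D d, a ≠ b ∧ Vr (dd D d) a b
  · obtain ⟨a, ha, b, hb, n, v⟩ := nv
    exact Or.inr (Or.inl (fischer_b h hd ha hb n v))
  have nw' : ∀ b c, ¬ Wl D d b c := fun b c w => nw ⟨b, c, w⟩
  have nv' : ∀ a ∈ dd D d, ∀ b ∈ dd D d, Vr (dd D d) a b → a = b := fun a ha b hb v =>
    by_contra fun n => nv ⟨a, ha, b, hb, n, v⟩
  have f := fsub ((FS.of h.toTT).dd d).clo
  exact Or.inr (Or.inr (step_c h hd nw' nv' ((ih _ (e ▸ f.ncard ▸ Set.ncard_lt_ncard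
    ⟨fun _ k => k.1, fun k => (k hd).2.1 rfl⟩) (tp_res h hd nw' nv') rfl).fiso f)))
theorem fischer_c (h : TP D) (hd : d ∈ D) (nw : ∀ b c, ¬ Wl D d b c)
    (nv : ∀ a ∈ dd D d, ∀ b ∈ dd D d, Vr (dd D d) a b → a = b) : TyC D :=
  step_c h hd nw nv ((fischer (tp_res h hd nw nv)).fiso (fsub ((FS.of h.toTT).dd d).clo))

end H1.Fi
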