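import Cfsg.Agent.H1.F9
import Cfsg.Agent.H28.Np3

/-! Fischer's theorem: the sporadic types. -/

set_option autoImplicit false

namespace H1.Fi
open Cfsg H18 H28 Subgroup

theorem conv_m {G : Type*} [Group G] {D : Set G} (h : TC D) (hZ : center G = ⊥)
    (k : (∃ σ, FIso D E22 σ) ∨ (∃ σ, FIso D E23 σ) ∨ ∃ σ, FIso D E24 σ) :
    IsOfTypeM22 G D ∨ IsOfTypeM23 G D ∨ IsOfTypeM24 G D :=
  have hD : IsThreeTranspositionGroup D := ⟨h.tt, h.cj, h.gen⟩
  k.imp (fun ⟨_, f⟩ => let ⟨e, he, _⟩ := equiv_of_fiso hD hZ e22_class fi22_center f; (m22_equiv hD e he).type)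
    (.imp (fun ⟨_, f⟩ => let ⟨e, he, _⟩ := equiv_of_fiso hD hZ e23_class fi23_center f; (m23_equiv hD e he).type)
      fun ⟨_, f⟩ => let ⟨e, he, _⟩ := equiv_of_fiso hD hZ e24_class f24_center f; (m24_equiv hD e he).type)

end H1.Fi
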