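import Cfsg.Agent.H1.Fm
import Cfsg.Agent.H28.U24

/-! Fischer's theorem: the list of types. -/

set_option autoImplicit false

namespace H1.Fi
open Cfsg H18 H28 H23 Subgroup

variable {G M : Type*} [Group G] [Group M] {A : Set G} {B : Set M} {τ : G → M}

/-- the types with a residue having a non-central normal 2-subgroup -/
def TyB (A : Set G) : Prop := (∃ n, 4 ≤ n ∧ IsSp A n) ∨ ∃ n, 4 ≤ n ∧ IsU A n
/-- the types with a primitive residue -/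
def TyC (A : Set G) : Prop := (∃ n, 7 ≤ n ∧ IsSym A n) ∨ (∃ n, 6 ≤ n ∧ IsO2 A n) ∨ (∃ n, 6 ≤ n ∧ IsO3 A n) ∨
  (∃ σ, FIso A E22 σ) ∨ (∃ σ, FIso A E23 σ) ∨ ∃ σ, FIso A E24 σ
/-- all types -/
def Ty (A : Set G) : Prop := IsSym A 5 ∨ TyB A ∨ TyC A

theorem TyB.fiso (h : TyB A) (f : FIso A B τ) : TyB B :=
  h.imp (fun ⟨n, a, b⟩ => ⟨n, a, b.fiso f⟩) fun ⟨n, a, b⟩ => ⟨n, a, b.fiso f⟩
theorem TyC.fiso (h : TyC A) (f : FIso A B τ) : TyC B := by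
  obtain ⟨_, k, -⟩ := f.symm
  exact h.imp (fun ⟨n, a, b⟩ => ⟨n, a, b.fiso f⟩) (.imp (fun ⟨n, a, b⟩ => ⟨n, a, b.fiso f⟩)
    (.imp (fun ⟨n, a, b⟩ => ⟨n, a, b.fiso f⟩) (.imp (fun ⟨_, a⟩ => ⟨_, k.trans a⟩)
      (.imp (fun ⟨_, a⟩ => ⟨_, k.trans a⟩) fun ⟨_, a⟩ => ⟨_, k.trans a⟩))))
theorem Ty.fiso (h : Ty A) (f : FIso A B τ) : Ty B := h.imp (·.fiso f) (.imp (·.fiso f) (·.fiso f))

end H1.Fi
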