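import Cfsg.Agent.H1.Fr
import Cfsg.Agent.H1.Fty

/-! Fischer's theorem: the case of a residue with a non-central normal 2-subgroup. -/

set_option autoImplicit false
set_option linter.unusedSectionVars false
set_option linter.unusedSimpArgs false

namespace H1.Fi
open Cfsg H18 H28 H23 Module

variable {G : Type*} [Group G] {D : Set G} {a b c d p q x : G} {κ : G → K4 → G} {g : G → G → K4} {s t u : K4}
  {V : Type} [AddCommGroup V] [Module K4 V] [Finite V] {Φ : Form c4 V} {ι j : G → V} {e f y y' : V}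

/-- the embedding of the residue -/
structure Ue (D : Set G) (d x : G) (κ : G → K4 → G) (g : G → G → K4) (Φ : Form c4 V) (ι j : G → V) (e f : V) : Prop
    extends Uc D d x κ g where
  pm : PM Φ (PU Φ)
  ee : Φ.B e e = 0
  ff : Φ.B f f = 0
  ef : Φ.B e f = 1
  eb : ∀ b ∈ cc2 D d x, Φ.B e (ι b) = 0
  fb : ∀ b ∈ cc2 D d x, Φ.B f (ι b) = 0
  bb : ∀ a ∈ cc2 D d x, ∀ b ∈ cc2 D d x, Φ.B (ι a) (ι b) = g a b
  ext : ∀ v, Φ.B e v = 0 → Φ.B f v = 0 → (∀ b ∈ cc2 D d x, Φ.B (ι b) v = 0) → v = 0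
  jj : ∀ b ∈ cc2 D d x, ∀ t, j (κ b t) = ι b + t • e

variable [Finite G] (h : TP D)
include h
theorem Uc.ue (k : Uc D d x κ g) : ∃ (n : ℕ) (Φ : Form c4 (Fin n → K4)) (ι j : G → _) (e f : _), Ue D d x κ g Φ ι j e f := by
  classical
  have d0 : d ∉ cc2 D d x := fun m => k.n m.2.2
  have x0 : x ∉ cc2 D d x := fun m => k.n m.2.1.symm
  have dx : d ≠ x := (nce k.n).symm
  obtain ⟨n, Φ, ι, h1, h2, h3, h4⟩ := gram (σ := c4) (fun a b => if a ∈ cc2 D d x ∧ b ∈ cc2 D d x then g a b else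
    if (a = d ∧ b = x) ∨ (a = x ∧ b = d) then 1 else 0) k4_c (fun a b => by
      by_cases c : a ∈ cc2 D d x ∧ b ∈ cc2 D d x
      · rw [if_pos c, if_pos c.symm, k.herm h c.1 c.2]
      rw [if_neg c, if_neg (mt And.symm c), apply_ite c4, map_one, map_zero]
      exact if_congr (by tauto) rfl rfl) fun a => ⟨0, by
      by_cases c : a ∈ cc2 D d x
      · simp [c, (k.zr h c c).2 (Commute.refl a)]
      rw [if_neg fun q => c q.1, if_neg (by rintro (⟨rfl, q⟩ | ⟨rfl, q⟩); exacts [dx q, dx q.symm])]; simp⟩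
  have : ∀ p, ∃ v, ∀ b ∈ cc2 D d x, ∀ t, κ b t = p → v = ι b + t • ι d := fun p => by
    by_cases q : ∃ b ∈ cc2 D d x, ∃ t, κ b t = p
    · obtain ⟨b, hb, t, rfl⟩ := q
      exact ⟨ι b + t • ι d, fun c hc s q => by
        obtain rfl := k.un h hc hb q
        rw [(k.co c hc).inj q]⟩
    exact ⟨0, fun b hb t r => (q ⟨b, hb, t, r⟩).elim⟩
  choose j hj using this
  have nd : ∀ b ∈ cc2 D d x, b ≠ d ∧ b ≠ x := fun b hb => ⟨fun q => d0 (q ▸ hb), fun q => x0 (q ▸ hb)⟩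
  refine ⟨n, Φ, ι, j, ι d, ι x, k, pmU h1 h2, by simp [h4, d0, dx], by simp [h4, x0, dx.symm], by simp [h4, d0],
    fun b hb => by simp [h4, d0, dx, nd b hb], fun b hb => by simp [h4, x0, dx.symm, nd b hb],
    fun a ha b hb => by simp [h4, ha, hb], fun v a b c => ext_span h1 h3 ?_, fun b hb t => hj _ b hb t rfl⟩
  rintro _ ⟨w, rfl⟩
  by_cases m : w ∈ cc2 D d x
  · exact c w m
  by_cases m1 : w = d
  · exact m1 ▸ a
  by_cases m2 : w = x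
  · exact m2 ▸ b
  rw [ext_span h1 h3 (v := ι w) (by rintro _ ⟨b, rfl⟩; simp [h4, m, m1, m2]), map_zero, LinearMap.zero_apply]

namespace Ue
variable (k : Ue D d x κ g Φ ι j e f)
include k
theorem fe : Φ.B f e = 1 := by rw [k.pm.sym, k.ef, map_one]
theorem be (hb : b ∈ cc2 D d x) : Φ.B (ι b) e = 0 := by rw [k.pm.sym, k.eb b hb, map_zero]
theorem bf (hb : b ∈ cc2 D d x) : Φ.B (ι b) f = 0 := by rw [k.pm.sym, k.fb b hb, map_zero]
theorem b0 (hb : b ∈ cc2 D d x) : Φ.B (ι b) (ι b) = 0 := by rw [k.bb b hb b hb, (k.zr h hb hb).2 (Commute.refl b)]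
theorem ext1 {v : V} (h1 : Φ.B e v = 0) (h2 : ∀ b ∈ cc2 D d x, Φ.B (ι b) v = 0) : v = Φ.B f v • e :=
  sub_eq_zero.1 (k.ext _ (by simp [h1, k.ee]) (by simp [k.fe h]) fun b hb => by simp [h2 b hb, k.be h hb])
theorem H (m : V) (q : ∀ p, Φ.B p p = 0 → Φ.B e p = 0 → Φ.B m p = 0) : ∃ a : K4, m = a • e :=
  ⟨_, k.ext1 h (by rw [k.pm.sym, q e k.ee k.ee, map_zero]) fun b hb => by
    rw [k.pm.sym, q _ (k.b0 h hb) (k.eb b hb), map_zero]⟩
theorem l0 (hc : c ∈ cc2 D d x) (hb : b ∈ cc2 D d x) (n : ¬ Commute c b) : g c (c ⊳ b) * g b c ≠ 0 :=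
  mul_ne_zero (mt (k.zr h hc ((FS.of h.toTT).cc2 hc hb)).1 (ncl n)) (mt (k.zr h hb hc).1 (ncs n))
theorem ci (hc : c ∈ cc2 D d x) (hb : b ∈ cc2 D d x) (n : ¬ Commute c b) :
    ι (c ⊳ b) = (g c (c ⊳ b) * g b c) • (ι b + g c b • ι c) := by
  have m := (FS.of h.toTT).cc2 hc hb
  refine sub_eq_zero.1 (k.ext _ (by simp [k.eb, m, hb, hc]) (by simp [k.fb, m, hb, hc]) fun a ha => ?_)
  simp only [bx, k.bb a ha _ m, k.bb a ha _ hb, k.bb a ha _ hc, k.add h hc hb n ha, sub_self]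
theorem bj (hc : c ∈ cc2 D d x) (hb : b ∈ cc2 D d x) (t u : K4) : Φ.B (ι c + t • e) (ι b + u • e) = g c b := by
  simp [k.bb c hc b hb, k.be h hc, k.eb b hb, k.ee]
variable (th : Th D)
include th
theorem ej (hp : p ∈ dd D d) : Φ.B e (j p) = 0 := by
  obtain ⟨b, hb, t, rfl⟩ := k.sur h th hp
  simp [k.jj b hb, k.eb b hb, k.ee]
theorem j1 (hq : q ∈ dd D d) (hp : p ∈ dd D d) : ∃ l : K4, l ≠ 0 ∧ j (q ⊳ p) = l • (j p + Φ.B (j q) (j p) • j q) := by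
  obtain ⟨b, hb, u, rfl⟩ := k.sur h th hp
  obtain ⟨c, hc, t, rfl⟩ := k.sur h th hq
  rw [k.jj b hb, k.jj c hc, k.bj h hc hb]
  by_cases n : Commute c b
  · exact ⟨1, one_ne_zero, by rw [fx ((k.cm' h hc hb t u).2 n), k.jj b hb, (k.zr h hc hb).2 n]; simp⟩
  exact ⟨_, k.l0 h hc hb n, by rw [k.cj h hc hb n, k.jj _ ((FS.of h.toTT).cc2 hc hb), k.ci h hc hb n]; module⟩
theorem nc (hb : b ∈ cc2 D d x) : ∃ c ∈ cc2 D d x, g c b ≠ 0 := by
  obtain ⟨w, hw, c1, c2⟩ := tp_vt h hb.1 k.md (s_dd k.n hb).2.1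
  have m : w ∈ dd D d := ⟨hw, (ne_of hb.2.1.symm (ncs c2)).symm, c1.symm⟩
  obtain ⟨c, hc, t, rfl⟩ := k.sur h th m
  exact ⟨c, hc, mt (fun q => (k.cm h hc t (s_dd k.n hb)).2 ((k.zr h hc hb).1 q)) c2⟩
theorem j2 (hp : p ∈ dd D d) (hq : q ∈ dd D d) (r : j q = s • j p) : p = q := by
  obtain ⟨b, hb, u, rfl⟩ := k.sur h th hp
  obtain ⟨c, hc, t, rfl⟩ := k.sur h th hq
  rw [k.jj b hb, k.jj c hc] at r
  have r1 : ∀ w ∈ cc2 D d x, g w c = s * g w b := fun w hw => by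
    simpa [k.bb w hw, hb, hc, k.be h hw] using congrArg (Φ.B (ι w)) r
  obtain rfl : b = c := by
    by_contra n
    obtain ⟨w, hw, c1, c2⟩ := s_sep h th k.md k.mx k.n hb hc n
    exact c2 ((k.zr h hw hc).1 (by rw [r1 w hw, (k.zr h hw hb).2 c1.symm, mul_zero])).symm
  obtain ⟨w, hw, n⟩ := k.nc h th hb
  obtain rfl : s = 1 := mul_right_cancel₀ n (by rw [← r1 w hw, one_mul])
  simpa [k.fe h, k.fb b hb] using congrArg (fun v => κ b (Φ.B f v)) r.symm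
theorem j3 (hp : p ∈ dd D d) : j p ∈ PU Φ ∧ ∀ s : K4, j p ≠ s • e := by
  obtain ⟨b, hb, u, rfl⟩ := k.sur h th hp
  obtain ⟨w, hw, n⟩ := k.nc h th hb
  have : ∀ s : K4, j (κ b u) ≠ s • e := fun s q => n (by
    simpa [k.jj b hb, k.bb w hw b hb, k.be h hw] using congrArg (Φ.B (ι w)) q)
  exact ⟨⟨by simpa using this 0, by rw [k.jj b hb, k.bj h hb hb, (k.zr h hb hb).2 (Commute.refl b)]⟩, this⟩
omit h k th in
/-- traces -/
def Dp (D : Set G) (d : G) (Φ : Form c4 V) (j : G → V) (e : V) (a : G) (y : V) : Prop :=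
  Φ.B e y = 1 ∧ ∀ p ∈ dd D d, Commute a p ↔ Φ.B y (j p) = 0
theorem dp0 : Dp D d Φ j e x f := ⟨k.ef, fun p hp => by
  obtain ⟨b, hb, u, rfl⟩ := k.sur h th hp
  simp [Commute.symm_iff (a := x), k.xc h hb, k.jj b hb, k.fb b hb, k.fe h]⟩
theorem dp1 (r : Dp D d Φ j e a y) (hq : q ∈ dd D d) : Dp D d Φ j e (q ⊳ a) (y + Φ.B (j q) y • j q) :=
  ⟨by simp [r.1, k.ej h th hq], fun p hp => by
    obtain ⟨l, l0, l1⟩ := k.j1 h th hq hp
    rw [cmv h.tt hq.1, r.2 _ (((FS.of h.toTT).dd d).clo q hq p hp), l1]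
    simp only [bx, mul_eq_zero, l0, false_or, ← k.pm.sym, mul_comm]⟩
theorem dp2 (r : Dp D d Φ j e a y) : Dp D d Φ j e (d ⊳ a) y :=
  ⟨r.1, fun p hp => by rw [cmv h.tt k.md, fx hp.2.2, r.2 p hp]⟩
theorem dp3 (r : Dp D d Φ j e a y) (r' : Dp D d Φ j e a y') : ∃ s : K4, y' = y + s • e := by
  refine ⟨_, add_comm (G := V) _ _ ▸ mv4.1 (k.ext1 h (v := y' + y) (by rw [map_add, r.1, r'.1]; decide) fun b hb => ?_)⟩
  have m := k.m h hb (Φ.B y (ι b))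
  have := (r'.2 _ m).1 ((r.2 _ m).2 (by simp only [k.jj b hb, bx, k.pm.sym e y, r.1, map_one]; grind))
  simp only [k.jj b hb, bx, k.pm.sym e y', r'.1, map_one, mul_one] at this
  rw [map_add, k.pm.sym y, k.pm.sym y', ← map_add, this, map_zero]
theorem all {v : V} (h1 : Φ.B e v = 0) (h2 : Φ.B v v = 0) : ∃ b ∈ cc2 D d x, ∃ t s : K4, v = t • ι b + s • e := by
  have fs := FS.of h.toTT
  obtain ⟨o, ho⟩ := h.cc2_ne k.md k.mx (ncs k.n)
  refine k.pm.iso_all (N := {v | ∃ b ∈ cc2 D d x, ∃ t s : K4, v = t • ι b + s • e}) ⟨o, ho, 0, 0, by simp⟩ ?_ ?_ ?_ ?_ ?_ h2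
  · rintro _ ⟨b, hb, t, s, rfl⟩
    simp [k.b0 h hb, k.be h hb, k.eb b hb, k.ee]
  · rintro _ ⟨b, hb, t, s, rfl⟩ r
    exact ⟨b, hb, r * t, r * s, by module⟩
  · rintro _ ⟨c, hc, t, s, rfl⟩ _ ⟨b, hb, t', s', rfl⟩
    simp only [bx, k.be h hc, k.eb b hb, k.ee, k.bb c hc b hb, mul_zero, add_zero]
    by_cases n : Commute c b
    · exact ⟨b, hb, t', s', by simp [(k.zr h hc hb).2 n]⟩
    by_cases q : t = 0
    · exact ⟨b, hb, t', s', by simp [q]⟩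
    refine ⟨_, fs.cc2 hc hb, t' / (g c (c ⊳ b) * g b c), s' + c4 t * (t' * g c b) * s, ?_⟩
    rw [k.ci h hc hb n, smul_smul, div_mul_cancel₀ _ (k.l0 h hc hb n)]
    linear_combination (norm := module) ((t' * g c b) * k4_u t q) • ι c
  · rintro _ ⟨c, hc, t, s, rfl⟩ _ ⟨b, hb, t', s', rfl⟩ o
    by_cases q : t = 0
    · exact ⟨b, hb, t', s + s', by rw [q]; module⟩
    by_cases q' : t' = 0
    · exact ⟨c, hc, t, s + s', by rw [q']; module⟩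
    by_cases n : c = b
    · exact ⟨c, hc, t + t', s + s', by rw [n]; module⟩
    have o : Commute c b := (k.zr h hc hb).1 (by simpa [k.be h hc, k.eb b hb, k.ee, k.bb c hc b hb, q, q'] using o)
    have m := k.m h hc (c4 t)
    have m' := k.m h hb (c4 t')
    have n1 := mt (k.xc h hc (t := c4 t)).1 (by simpa using q)
    have n2 := mt (k.xc h hb (t := c4 t')).1 (by simpa using q')
    obtain ⟨p, hp, -, r⟩ := adj fs k.md (h.cj _ _ k.mx) (h.cj _ _ k.mx) (ncj m.2.2.symm k.n) (ncj m'.2.2.symm k.n)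
      ((cbc h.tt k.mx m.1 m'.1 n1 n2).2 ((k.cm' h hc hb _ _).2 o)) fun r => n (k.un h hc hb (lin h.tt k.mx m.1 m'.1 n1 n2 r))
    obtain ⟨l, hl⟩ := k.dp3 h th (r ▸ k.dp2 h th (k.dp1 h th (k.dp1 h th (k.dp0 h th) m) hp)) (k.dp1 h th (k.dp0 h th) m')
    obtain ⟨w, hw, u, rfl⟩ := k.sur h th hp
    generalize Φ.B (j (κ w u)) _ = μ at hl
    simp only [k.jj, hc, hb, hw, bx, k.bf h hc, k.bf h hb, k.ef, k4_c, zero_add, mul_one] at hl
    refine ⟨w, hw, μ, s + s' + l + μ * u + t * c4 t - t' * c4 t', ?_⟩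
    linear_combination (norm := module) hl + t • two4 (ι c)
  rw [← k.pm.nd.perp_perp (Submodule.span _ _)]
  intro w hw
  have := Φ.mem_perp_span.1 hw
  rw [k.ext1 h (this e ⟨o, ho, 0, 1, by simp⟩) fun b hb => this _ ⟨b, hb, 1, 0, by simp⟩]
  simp [h1]
theorem isU : ∃ n, 4 ≤ n ∧ IsU D n := by
  obtain ⟨l, fs⟩ := k.pm.lm
  have he : e ∈ PU Φ := ⟨fun q => by simpa [q] using k.ef, k.ee⟩
  have hf : f ∈ PU Φ := ⟨fun q => by simpa [q] using k.ef, k.ff⟩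
  have s : FIso (dd D d) (dd (tv Φ '' PU Φ) (tv Φ e)) fun p => tv Φ (j p) := by
    refine ⟨((FS.of h.toTT).dd d).clo, ⟨fun p hp => ?_, fun p hp q hq r => ?_, fun z hz => ?_⟩, fun q hq p hp => ?_⟩
    · obtain ⟨a, b⟩ := k.j3 h th hp
      exact ⟨l.mem a, fun q => let ⟨t, r⟩ := (l.eq _ he _ a).1 q.symm; b t r, (l.cmU he a).2 (k.ej h th hp)⟩
    · obtain ⟨t, r⟩ := (l.eq _ (k.j3 h th hp).1 _ (k.j3 h th hq).1).1 r
      exact k.j2 h th hp hq r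
    · obtain ⟨v, hv, rfl⟩ := l.sur hz.1
      obtain ⟨b, hb, t, s, rfl⟩ := k.all h th ((l.cmU he hv).1 hz.2.2) hv.2
      have n : t ≠ 0 := by
        rintro rfl
        exact hz.2.1 ((l.eq _ he _ hv).2 ⟨s, by simp⟩).symm
      have m := k.m h hb (s / t)
      exact ⟨_, m, (l.eq _ (k.j3 h th m).1 _ hv).2 ⟨t, by rw [k.jj b hb, smul_add, smul_smul, mul_div_cancel₀ _ n]⟩⟩
    · obtain ⟨t, n, r⟩ := k.j1 h th hq hp
      have a := (k.j3 h th hp).1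
      have b := (k.j3 h th hq).1
      simp only [r, l.cj _ a _ b, l.smul (l.cl _ a _ b) n]
  obtain ⟨τ, t⟩ := ul h fs (Set.toFinite _) k.md (l.mem he) s ⟨k.mx, k.n⟩
    ⟨l.mem hf, fun c => by simpa [k.ef] using (l.cmU he hf).1 c.symm⟩
    (fun b hb => by rw [(k.dp0 h th).2 b hb, l.cmU hf (k.j3 h th hb).1]) (l.injU he (k.H h)) (l.scU he (k.H h) k.ef k.ff)
  obtain ⟨o, ho⟩ := h.cc2_ne k.md k.mx (ncs k.n)
  obtain ⟨w, hw, n⟩ := k.nc h th ho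
  refine ⟨_, dim_ge k.pm.nd (k := 2) (f := ![e, ι o]) (LinearIndependent.pair_iff.2 fun a b q => ?_) fun i j => ?_,
    V, _, _, inferInstance, Φ, _, rfl, l.fiso t⟩
  · exact ⟨by simpa [k.fe h, k.fb o ho] using congrArg (Φ.B f) q,
      by simpa [k.be h hw, k.bb w hw o ho, n] using congrArg (Φ.B (ι w)) q⟩
  · fin_cases i <;> fin_cases j <;> simp [k.ee, k.eb o ho, k.be h ho, k.b0 h ho]
end Ue

/-- the case of a non-central normal 2-subgroup of the residue -/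
theorem fischer_b (hd : d ∈ D) (ha : a ∈ dd D d) (hb : b ∈ dd D d) (n : a ≠ b) (v : Vr (dd D d) a b) : TyB D := by
  by_cases s : Sy D
  · exact Or.inl (sy_b h s hd ha hb n v)
  have th := th_of h hd ha hb n v
  obtain ⟨x, hx, c⟩ := h.nc hd
  obtain ⟨κ, g, k⟩ := ex_uc h th hd hx (ncs c) s
  obtain ⟨n, Φ, ι, j, e, f, k⟩ := k.ue h
  exact Or.inr (k.isU h th)

end H1.Fi
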