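import Cfsg.Agent.H1.Fs

/-! Fischer's theorem: spaces of symplectic type without stars. -/

set_option autoImplicit false

namespace H1.Fi
open Cfsg H18 H28 H23 Subgroup Equiv

section
variable {α : Type*} [DecidableEq α] {i j k l : α}
theorem sw_c (h1 : k ≠ i) (h2 : k ≠ j) (h3 : l ≠ i) (h4 : l ≠ j) : Commute (swap i j) (swap k l) := by
  rw [← conj_eq_iff_commute, ← swap_apply_apply, swap_apply_of_ne_of_ne h1 h2, swap_apply_of_ne_of_ne h3 h4]
theorem sw_j (h1 : k ≠ i) (h2 : k ≠ j) : swap i j ⊳ swap j k = swap i k := by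
  rw [← swap_apply_apply, swap_apply_right, swap_apply_of_ne_of_ne h1 h2]
theorem sw_n (h0 : i ≠ j) (h1 : k ≠ i) (h2 : k ≠ j) : ¬ Commute (swap i j) (swap j k) := fun c => by
  have := congrArg (· k) ((sw_j h1 h2).symm.trans (fx c))
  exact h0 (by simpa using this)
theorem sw_eq (h : i ≠ j) (e : swap i j = swap k l) : (i = k ∧ j = l) ∨ (i = l ∧ j = k) := by
  have h1 := congrArg (· i) e
  simp only [swap_apply_left, swap_apply_def] at h1
  grind
theorem sw_clo : Clo {s : Perm α | s.IsSwap} := by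
  rintro g - _ ⟨i, j, n, rfl⟩
  exact ⟨_, _, g.injective.ne n, (swap_apply_apply g i j).symm⟩
end

variable {G : Type*} [Group G] {D : Set G}

theorem sw_mem (h : TT D) {n : ℕ} (φ : Perm (Fin n) →* G) {i j : Fin n} (e : i ≠ j) (m : φ (swap i j) ∈ D) (s : Perm (Fin n))
    (hs : s.IsSwap) : φ s ∈ D := by
  obtain ⟨k, l, q, rfl⟩ := hs
  obtain ⟨g, hg⟩ := isConj_iff.1 (Perm.isConj_swap e q)
  simpa only [← hg, map_mul, map_inv] using h.cj (φ g) _ m

theorem sy_step [Finite G] (h : TP D) (s : Sy D) (nd : ∀ x a b c, ¬ St D x a b c) {m : ℕ} (hm : 3 ≤ m)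
    (φ : Perm (Fin (m + 1)) →* G) (i1 : Function.Injective φ) (i2 : ∀ s : Perm (Fin (m + 1)), s.IsSwap → φ s ∈ D) :
    IsSym D (m + 1) ∨ ∃ ψ : Perm (Fin (m + 2)) →* G, Function.Injective ψ ∧ ∀ s : Perm (Fin (m + 2)), s.IsSwap → ψ s ∈ D := by
  have cj : ∀ a b, φ (a ⊳ b) = φ a ⊳ φ b := fun a b => by simp
  have cm : ∀ a b, Commute (φ a) (φ b) ↔ Commute a b := fun a b => ⟨fun c => i1 (by simpa using c.eq), fun c => c.map φ⟩
  have ms : ∀ i j, i ≠ j → φ (swap i j) ∈ D := fun i j n => i2 _ ⟨i, j, n, rfl⟩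
  refine or_iff_not_imp_left.2 fun ns => ?_
  obtain ⟨x, hx, nx, i, k, n⟩ : ∃ x ∈ D, (∀ i j, i ≠ j → x ≠ φ (swap i j)) ∧ ∃ i k, ¬ Commute x (φ (swap i k)) := by
    by_contra! q
    refine ns ⟨φ, sw_clo, ⟨i2, i1.injOn, fun y hy => ?_⟩, fun a _ b _ => cj a b⟩
    have z : (0 : Fin (m + 1)) ≠ Fin.last m := fun e => by simp [Fin.ext_iff] at e; omega
    obtain ⟨g, rfl⟩ := h.cls _ (ms _ _ z) y hy
    refine orb_ind (A := D) (q := (· ∈ φ '' {s | s.IsSwap})) (fun _ => tt_inv h.tt) ?_ (h.gen ▸ mem_top g)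
      ⟨_, ⟨_, _, z, rfl⟩, rfl⟩
    rintro y hy _ ⟨_, ⟨i, j, n, rfl⟩, rfl⟩
    by_cases r : ∀ i j, i ≠ j → y ≠ φ (swap i j)
    · exact ⟨_, ⟨i, j, n, rfl⟩, (fx (q y hy r i j)).symm⟩
    push Not at r
    obtain ⟨k, l, r, rfl⟩ := r
    exact ⟨_, sw_clo _ ⟨k, l, r, rfl⟩ _ ⟨i, j, n, rfl⟩, cj _ _⟩
  let R : Fin (m + 1) → Fin (m + 1) → Prop := fun i j => Commute x (φ (swap i j))
  have r0 : ∀ i, R i i := fun i => by simp [R, ← Perm.one_def]
  have r1 : ∀ {i j}, R i j → R j i := fun r => by simpa only [R, swap_comm] using r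
  have r2 : ∀ {i j k}, R i j → R j k → R i k := fun {i j k} a b => by
    by_cases e1 : k = i
    · exact e1 ▸ r0 k
    by_cases e2 : k = j
    · exact e2 ▸ a
    simpa only [R, ← sw_j e1 e2, cj] using cm3 a b
  have r3 : ∀ {i j k}, ¬ R i j → ¬ R j k → R i k := fun {i j k} a b => by
    by_cases e1 : k = i
    · exact e1 ▸ r0 k
    have e2 : i ≠ j := fun e => a (e ▸ r0 i)
    have e3 : k ≠ j := fun e => b (e ▸ r0 k)
    simpa only [R, ← sw_j e1 e3, cj] using s _ (ms i j e2) _ (ms j k e3.symm) x hx (mt (cm _ _).1 (sw_n e2 e1 e3)) a b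
  have r4 : ∀ {i j k l}, i ≠ j → k ≠ l → R i j → R k l → R i k := fun {i j k l} n1 n2 a b => by
    by_contra c
    have e1 : k ≠ i := fun e => c (e ▸ r0 k)
    have e2 : k ≠ j := fun e => c (e ▸ a)
    have e3 : l ≠ i := fun e => c (r1 (e ▸ b))
    have e4 : l ≠ j := fun e => c (r2 a (r1 (e ▸ b)))
    exact nd _ _ _ _ ⟨FS.of h.toTT, ms i k e1.symm, hx, ms i j n1, ms k l n2, a, b, (cm _ _).2 (sw_c e1 e2 e3 e4),
      nx i j n1, nx k l n2, fun e => by have := sw_eq n1 (i1 e); grind, c,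
      mt (cm _ _).1 (swap_comm i j ▸ sw_n n1.symm e2 e1), mt (cm _ _).1 (ncs (sw_n e1.symm e3 n2.symm))⟩
  obtain ⟨i, hi⟩ : ∃ i, ∀ j, j ≠ i → ¬ R i j := by
    by_contra! q
    obtain ⟨j, a, b⟩ := q i
    obtain ⟨l, c, d⟩ := q k
    exact n (r4 a.symm c.symm b d)
  let e := swap i (Fin.last m)
  let f : Fin (m + 1) → G := Fin.lastCases x fun k => φ (swap (e k.castSucc) (e k.succ))
  have ne : ∀ {a b : Fin (m + 1)}, a.val ≠ b.val → e a ≠ e b := fun q => e.injective.ne (Fin.ne_of_val_ne q)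
  have el : e (Fin.last m) = i := swap_apply_right _ _
  have f2 : ∀ a b : Fin (m + 1), a.val + 1 = b.val → ¬ Commute (f a) (f b) := fun a b q => by
    induction a using Fin.lastCases with
    | last => have := b.2; simp at q; omega
    | cast a =>
      induction b using Fin.lastCases with
      | last =>
        have : a.succ = Fin.last m := Fin.ext (by simpa using q)
        simp only [f, Fin.lastCases_last, Fin.lastCases_castSucc, this, el]
        exact fun c => hi _ (el ▸ ne (by simp; omega)) (r1 c.symm)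
      | cast b =>
        have : b.castSucc = a.succ := Fin.ext (by simpa using q.symm)
        simp only [f, Fin.lastCases_castSucc]
        rw [this, cm]
        exact sw_n (ne (by simp)) (ne (by simp at q ⊢; omega)) (ne (by simp at q ⊢; omega))
  have f1 : ∀ a, f a ∈ D := fun a => by
    induction a using Fin.lastCases with
    | last => simpa [f] using hx
    | cast a => simpa [f] using ms _ _ (ne (by simp))
  obtain ⟨ψ, k1, -⟩ := h.chain f f1 f2 fun a b q => by
    induction a using Fin.lastCases with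
    | last => have := b.2; simp at q; omega
    | cast a =>
      induction b using Fin.lastCases with
      | last =>
        simp only [f, Fin.lastCases_last, Fin.lastCases_castSucc]
        exact (r3 (mt r1 (hi _ (el ▸ ne (by simp at q ⊢; omega)))) (hi _ (el ▸ ne (by simp at q ⊢; omega)))).symm
      | cast b =>
        simp only [f, Fin.lastCases_castSucc, cm]
        simp at q
        exact sw_c (ne (by simp; omega)) (ne (by simp; omega)) (ne (by simp; omega)) (ne (by simp; omega))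
  have sg : ∀ a : Fin (m + 1), Perm.sign (adjSw a) = -1 := fun a => Perm.sign_swap (Fin.castSucc_lt_succ).ne
  refine ⟨ψ, inj_of_sym (by omega) ψ (x := adjSw 0 * adjSw ⟨1, by omega⟩) (by simp [sg]) fun q => ?_,
    sw_mem h.toTT ψ (Fin.castSucc_lt_succ (i := 0)).ne (k1 0 ▸ f1 0 :)⟩
  rw [map_mul, k1, k1] at q
  exact nce (f2 0 ⟨1, by omega⟩ rfl) (tt_eq_of_mul_eq_one h.tt (f1 0) q)

theorem sy_a [Finite G] (h : TP D) (s : Sy D) (nd : ∀ x a b c, ¬ St D x a b c) : ∃ n, 4 ≤ n ∧ IsSym D n := by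
  by_contra! q
  have : ∀ m, ∃ φ : Perm (Fin (m + 4)) →* G, Function.Injective φ ∧ ∀ s : Perm (Fin (m + 4)), s.IsSwap → φ s ∈ D := fun m => by
    induction m with
    | zero =>
      obtain ⟨a, ha, b, hb, n, c⟩ := h.wide
      obtain ⟨x, hx, n1, n2⟩ := tp_nn h ha ⟨hb, n.symm, c⟩
      obtain ⟨φ, i, e, -⟩ := h.s4 ha hx hb n c (ncs n1) n2
      exact ⟨φ, i, sw_mem h.toTT φ (by decide) (e ▸ ha)⟩
    | succ m ih =>
      obtain ⟨φ, a, b⟩ := ih
      exact (sy_step h s nd (by omega) φ a b).resolve_left (q _ (by omega))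
  obtain ⟨φ, i, -⟩ := this (Nat.card G)
  have := Nat.card_le_card_of_injective φ i
  rw [Nat.card_perm, Nat.card_fin] at this
  have := Nat.self_le_factorial (Nat.card G + 4)
  omega

end H1.Fi
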