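import Cfsg.Agent.H1.Fr
import Cfsg.Agent.H1.Fsy
import Cfsg.Agent.H28.Rf2
import Cfsg.Agent.H22.IsoA
import Cfsg.Agent.S0440
import Cfsg.Agent.S1631

/-! Fischer's theorem: from the models to the groups. -/

set_option autoImplicit false
set_option linter.unusedSectionVars false

namespace H1.Fi
open Cfsg H18 H28 H23 H12 Module Subgroup Matrix

variable {G M : Type*} [Group G] [Group M] {D : Set G} {E : Set M} {n : ℕ}

theorem quot_equiv (h : TC D) (hZ : center G = ⊥) (hE : closure E = ⊤) {σ : G → M} (f : FIso D E σ) :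
    ∃ e : G ≃* M ⧸ center M, e '' D = QuotientGroup.mk '' E := by
  obtain ⟨ψ, a, b, c⟩ := f.quot_hom fun _ => h.inv
  have m : ∀ g, g ∈ closure D := fun g => h.gen ▸ mem_top g
  have m' : ∀ g, g ∈ closure E := fun g => hE ▸ mem_top g
  let χ := QuotientGroup.map _ (center M) (closure E).subtype fun z hz => mem_center_iff.2 fun g =>
    congrArg Subtype.val (mem_center_iff.1 hz ⟨g, m' g⟩)
  let φ : G →* M ⧸ center M := χ.comp (ψ.comp ((MonoidHom.id G).codRestrict _ m))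
  have e : ∀ g y, ψ ⟨g, m g⟩ = (y : closure E) → φ g = (y.1 : M) := fun g y q => congrArg χ q
  refine ⟨MulEquiv.ofBijective φ ⟨(injective_iff_map_eq_one _).2 fun g q => ?_, fun z => ?_⟩,
    (Set.image_congr (g := fun x => (σ x : M ⧸ center M)) fun x hx => e x ⟨_, m' _⟩ (c _ _ hx rfl)).trans ?_⟩
  · obtain ⟨y, hy⟩ := QuotientGroup.mk_surjective (ψ ⟨g, m g⟩)
    rw [e g y hy.symm, QuotientGroup.eq_one_iff] at q
    have : (⟨g, m g⟩ : closure D) ∈ ψ.ker := hy.symm.trans ((QuotientGroup.eq_one_iff _).2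
      (mem_center_iff.2 fun k => Subtype.ext (mem_center_iff.1 q k)))
    rw [b] at this
    exact mem_bot.1 (hZ ▸ mem_center_iff.2 fun k => congrArg Subtype.val (mem_center_iff.1 this ⟨k, m k⟩))
  · obtain ⟨y, rfl⟩ := QuotientGroup.mk_surjective z
    obtain ⟨g, hg⟩ := a (⟨y, m' y⟩ : closure E)
    exact ⟨g, e g _ hg⟩
  · rw [← f.bij.image_eq, Set.image_image]

section
variable {F V ι : Type} [Field F] {σ : F →+* F} [AddCommGroup V] [Module F V] [Fintype ι] [DecidableEq ι] {Φ : Form σ V}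
  {Ψ : Form σ (ι → F)} {P : Set V} {π : V → G}
theorem LM.equiv (h : LM Φ P D π) {W : Type} [AddCommGroup W] [Module F W] {Ψ : Form σ W} (e : W ≃ₗ[F] V)
    (q : ∀ x y, Φ.B (e x) (e y) = Ψ.B x y) (he : Ψ.ε = 1) : LM Ψ (e ⁻¹' P) D fun x => π (e x) :=
  (h.comap e.toLinearMap e.surjective fun x hx => e.injective ((h.nd _ fun y => by
    simpa using hx (e.symm y)).trans (map_zero e).symm)).congr (fun x y => (q x y).symm) he
theorem LM.mat {P : Set (ι → F)} {π : (ι → F) → G} (h : LM Ψ P D π) (T : M →* Matrix ι ι F) (hT : Function.Injective T)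
    (h1 : ∀ g ∈ E, ∃ v ∈ P, ∀ x, T g *ᵥ x = x + Ψ.B v x • v) (h2 : ∀ v ∈ P, ∃ g ∈ E, ∀ x, T g *ᵥ x = x + Ψ.B v x • v) :
    ∃ τ, FIso D E τ := by
  choose! ρ m1 m2 using h2
  have : ρ '' P = E := Set.Subset.antisymm (by rintro _ ⟨v, hv, rfl⟩; exact m1 v hv) fun g hg =>
    let ⟨v, hv, q⟩ := h1 g hg; ⟨v, hv, hT (matrix_ext_mulVec fun x => by rw [q, m2 v hv])⟩
  obtain ⟨τ, t, -⟩ := h.iso (this ▸ (h.toPM.lm_of (matE T) (matE_injective hT) m2).1)
  exact ⟨τ, t⟩
end

theorem cent2 {ι : Type} [Fintype ι] [DecidableEq ι] {Ψ : Form (RingHom.id (ZMod 2)) (ι → ZMod 2)} {P : Set (ι → ZMod 2)}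
    (h : PM Ψ P) (T : M →* Matrix ι ι (ZMod 2)) (hT : Function.Injective T)
    (h2 : ∀ v ∈ P, ∃ g ∈ E, ∀ x, T g *ᵥ x = x + Ψ.B v x • v) (s : ∀ w, (∀ v ∈ P, Ψ.B v w = 0) → w = 0) :
    center M = ⊥ := (eq_bot_iff_forall _).2 fun z hz => hT (matrix_ext_mulVec fun x => by
  rw [map_one, one_mulVec]
  refine sub_eq_zero.1 (s _ fun v hv => ?_)
  obtain ⟨g, -, q⟩ := h2 v hv
  have k : ∀ x, Ψ.B v (T z *ᵥ x) • v = Ψ.B v x • (T z *ᵥ v) := fun x => by
    have := congrArg (fun g => T g *ᵥ x) (mem_center_iff.1 hz g)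
    simpa only [map_mul, ← mulVec_mulVec, q, mulVec_add, mulVec_smul, add_right_inj] using this
  obtain ⟨y, hy⟩ := h.nd.exists_ne (h.ne v hv)
  have k1 := k y
  rw [hy, one_smul] at k1
  rcases z2 (Ψ.B v (T z *ᵥ y)) with a | a <;> rw [a] at k1
  · exact (h.ne v hv ((matE T z).map_eq_zero_iff.1 (k1.symm.trans (zero_smul _ _)))).elim
  rw [one_smul] at k1
  rw [map_sub, sub_eq_zero, ← smul_left_inj (h.ne v hv), k, ← k1])

variable (h : TC D) (hZ : center G = ⊥)
include h hZ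
theorem conv_e (hE : closure E = ⊤) (zM : center M = ⊥) {σ : G → M} (f : FIso D E σ) : ∃ e : G ≃* M, e '' D = E := by
  obtain ⟨e, he⟩ := quot_equiv h hZ hE f
  let k := (QuotientGroup.quotientMulEquivOfEq zM).trans QuotientGroup.quotientBot
  refine ⟨e.trans k, ?_⟩
  rw [MulEquiv.coe_trans, Set.image_comp, he, Set.image_image]
  exact Set.image_id' E
theorem conv_sym (hn : 3 ≤ n) (k : IsSym D n) : ∃ e : G ≃* Equiv.Perm (Fin n), e '' D = {σ | σ.IsSwap} :=
  let ⟨_, k⟩ := k; let ⟨_, k, _⟩ := k.symm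
  conv_e h hZ Equiv.Perm.closure_isSwap ((eq_bot_iff_forall _).2 fun z hz => Equiv.ext fun i => by
    by_contra q
    obtain ⟨k, a, b⟩ := Fin.exists_ne_and_ne_of_two_lt i (z i) hn
    have := congrArg (· i) (mem_center_iff.1 hz (Equiv.swap (z i) k))
    simp only [Equiv.Perm.mul_apply, Equiv.swap_apply_left] at this
    rw [Equiv.swap_apply_of_ne_of_ne (show i ≠ z i from Ne.symm q) a.symm] at this
    exact b this) k
theorem conv_sp (hn : 1 ≤ n) (k : IsSp D n) : ∃ m, n = 2 * m ∧ ∃ e : G ≃* symplecticGroup (Fin m) (ZMod 2),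
    e '' D = {g : symplecticGroup (Fin m) (ZMod 2) | ((g : Matrix (Fin m ⊕ Fin m) (Fin m ⊕ Fin m) (ZMod 2)) - 1).rank = 1} := by
  obtain ⟨V, _, _, _, Φ, π, rfl, k⟩ := k
  have al : LinearMap.BilinForm.IsAlt (R := ZMod 2) Φ.B := fun v => by
    by_cases q : v = 0
    exacts [by simp [q], k.nm v q]
  obtain ⟨m, hm⟩ := even_finrank_of_alt al k.nd
  obtain ⟨e, he, -⟩ := exists_equiv_spForm (Φ := Form.ofAlt _ al) k.nd rfl rfl (hm.trans (two_mul m).symm)
  have l := k.equiv (Ψ := spForm m (ZMod 2)) e he rfl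
  have h2 : ∀ v ∈ e ⁻¹' {v | v ≠ 0}, ∃ g ∈ {g : symplecticGroup (Fin m) (ZMod 2) | (g.1 - 1).rank = 1},
      ∀ x, spToMat m _ g *ᵥ x = x + (spForm m (ZMod 2)).B v x • v := fun v hv => by
    have : ∀ x, sympTransvection m v (-1) *ᵥ x = x + (1 * (spForm m (ZMod 2)).B v x) • v := fun x => by
      rw [sympTransvection_mulVec', Form.qrefl_apply, neg_neg]
    exact ⟨⟨_, sympTransvection_mem m v (-1)⟩, rank_of_form l.nd (l.ne v hv) one_ne_zero this, by simpa using this⟩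
  obtain ⟨τ, t⟩ := l.mat (spToMat m _) Subtype.val_injective (fun g hg => by
    obtain ⟨d, hd, c, hc, q⟩ := rank_one_form l.nd ((Form.mem_O _).1 (matE_sp_mem g)).1 hg
    exact ⟨d, by simpa using hd, by simpa [(z2 c).resolve_left hc] using q⟩) h2
  refine ⟨m, hm.trans (two_mul m).symm, conv_e h hZ (Agent.S0440.result m (by omega)).2.2
    (cent2 l.toPM _ Subtype.val_injective h2 fun w hw => l.nd w fun y => ?_) t⟩
  by_cases q : y = 0
  exacts [by rw [q, map_zero], Form.B_eq_zero_symm _ (hw y (by simpa using q))]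
theorem conv_u (hn : 4 ≤ n) (k : IsU D n) : ∃ e : G ≃* PSU n K4 2, e '' D = (QuotientGroup.mk : SU n K4 2 → PSU n K4 2) ''
    {g : SU n K4 2 | (((g : SpecialLinearGroup (Fin n) K4) : Matrix (Fin n) (Fin n) K4) - 1).rank = 1} := by
  obtain ⟨V, _, _, _, Φ, π, rfl, k⟩ := k
  obtain ⟨e, he, -⟩ := exists_equiv_huForm card_K4 k.nd k.eps rfl
  have l := k.equiv e he rfl
  obtain ⟨τ, t⟩ := l.mat (E := {g : SU _ K4 2 | (g.1.1 - 1).rank = 1}) ((slToMat _ K4).comp (Subgroup.subtype _))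
    (fun a b e => Subtype.ext (Subtype.ext e)) (fun g hg => by
      obtain ⟨d, hd, c, hc, q⟩ := rank_one_form l.nd (M := g.1.1) (fun x y => g.2 y x) hg
      have h1 : LinearMap.det (LinearMap.transvection (c • (huForm card_K4 _).B d) d) = 1 := by
        rw [← g.1.2, ← LinearMap.det_toLin']
        exact congrArg _ (LinearMap.ext fun x => (q x).symm)
      rw [LinearMap.transvection.det, add_eq_left] at h1
      have h3 : (huForm card_K4 _).B d d = 0 := (mul_eq_zero.1 h1).resolve_left hc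
      obtain ⟨y, hy⟩ := l.nd.exists_ne hd
      have h4 : (huForm card_K4 _).B (g.1.1 *ᵥ y) (g.1.1 *ᵥ y) = (huForm card_K4 _).B y y := g.2 y y
      simp only [q, hy, bx, h3, l.sym d y, map_one, mul_one, mul_zero, add_zero] at h4
      obtain rfl := (k4_01 c (by grind)).resolve_left hc
      exact ⟨d, ⟨by simpa using hd, (he d d).trans h3⟩, fun x => (q x).trans (by rw [one_mul])⟩) fun v hv => by
      have q : (huForm card_K4 _).B v v = 0 := (he v v).symm.trans hv.2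
      have hB := (huForm card_K4 _).qrefl_B (d := v) (c := 1) (by rw [q]; simp; decide)
      obtain ⟨A, hA⟩ := exists_SU_eq card_K4 (g := Form.equivOfIsometry l.nd _ hB)
        ((Form.mem_O _).2 ⟨hB, fun _ => rfl⟩) (by
          show LinearMap.det ((huForm card_K4 _).qrefl _ _) = 1
          rw [Form.qrefl_eq_transvection, LinearMap.transvection.det]
          simp only [one_smul, q, add_zero])
      have := fun x => (DFunLike.congr_fun hA x).trans ((Form.equivOfIsometry_apply l.nd _ hB x).trans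
        (Form.qrefl_apply _ _ _ _))
      exact ⟨A, rank_of_form l.nd (l.ne v hv) one_ne_zero this, fun x => (this x).trans (by rw [one_mul])⟩
  exact quot_equiv h hZ (Agent.S1631.result K4 card_K4 _ hn).2.2 t
omit h hZ in
theorem o2_span {V : Type*} [AddCommGroup V] [Module (ZMod 2) V] {Q : QuadraticForm (ZMod 2) V} (nd : (Form.ofQuad Q).Nondeg)
    {u v : V} (hu : Q u = 1) (hv : Q v = 1) (n : u ≠ v) (w : V) (k : ∀ v, Q v = 1 → (Form.ofQuad Q).B v w = 0) : w = 0 := by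
  by_contra q
  obtain ⟨y, hy⟩ := nd.exists_ne q
  have s : ∀ x y, (Form.ofQuad Q).B x y = (Form.ofQuad Q).B y x := fun x y => QuadraticMap.polar_comm _ _ _
  have a : ∀ y, (Form.ofQuad Q).B w y = 1 → Q y = 0 := fun y hy =>
    (z2 _).resolve_right fun e => zero_ne_one ((k y e).symm.trans ((s _ _).trans hy))
  have b : ∀ v, Q v = 1 → ∀ y, (Form.ofQuad Q).B w y = 1 → (Form.ofQuad Q).B v y = 1 := fun v hv y hy => by
    have := a (v + y) (by rw [map_add, s w v, k v hv, hy, zero_add])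
    rw [QuadraticMap.map_add Q, hv, a y hy, ← Form.ofQuad_B] at this
    revert this; generalize (Form.ofQuad Q).B v y = t; revert t; decide
  have c : ∀ v, Q v = 1 → v = w := fun v hv => nd.eq_of_forall fun x => by
    rcases z2 ((Form.ofQuad Q).B w x) with e | e
    · have := b v hv (y + x) (by rw [map_add, e, hy, add_zero])
      rwa [map_add, b v hv y hy, add_eq_left, ← e] at this
    rw [e, b v hv x e]
  exact n ((c u hu).trans (c v hv).symm)
theorem conv_q {ι : Type} [Fintype ι] [DecidableEq ι] {Q : QuadraticForm (ZMod 2) (ι → ZMod 2)} {π : _ → G}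
    (l : LM (Form.ofQuad Q) {v | Q v = 1} D π) (h4 : Fintype.card ι ≠ 4) : ∃ e : G ≃* isometryGroup (ZMod 2) Q,
      e '' D = {g : isometryGroup (ZMod 2) Q | (((g : GL ι (ZMod 2)) : Matrix ι ι (ZMod 2)) - 1).rank = 1} := by
  let T : isometryGroup (ZMod 2) Q →* Matrix ι ι (ZMod 2) := (Units.coeHom _).comp (Subgroup.subtype _)
  have hT : Function.Injective T := fun a b e => Subtype.ext (Units.ext e)
  have h2 : ∀ v ∈ {v | Q v = 1}, ∃ g ∈ {g : isometryGroup (ZMod 2) Q | (g.1.1 - 1).rank = 1},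
      ∀ x, T g *ᵥ x = x + (Form.ofQuad Q).B v x • v := fun v hv => by
    obtain ⟨g, hg⟩ := (H22.isomEquiv Q).surjective (H22.refl (Form.ofQuad_κ Q) v)
    have : ∀ x, g.1.1 *ᵥ x = x + (-1 * (Form.ofQuad Q).B v x) • v := fun x => by
      rw [← H22.isomEquiv_apply, hg, H22.refl_apply, Form.ofQuad_Q, show Q v = 1 from hv, inv_one, neg_mul, neg_smul,
        sub_eq_add_neg]
    exact ⟨g, rank_of_form l.nd (l.ne v hv) (by decide) this, fun x => (this x).trans (by
      rw [show (-1 : ZMod 2) = 1 from rfl, one_mul])⟩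
  obtain ⟨τ, t⟩ := l.mat T hT (fun g hg => by
    obtain ⟨d, hd, c, hc, q⟩ := rank_one_form l.nd ((Form.mem_O _).1 (H22.isomEquiv Q g).2).1 hg
    simp only [(z2 c).resolve_left hc, one_mul] at q
    obtain ⟨y, hy⟩ := l.nd.exists_ne hd
    have h1 : Q (g.1.1 *ᵥ y) = Q y := g.2 y y
    rw [q, hy, one_smul, QuadraticMap.map_add Q, add_assoc, add_eq_left, QuadraticMap.polar_comm, ← Form.ofQuad_B, hy] at h1
    exact ⟨d, show Q d = 1 by linear_combination h1 - CharTwo.two_eq_zero (R := ZMod 2), q⟩) h2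
  obtain ⟨a, ha, b, hb, n⟩ := h.two
  obtain ⟨u, hu, rfl⟩ := l.sur ha
  obtain ⟨v, hv, rfl⟩ := l.sur hb
  exact conv_e h hZ (three_class_orth Q l.nd h4 ⟨u, by rw [show Q u = 1 from hu]; decide⟩).2.2
    (cent2 l.toPM T hT h2 (o2_span l.nd hu hv (mt (congrArg π) n))) t
theorem conv_o2 (hn : 6 ≤ n) (k : IsO2 D n) : (∃ m : ℕ, 3 ≤ m ∧ ∃ e : G ≃* isometryGroup (ZMod 2) (quadFormPlus m (ZMod 2)),
    e '' D = {g : isometryGroup (ZMod 2) (quadFormPlus m (ZMod 2)) |
      (((g : GL (Fin m ⊕ Fin m) (ZMod 2)) : Matrix (Fin m ⊕ Fin m) (Fin m ⊕ Fin m) (ZMod 2)) - 1).rank = 1}) ∨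
    ∃ m : ℕ, 2 ≤ m ∧ ∃ e : G ≃* isometryGroup (ZMod 2) (quadFormMinus m (ZMod 2) 1 1),
      e '' D = {g : isometryGroup (ZMod 2) (quadFormMinus m (ZMod 2) 1 1) | (((g : GL ((Fin m ⊕ Fin m) ⊕ Fin 2) (ZMod 2)) :
        Matrix ((Fin m ⊕ Fin m) ⊕ Fin 2) ((Fin m ⊕ Fin m) ⊕ Fin 2) (ZMod 2)) - 1).rank = 1} := by
  obtain ⟨V, _, _, _, Q, π, rfl, k⟩ := k
  obtain ⟨m, hm⟩ := even_finrank_of_alt (B := QuadraticMap.polarBilin Q) (fun v => by
    simp [QuadraticMap.polar_self, two_smul, CharTwo.add_self_eq_zero]) k.nd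
  obtain ⟨m, rfl⟩ : ∃ k, m = k + 1 := ⟨m - 1, by omega⟩
  refine (H22.exists_equiv_plus_or_minus k.nd (hm.trans (two_mul _).symm) (a := 1) (b := 1) (by decide)).imp
    (fun ⟨e, he⟩ => ⟨_, by omega, conv_q h hZ (Q := H22.qPlus _ _) (π := fun x => π (e x)) ?_ (by simp; omega)⟩)
    fun ⟨e, he⟩ => ⟨_, by omega, conv_q h hZ (Q := H22.qMinus _ _ 1 1) (π := fun x => π (e x)) ?_ (by simp; omega)⟩
  all_goals simpa only [Set.preimage_setOf_eq, he] using k.equiv (Ψ := Form.ofQuad _) e (fun x y => by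
    simp only [Form.ofQuad_B, QuadraticMap.polar, ← map_add, he]) rfl
theorem conv_o3 (k : IsO3 D n) : ∃ Q : QuadraticForm (ZMod 3) (Fin n → ZMod 3), (Form.ofQuad Q).Nondeg ∧
    ∃ e : G ≃* reflectionSubgroup Q 2 ⧸ center (reflectionSubgroup Q 2),
      e '' D = (QuotientGroup.mk : reflectionSubgroup Q 2 → _) ''
        {g : reflectionSubgroup Q 2 | (g : isometryGroup (ZMod 3) Q) ∈ reflectionsOfNorm Q 2} := by
  obtain ⟨V, _, _, _, Φ, π, rfl, k⟩ := k
  let e := (finBasis F3 V).equivFun.symm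
  let Q : QuadraticForm F3 _ := LinearMap.BilinMap.toQuadraticMap ((2 : F3) • (Φ.comap e.toLinearMap).B)
  have hQ : ∀ v, Q v = 2 * Φ.B (e v) (e v) := fun _ => rfl
  have l := k.equiv (Ψ := Form.ofQuad Q) e (fun x y => by
    simp only [Form.ofQuad_B, QuadraticMap.polar, hQ, map_add, LinearMap.add_apply, k.sy (e y) (e x)]; grind) rfl
  have i : ∀ v, v ∈ e ⁻¹' P3 Φ ↔ Q v = 2 := fun v => by
    rw [hQ]; exact (mul_eq_left₀ (by decide)).symm
  have r : ∀ v, Q v = 2 → ∀ x, reflectionMatrix Q v *ᵥ x = x + (Form.ofQuad Q).B v x • v := fun v hv x => by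
    rw [H22.reflectionMatrix_mulVec, H22.refl_apply, Form.ofQuad_Q, hv, inv_eq_of_mul_eq_one_right (show (2 : F3) * -1 = 1 by decide), neg_one_mul, neg_smul,
      sub_neg_eq_add]
  obtain ⟨τ, t⟩ := l.mat (E := {g : reflectionSubgroup Q 2 | g.1 ∈ reflectionsOfNorm Q 2})
    (((Units.coeHom _).comp (Subgroup.subtype _)).comp (Subgroup.subtype _))
    (fun a b e => Subtype.ext (Subtype.ext (Units.ext e)))
    (fun g ⟨v, hv, q⟩ => ⟨v, (i v).2 hv, fun x => (congrArg (· *ᵥ x) q).trans (r v hv x)⟩) fun v hv => by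
      have m : (H22.isomEquiv Q).symm (H22.refl (Form.ofQuad_κ Q) v) ∈ reflectionsOfNorm Q 2 :=
        ⟨v, (i v).1 hv, H22.coe_eq_reflectionMatrix_iff.2 (MulEquiv.apply_symm_apply _ _)⟩
      exact ⟨⟨_, subset_closure m⟩, m, fun x => (congrArg (· *ᵥ x)
        (H22.coe_eq_reflectionMatrix_iff.2 (MulEquiv.apply_symm_apply _ _))).trans (r v ((i v).1 hv) x)⟩
  exact ⟨Q, l.nd, quot_equiv h hZ closure_closure_coe_preimage t⟩

end H1.Fi
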