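import Cfsg.Agent.H1.Fa

/-! The disconnected case of Fischer's theorem. -/

set_option autoImplicit false
set_option linter.unusedSectionVars false
set_option maxRecDepth 100000

namespace H1.Fi
open Cfsg H18 H28 H23 Subgroup Equiv
open scoped commutatorElement

universe u
variable {G : Type u} [Group G] [Finite G] {D A : Set G} {a b d x y g : G}

/-- a component of the commuting graph -/
def cp (D : Set G) (a : G) : Set G := {y | y ∈ D ∧ CR D a y}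
/-- a disconnected class -/
structure Dc (D : Set G) : Prop extends TC D where
  z : center G = ⊥
  o2 : pCore 2 G = ⊥
  o3 : pCore 3 G = ⊥
  dis : ∀ a ∈ D, ∃ x ∈ D, ¬ CR D a x

theorem LM.lift {F V : Type*} [Field F] {σ : F →+* F} [AddCommGroup V] [Module F V] {Φ : Form σ V} {P : Set V} {π : V → G}
    (l : LM Φ P A π) (hi : ∀ y ∈ A, y⁻¹ = y) (hg : g ∈ closure A) :
    ∃ T : V →ₗ[F] V, ∀ v ∈ P, T v ∈ P ∧ g ⊳ π v = π (T v) := by
  have st : ∀ y ∈ A, ∀ z : G, (∃ T : V →ₗ[F] V, ∀ v ∈ P, T v ∈ P ∧ z ⊳ π v = π (T v)) →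
      ∃ T : V →ₗ[F] V, ∀ v ∈ P, T v ∈ P ∧ (y * z) ⊳ π v = π (T v) := fun y hy z ⟨T, q⟩ => by
    obtain ⟨w, hw, rfl⟩ := l.sur hy
    exact ⟨(LinearMap.id + (Φ.B w).smulRight w).comp T, fun v hv =>
      ⟨l.cl _ (q v hv).1 w hw, by rw [cjm, (q v hv).2, l.cj _ (q v hv).1 w hw]; rfl⟩⟩
  induction hg using closure_induction_left with
  | one => exact ⟨LinearMap.id, fun v hv => ⟨hv, by simp⟩⟩
  | mul_left y hy z _ ih => exact st y hy z ih
  | inv_mul_cancel y hy z _ ih => rw [hi y hy]; exact st y hy z ih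
theorem LM.fixp {F V : Type*} [Field F] {σ : F →+* F} [AddCommGroup V] [Module F V] {Φ : Form σ V} {P : Set V} {π : V → G}
    (l : LM Φ P A π) (hi : ∀ y ∈ A, y⁻¹ = y) (hg : g ∈ closure A) (k : ∀ v, v ≠ 0 → Φ.B v v = 0 → v ∈ P) (h2 : (-2 : F) = 0)
    (sq : ∀ t : F, ∃ s, s * s = t) (ha : a ∈ A) (g2 : g ⊳ g ⊳ a = a) (c : Commute a (g ⊳ a)) : ∃ b ∈ A, g ⊳ b = b := by
  by_cases n : g ⊳ a = a
  · exact ⟨a, ha, n⟩
  obtain ⟨T, q⟩ := l.lift hi hg
  obtain ⟨v, hv, rfl⟩ := l.sur ha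
  obtain ⟨m, e⟩ := q v hv
  rw [e] at n c g2
  obtain ⟨t, e'⟩ := (l.eq v hv _ (q _ m).1).1 (g2.symm.trans (q _ m).2)
  obtain ⟨s, rfl⟩ := sq t
  have o := l.b0 hv m c (Ne.symm n)
  have w : s • v + T v ∈ P := k _ (fun z => n ((l.eq v hv _ m).2 ⟨-s, by linear_combination (norm := module) z⟩).symm) (by
    simp [l.nm v hv, l.nm _ m, h2, o, l.sym v (T v)])
  exact ⟨_, l.mem w, (q _ w).2.trans ((l.eq _ w _ (q _ w).1).2 ⟨s, by rw [map_add, map_smul, e']; module⟩).symm⟩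

namespace Dc
variable (h : Dc D)
include h
theorem qs : IsQuasisimple (layer G) := h.layer_qs (h.layer_ne_bot (h.o2.le.trans bot_le) (h.o3.le.trans bot_le))
theorem fst : generalizedFittingSubgroup G = layer G ⊔ center G := h.fstar_eq (h.o2.le.trans bot_le) (h.o3.le.trans bot_le)
theorem cen : centralizer (layer G : Set G) ≤ center G := h.cent_le (h.o2.le.trans bot_le) (h.o3.le.trans bot_le) h.fst
theorem mul (ha : a ∈ D) (r : CR D a b) : a * b ∈ layer G := by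
  induction r with
  | refl => rw [h.sq ha]; exact one_mem _
  | tail _ h2 ih =>
    have := mul_mem ih (h.mul_mem_of_comm h.qs h.cen h2.2.2 h2.1 (by rw [h2.2.1.eq]; simp))
    rwa [mul_assoc, h.mm h2.2.2] at this
theorem wide (hd : d ∈ D) : ∃ b ∈ D, d ≠ b ∧ Commute d b := by
  by_contra! k
  obtain ⟨a, ha, b, hb, n⟩ := h.two
  refine n (tt_eq_of_mul_eq_one h.tt ha (mem_bot.1 (h.o3 ▸ h.mul_mem_O3_of (fun a ha b hb c => ?_) ha hb)))
  obtain ⟨g, rfl⟩ := h.cls d hd a ha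
  obtain ⟨b, rfl⟩ := (MulAut.conj g).surjective b
  by_contra q
  exact k b (by simpa [mul_assoc] using h.cj' g hb) (fun e => q (e ▸ rfl)) (cmi.1 c)
theorem fix (hg : g ∈ layer G) (ha : a ∈ D) : CR D a (g ⊳ a) := by
  have := h.cr.normal h.toTT
  refine h.cr.fix' h.toTT (((H5.qs_normal h.qs (N := relGrp D (CR D)) ((closure_le _).2 ?_) le_normalizer_of_normal).resolve_right
    fun q => ?_).ge hg) a ha
  · rintro _ ⟨a, ha, b, -, r, rfl⟩; exact h.mul ha r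
  obtain ⟨b, hb, n, c⟩ := h.wide ha
  exact n (tt_eq_of_mul_eq_one h.tt ha (mem_bot.1 (h.z ▸ h.cen (q (mem_relGrp ha hb (.single ⟨hb, c, ha⟩))))))
theorem nc' (ha : a ∈ cp D d) (hx : x ∈ D) (n : ¬ CR D d x) : ¬ Commute a x := fun c => n (ha.2.tail ⟨hx, c, ha.1⟩)
theorem nmul (ha : a ∈ D) (hx : x ∈ D) (n : ¬ CR D a x) : a * x ∉ layer G := fun m =>
  n (tt_isConj h.tt ha hx (h.nc' ⟨ha, .refl⟩ hx n) ▸ h.fix m ha)
theorem nm (hd : d ∈ D) : d ∉ layer G := fun m => by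
  obtain ⟨x, hx, n⟩ := h.dis d hd
  obtain ⟨g, rfl⟩ := h.cls d hd x hx
  exact h.nmul hd hx n (mul_mem m (H5.layer_normal.conj_mem d m g))
theorem le (hd : d ∈ D) : layer G ≤ closure (cp D d) := by
  refine (h.qs_comm h.qs hd).ge.trans ((h.comm_le_prods _ hd).trans ((closure_le _).2 ?_))
  rintro _ ⟨_, ⟨g, hg, rfl⟩, _, ⟨k, hk, rfl⟩, rfl⟩
  exact mul_mem (subset_closure ⟨h.cj g d hd, h.fix hg hd⟩) (subset_closure ⟨h.cj k d hd, h.fix hk hd⟩)
theorem mul' (ha : a ∈ cp D d) (hb : b ∈ cp D d) : a * b ∈ layer G := h.mul ha.1 ((h.cr.symm ha.2).trans hb.2)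
theorem cjm' (hg : g ∈ layer G) (ha : a ∈ cp D d) : g ⊳ a ∈ cp D d := ⟨h.cj g a ha.1, ha.2.trans (h.fix hg ha.1)⟩
theorem fs : FS (cp D d) := ⟨tt_subset h.tt fun _ k => k.1, fun a ha b hb => by
  have := h.cjm' (h.mul' ha hb) hb
  rwa [cjm, fx (Commute.refl b)] at this⟩
theorem iso (g : G) : FIso (cp D d) (cp D (g ⊳ d)) fun y => g ⊳ y := FIso.of_conj h.fs.clo g fun y =>
  ⟨fun k => ⟨by simpa [mul_assoc] using h.cj' g k.1, by simpa [mul_assoc] using h.cr.cj g⁻¹ k.2⟩,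
    fun k => ⟨h.cj g y k.1, h.cr.cj g k.2⟩⟩
theorem com (hd : d ∈ D) : ⁅closure (cp D d), closure (cp D d)⁆ = layer G := by
  refine le_antisymm (commutator_le.2 fun a ha b hb => ?_) ((H5.qs_perfect h.qs).ge.trans (commutator_mono (h.le hd) (h.le hd)))
  have : closure (cp D d) ≤ (zpowers (d : G ⧸ layer G)).comap (QuotientGroup.mk' _) := (closure_le _).2 fun y hy =>
    (QuotientGroup.eq.2 (by rw [h.inv hd]; exact h.mul hd hy.2) : (d : G ⧸ layer G) = y) ▸ mem_zpowers _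
  obtain ⟨m, e⟩ := this ha
  obtain ⟨n, f⟩ := this hb
  rw [← QuotientGroup.eq_one_iff, ← QuotientGroup.mk'_apply, map_commutatorElement, ← e, ← f,
    commutatorElement_eq_one_iff_commute]
  exact (Commute.refl _).zpow_zpow m n
theorem eqv (hd : d ∈ D) : Nonempty (layer G ≃* commutator (closure (cp D d))) :=
  ⟨(MulEquiv.subgroupCongr ((map_subtype_commutator _).trans (h.com hd)).symm).trans
    (equivMapOfInjective _ _ (subtype_injective _)).symm⟩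
theorem npf (hd : d ∈ D) : commutator (closure (cp D d)) ≠ ⊤ := fun e => h.nm hd (by
  rw [← h.com hd, ← map_subtype_commutator, e]; exact ⟨⟨d, subset_closure ⟨hd, .refl⟩⟩, mem_top _, rfl⟩)
theorem zc {K : Subgroup G} (k : layer G ≤ K) : center K = ⊥ := (eq_bot_iff_forall _).2 fun _ hz => Subtype.ext
  (mem_bot.1 (h.z ▸ h.cen (mem_centralizer_iff.2 fun g hg => congrArg Subtype.val (mem_center_iff.1 hz ⟨g, k hg⟩))))
theorem tp (hd : d ∈ D) : TP (sub (cp D d)) := by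
  obtain ⟨x, hx, n⟩ := h.dis d hd
  obtain ⟨b, hb, k, c⟩ := h.wide hd
  have m : ∀ a ∈ cp D d, ∀ e ∈ D, Commute a e → e ∈ cp D d := fun a ha e he c => ⟨he, ha.2.tail ⟨he, c, ha.1⟩⟩
  refine tp_sub h.fs (fun a ha b hb => ?_) ⟨d, ⟨hd, .refl⟩, b, m d ⟨hd, .refl⟩ b hb c, k, c⟩ (fun a ha b hb v => ?_)
    (fun a ha b hb e => ?_) fun a ha b hb => ?_
  · by_cases c : Commute a b
    · have n1 := h.nc' ha hx n
      have n2 := h.nc' hb hx n
      exact ⟨_, h.le hd (h.mul hx (.single ⟨h.cj _ _ (h.cj _ _ hx), s4 h.tt hx ha.1 hb.1 n1 n2 c, hx⟩)),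
        by rw [cjm, s4sw h.tt hx ha.1 hb.1 n1 n2 c]⟩
    exact ⟨_, h.le hd (h.mul' ha hb), (tt_isConj h.tt ha.1 hb.1 c).symm⟩
  · exact (h.O2_central_iff ha.1).1 (h.o2.le.trans bot_le) b hb.1 fun e he =>
      ⟨fun c => (v e (m a ha e he c)).1 c, fun c => (v e (m b hb e he c)).2 c⟩
  · exact (h.O3_central_iff ha.1).1 (h.o3.le.trans bot_le) b hb.1 fun w hw =>
      ⟨fun c => (e.subset ⟨m a ha _ hw c.2, c⟩).2, fun c => (e.superset ⟨m b hb _ hw c.2, c⟩).2⟩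
  have := (h.cr.symm ha.2).trans hb.2
  clear hb
  induction this with
  | refl => exact .refl
  | tail r k ih => exact ih.tail ⟨⟨k.1, (ha.2.trans r).tail k⟩, k.2.1, k.2.2, ha.2.trans r⟩
theorem inv2 (hd : d ∈ D) : ∃ g ∈ closure (cp D d), ∀ a ∈ cp D d, g ⊳ g ⊳ a = a ∧ Commute a (g ⊳ a) ∧ g ⊳ a ≠ a := by
  obtain ⟨x, hx, n⟩ := h.dis d hd
  obtain ⟨y, hy, k, c⟩ := h.wide hx
  refine ⟨x * y, h.le hd (h.mul hx (.single ⟨hy, c, hx⟩)), fun a ha => ?_⟩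
  have n1 := ncs (h.nc' ha hx n)
  have n2 := ncs (h.nc' ha hy fun r => n (r.tail ⟨hx, c.symm, hy⟩))
  rw [cjm, cjm, cjs c.symm, cc h.tt hx, cc h.tt hy]
  exact ⟨rfl, s4 h.tt ha.1 hx hy n1 n2 c, s4ne h.tt ha.1 hx hy n1 k⟩
theorem five (hd : d ∈ D) (f : Fin 4 → G) (h1 : ∀ i, f i ∈ cp D d)
    (h2 : ∀ i j : Fin 4, i.val + 1 = j.val → ¬ Commute (f i) (f j)) (h3 : ∀ i j : Fin 4, i.val + 1 < j.val → Commute (f i) (f j)) :
    5 ∣ (cp D d).ncard := by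
  classical
  obtain ⟨x, hx, n⟩ := h.dis d hd
  obtain ⟨g, rfl⟩ := h.cls d hd x hx
  rw [(h.iso g).ncard]
  obtain ⟨φ, e, -⟩ := h.chain f (fun i => (h1 i).1) h2 h3
  have m : f 0 * f 1 * (f 2 * f 3) ∈ layer G := mul_mem (h.mul' (h1 0) (h1 1)) (h.mul' (h1 2) (h1 3))
  have o : (f 0 * f 1 * (f 2 * f 3)) ^ 5 = 1 := by
    rw [← e, ← e, ← e, ← e, ← map_mul, ← map_mul, ← map_mul, ← map_pow, show _ ^ 5 = (1 : Perm (Fin 5)) by decide, map_one]
  let ρ : layer G →* Perm (cp D (g ⊳ d)) := MonoidHom.toHomPerm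
    { toFun := fun s y => ⟨s.1 ⊳ y.1, h.cjm' s.2 y.2⟩
      map_one' := funext fun y => Subtype.ext (by simp; rfl)
      map_mul' := fun s t => funext fun y => Subtype.ext (cjm _ _ _) }
  have := Fintype.ofFinite (cp D (g ⊳ d))
  have : Fact (Nat.Prime 5) := ⟨by norm_num⟩
  by_contra q
  obtain ⟨⟨b, hb⟩, k⟩ := Perm.exists_fixed_point_of_prime (p := 5) (n := 1) (α := cp D (g ⊳ d)) (by
    rwa [← Nat.card_eq_fintype_card, Nat.card_coe_set_eq]) (σ := ρ ⟨_, m⟩) (by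
      rw [← map_pow, pow_one, show (⟨_, m⟩ : layer G) ^ 5 = 1 from Subtype.ext o, map_one])
  have k : f 0 ⊳ f 1 ⊳ f 2 ⊳ f 3 ⊳ b = b := by rw [← cjm (f 2), ← cjm (f 0), ← cjm]; exact congrArg Subtype.val k
  have nb : ∀ a ∈ cp D d, ¬ Commute a b := fun a ha => h.nc' ha hb.1 fun r => n (r.trans (h.cr.symm hb.2))
  have u := h.fs.clo _ (h1 2) _ (h1 1)
  have := s4 h.tt hb.1 (h1 2).1 (h1 0).1 (nb _ (h1 2)) (nb _ (h1 0)) (h3 0 2 (by decide)).symm
  rw [← (Fi.eqv h.tt (h1 0).1).1 k, ← cje h.tt (h1 2).1, ← cmv h.tt u.1, cbc h.tt hb.1 u.1 (h1 3).1 (nb _ u) (nb _ (h1 3))] at this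
  exact nc3' h.tt (h1 2).1 (h1 1).1 (ncs (h2 1 2 rfl)) (h3 1 3 (by decide)).symm (ncs (h2 2 3 rfl)) this.symm
theorem aut : Nat.card (G ⧸ layer G) * Nat.card (layer G) ∣ Nat.card (MulAut (layer G)) := by
  rw [← card_eq_card_quotient_mul_card_subgroup]
  exact card_dvd_of_injective MulAut.conjNormal ((injective_iff_map_eq_one _).2 fun x hx => mem_bot.1 (h.z ▸ h.cen
    (mem_centralizer_iff.2 fun y hy => (conj_eq_iff_commute.1 (congrArg (fun f : MulAut (layer G) => (f ⟨y, hy⟩).1) hx)).symm)))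
theorem three : 3 ∣ Nat.card (G ⧸ layer G) := by
  obtain ⟨a, ha⟩ := h.ne
  obtain ⟨x, hx, n⟩ := h.dis a ha
  have : Fact (Nat.Prime 3) := ⟨Nat.prime_three⟩
  exact orderOf_eq_prime (x := ((a * x : G) : G ⧸ layer G)) (by
    rw [← QuotientGroup.mk_pow, tt_cube h.tt ha hx (h.nc' ⟨ha, .refl⟩ hx n)]; rfl)
    (mt (QuotientGroup.eq_one_iff _).1 (h.nmul ha hx n)) ▸ orderOf_dvd_natCard _
theorem s3 (k : Nat.card (G ⧸ layer G) ∣ 24) : Nonempty (G ⧸ layer G ≃* Perm (Fin 3)) := by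
  have : Fact (Nat.Prime 3) := ⟨Nat.prime_three⟩
  have t : TT (QuotientGroup.mk' (layer G) '' D) := ⟨⟨by
    rintro _ ⟨a, ha, rfl⟩
    exact orderOf_eq_prime (by rw [← map_pow, sq, h.sq ha, map_one]) (mt (QuotientGroup.eq_one_iff _).1 (h.nm ha)), by
    rintro _ ⟨a, ha, rfl⟩ _ ⟨b, hb, rfl⟩
    exact (h.tt.2 a ha b hb).imp (fun e => by rw [← map_mul, ← map_pow, e, map_one]) fun e => by
      rw [← map_mul, ← map_pow, e, map_one]⟩, by
    rintro g _ ⟨a, ha, rfl⟩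
    obtain ⟨g, rfl⟩ := QuotientGroup.mk'_surjective _ g
    exact ⟨_, h.cj g a ha, rfl⟩⟩
  have w : ∀ a ∈ QuotientGroup.mk' (layer G) '' D, ∀ b ∈ QuotientGroup.mk' (layer G) '' D, Commute a b → a = b := by
    rintro _ ⟨a, ha, rfl⟩ _ ⟨b, hb, rfl⟩ c
    rcases h.cube_or ha hb with e | e
    · exact QuotientGroup.eq.2 (by rw [h.inv ha]; exact h.mul ha (.single ⟨hb, e, ha⟩))
    exact t.eq_of_cube ⟨a, ha, rfl⟩ ⟨b, hb, rfl⟩ c (by rw [← map_mul, ← map_pow, e, map_one])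
  obtain ⟨a, ha⟩ := h.ne
  obtain ⟨b, hb, n⟩ := h.dis a ha
  have ma : _ ∈ QuotientGroup.mk' (layer G) '' D := ⟨a, ha, rfl⟩
  have mb : _ ∈ QuotientGroup.mk' (layer G) '' D := ⟨b, hb, rfl⟩
  have ne : QuotientGroup.mk' (layer G) a * QuotientGroup.mk' (layer G) b ≠ 1 := mt (QuotientGroup.eq_one_iff _).1 (h.nmul ha hb n)
  have i2 := index_le_two_of_sup (t.sq ma) (top_of_coset (by
    rw [← MonoidHom.map_closure, h.gen, map_top_of_surjective _ (QuotientGroup.mk'_surjective _)]) t ma fun _ => t.mul_mem_O3_of w ma)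
  obtain ⟨j, p⟩ := IsPGroup.iff_card.1 (H1.isPGroup_pCore (G := G ⧸ layer G) 3)
  have p3 : 3 ^ j ≤ 3 := by
    have := (p ▸ card_subgroup_dvd_card _).trans k
    rcases j with _ | _ | j
    exacts [by simp, by simp, absurd ((pow_dvd_pow 3 (by omega : 2 ≤ j + 1 + 1)).trans this) (by decide)]
  have c6 := (pCore 3 (G ⧸ layer G)).card_mul_index
  obtain ⟨φ, e, -⟩ := t.chain ![_, _] (fun i => by fin_cases i; exacts [ma, mb])
    (fun i j e => by
      fin_cases i <;> fin_cases j <;> first | (simp at e; done) | exact fun c => ne (w _ ma _ mb c ▸ t.sq ma))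
    fun i j e => by omega
  have e0 : φ (swap 0 1) = _ := e 0
  have e1 : φ (swap 1 2) = _ := e 1
  have i : Function.Injective φ := (injective_iff_map_eq_one φ).2 fun g q => by
    by_contra m
    obtain ⟨s, t, k⟩ := (by decide +kernel : ∀ g : Perm (Fin 3), g ≠ 1 → ∃ s t, t * (s * g * s⁻¹ * g⁻¹) * t⁻¹ =
      swap 0 1 * swap 1 2) g m
    exact ne (by simpa [q, e0, e1] using (congrArg φ k).symm)
  exact ⟨(MulEquiv.ofBijective φ ((Nat.bijective_iff_injective_and_card _).2 ⟨i, le_antisymm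
    (Nat.card_le_card_of_injective _ i) (by rw [Nat.card_perm, Nat.card_fin, ← c6, p]; exact Nat.mul_le_mul p3 i2)⟩)).symm⟩
end Dc

end H1.Fi
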