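import Cfsg.Agent.H1.Fb
import Cfsg.Agent.H1.Fc

/-! Fischer's theorem: the group of the residue. -/

set_option autoImplicit false
set_option linter.unusedSectionVars false

namespace H1.Fi
open Cfsg H18 H28 H23 Module Subgroup Equiv

variable {G : Type*} [Group G] {D : Set G} {a b c d x y : G} {n : ℕ}

theorem tc_sub [Finite G] (h : TP D) (hd : d ∈ D) : TC (sub (dd D d)) := by
  obtain ⟨x, hx, n⟩ := h.nc hd
  obtain ⟨b, hb, m⟩ := tp_cn h hd hx (ncs n)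
  obtain ⟨c, hc, m'⟩ := tp_ex h hd hx (ncs n)
  exact ⟨tt_sub ((FS.of h.toTT).dd d), closure_closure_coe_preimage, fun a ha b hb =>
    let ⟨g, m, e⟩ := h.dd_trans hd ha hb; ⟨⟨g, m⟩, Subtype.ext e.symm⟩, ⟨b, subset_closure hb⟩, hb, ⟨c, subset_closure hc⟩, hc,
      fun e => m' ((show b = c from congrArg Subtype.val e) ▸ m)⟩
theorem o2_iff [Finite G] (h : TP D) (hd : d ∈ D) : pCore 2 (closure (dd D d)) ≤ center _ ↔
    ∀ a ∈ dd D d, ∀ b ∈ dd D d, Vr (dd D d) a b → a = b := by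
  have t := tc_sub h hd
  refine ⟨fun k a ha b hb v => congrArg Subtype.val ((t.O2_central_iff (d := ⟨a, subset_closure ha⟩) ha).1 k
    ⟨b, subset_closure hb⟩ hb fun e he => by simpa only [sub_cm] using v e he), fun k => ?_⟩
  obtain ⟨a, ha⟩ := t.ne
  exact (t.O2_central_iff ha).2 fun v m r => Subtype.ext (k _ ha _ m fun e he => by
    simpa only [sub_cm] using r ⟨e, subset_closure he⟩ he)
theorem nw_of [Finite G] (h : TP D) (hd : d ∈ D) (k : pCore 3 (closure (dd D d)) ≤ center _) (b c : G) : ¬ Wl D d b c :=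
  fun w => w.ne (congrArg Subtype.val (((tc_sub h hd).O3_central_iff (d := ⟨b, subset_closure w.hb⟩) w.hb).1 k
    ⟨c, subset_closure w.hc⟩ w.hc fun e he => by
      have := Set.ext_iff.1 w.eq e
      simp only [sub_cm, Ne, Subtype.ext_iff]
      exact ⟨fun k => (this.1 ⟨he, he.1, k⟩).2.2, fun k => (this.2 ⟨he, he.1, k⟩).2.2⟩)).symm

theorem nsol (h : TC D) (hx : x ∈ D) (hy : y ∈ D) (f : Fin 4 → G) (h1 : ∀ i, f i ∈ D ∧ Commute y (f i))
    (h2 : ∀ i j : Fin 4, i.val + 1 = j.val → ¬ Commute (f i) (f j)) (h3 : ∀ i j : Fin 4, i.val + 1 < j.val → Commute (f i) (f j)) :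
    ¬ Group.IsSolvable (closure (dd D x)) := fun s => by
  obtain ⟨g, rfl⟩ := h.cls y hy x hx
  have m : ∀ i, g ⊳ f i ∈ dd D (g ⊳ y) := fun i => h.dd_conj g ⟨(h1 i).1, fun e => by
    fin_cases i
    exacts [h2 0 1 rfl (e ▸ (h1 1).2 :), h2 1 2 rfl (e ▸ (h1 2).2 :), h2 2 3 rfl (e ▸ (h1 3).2 :),
      h2 2 3 rfl (e ▸ (h1 2).2.symm :)], (h1 i).2⟩
  obtain ⟨φ, e, -⟩ := (tt_sub ((FS.of h.toTT).dd _)).chain (fun i => ⟨_, subset_closure (m i)⟩) m
    (fun i j q => by rw [sub_cm, cmi]; exact h2 i j q) fun i j q => by rw [sub_cm, cmi]; exact h3 i j q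
  refine Perm.fin_5_not_solvable (solvable_of_solvable_injective (inj_of_sym le_rfl φ (x := adjSw 0 * adjSw 1)
    (by rw [Perm.mem_alternatingGroup]; decide) fun q => ?_))
  rw [map_mul, e, e] at q
  exact nce (h2 0 1 rfl) (conj_inj (tt_eq_of_mul_eq_one h.tt (m 0).1 (congrArg Subtype.val q)))
theorem LM.nsol {F V : Type*} [Field F] {σ : F →+* F} [AddCommGroup V] [Module F V] {Φ : Form σ V} {π : V → G} {P : Set V}
    (h : TC D) (l : LM Φ P D π) (hx : x ∈ D) (k : ∀ v, v ≠ 0 → Φ.B v v = 0 → v ∈ P) (e : V) (e0 : e ≠ 0) (f : Fin 4 → V)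
    (h0 : Φ.B e e = 0 ∧ ∀ i, Φ.B (f i) (f i) = 0 ∧ Φ.B e (f i) = 0)
    (h2 : ∀ i j : Fin 4, (i.val + 1 = j.val → Φ.B (f i) (f j) ≠ 0) ∧ (i.val + 1 < j.val → Φ.B (f i) (f j) = 0)) :
    ¬ Group.IsSolvable (closure (dd D x)) := by
  have m : ∀ i, f i ∈ P := fun i => k _ (fun q => by
    fin_cases i
    exacts [(h2 0 1).1 rfl (by simp [show f 0 = 0 from q]), (h2 1 2).1 rfl (by simp [show f 1 = 0 from q]),
      (h2 2 3).1 rfl (by simp [show f 2 = 0 from q]), (h2 2 3).1 rfl (by simp [show f 3 = 0 from q])]) (h0.2 i).1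
  have he := k e e0 h0.1
  refine Fi.nsol h hx (l.mem he) (fun i => π (f i)) (fun i => ⟨l.mem (m i), l.cm0 he (m i) (h0.2 i).2⟩)
    (fun i j q c => (h2 i j).1 q (((l.com (m i) (m j)).1 c).elim (fun r => ?_) id)) fun i j q => l.cm0 (m i) (m j) ((h2 i j).2 q)
  obtain ⟨t, r⟩ := (l.eq _ (m i) _ (m j)).1 r
  simp [r, (h0.2 i).1]
theorem IsSp.nsol (k : IsSp D n) (h : TC D) (hx : x ∈ D) (hn : 5 ≤ n) : ¬ Group.IsSolvable (closure (dd D x)) := by
  obtain ⟨V, _, _, _, Φ, π, rfl, l⟩ := k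
  have al : LinearMap.BilinForm.IsAlt (R := ZMod 2) Φ.B := fun v => by
    by_cases q : v = 0
    exacts [by simp [q], l.nm v q]
  obtain ⟨m, b, h1, h2, h3⟩ := exists_symplectic_basis al l.nd
  rw [finrank_eq_card_basis b] at hn
  obtain ⟨m, rfl⟩ : ∃ k, m = k + 3 := ⟨m - 3, by simp at hn; omega⟩
  have h4 : ∀ i j, Φ.B (b (.inr i)) (b (.inl j)) = if j = i then 1 else 0 := fun i j => (l.sym _ _).trans (h1 j i)
  refine l.nsol h hx (fun _ a _ => a) (b (.inl 0)) (b.ne_zero _) ![b (.inl 1), b (.inr 1), b (.inl 1) + b (.inl 2), b (.inr 2)]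
    ⟨h2 _ _, fun i => ?_⟩ fun i j => ?_
  · fin_cases i <;> simp [h1, h2, h3, Fin.ext_iff, Nat.mod_eq_of_lt]
  · fin_cases i <;> fin_cases j <;> simp [h1, h2, h3, h4, Fin.ext_iff, Nat.mod_eq_of_lt]
theorem IsU.nsol (k : IsU D n) (h : TC D) (hx : x ∈ D) (hn : 6 ≤ n) : ¬ Group.IsSolvable (closure (dd D x)) := by
  obtain ⟨V, _, _, _, Φ, π, rfl, l⟩ := k
  obtain ⟨b, h1⟩ := exists_orthonormal_family_herm (conj_ne_id card_K4) l.eps l.nd hn
  refine l.nsol h hx (fun _ a b => ⟨a, b⟩) (b 0 + b 1) (fun q => by simpa [h1] using congrArg (Φ.B (b 0)) q)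
    ![b 2 + b 3, b 3 + b 4, b 4 + b 5, b 2 + b 3 + b 4 + om • b 5] ⟨by simp only [bx, h1]; decide, fun i => ?_⟩ fun i j => ?_
  · fin_cases i <;> simp only [Matrix.cons_val, Fin.zero_eta, Fin.mk_one, Fin.reduceFinMk, bx, h1] <;> decide
  · fin_cases i <;> fin_cases j <;> simp only [Matrix.cons_val, Fin.zero_eta, Fin.mk_one, Fin.reduceFinMk, bx, h1] <;> decide
theorem cent_of (hsol : ∀ N : Subgroup G, N.Normal → Group.IsSolvable N → N = ⊥) : center G = ⊥ :=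
  hsol _ inferInstance (Group.isSolvable_of_comm fun a b => Subtype.ext (mem_center_iff.1 b.2 a))

end H1.Fi
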