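import Cfsg.Agent.H1.F0

/-! Fischer's theorem: primitive spaces and their residues. -/

set_option autoImplicit false

namespace H1.Fi
open Cfsg H18 H28 H23 Subgroup

variable {G M : Type*} [Group G] [Group M] {D A : Set G} {a b c d e x y z w g : G}

theorem nbd (A : Set G) (p : G) : Nb A [p] = dd A p := nb_one A p
theorem FS.dd (h : FS D) (p : G) : FS (dd D p) := nbd D p ▸ h.nb [p]
theorem fdd {B : Set M} {σ : G → M} (h : FIso A B σ) (hx : x ∈ A) : FIso (dd A x) (dd B (σ x)) σ :=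
  nbd A x ▸ nbd B (σ x) ▸ h.nb1 hx
theorem fcj (h : TT D) (g : G) : FIso D D (fun x => g ⊳ x) := fiso_conj h.cj g
theorem FS.fcj (h : FS D) (hg : g ∈ D) : FIso D D (fun x => g ⊳ x) :=
  FIso.of_conj h.clo g fun x => ⟨fun k => cc h.tt hg x ▸ h.clo g hg _ k, h.clo g hg x⟩
theorem ncj (h : Commute g d) (n : ¬ Commute a d) : ¬ Commute (g ⊳ a) d := ncs (nc3 h.symm (ncs n))

theorem orb_ind {q : G → Prop} (hi : ∀ y ∈ A, y⁻¹ = y) (hq : ∀ y ∈ A, ∀ s, q s → q (y ⊳ s)) (hg : g ∈ closure A)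
    (h : q c) : q (g ⊳ c) := by
  induction hg using closure_induction_left with
  | one => simpa using h
  | mul_left y hy z _ ih => exact cjm y z c ▸ hq y hy _ ih
  | inv_mul_cancel y hy z _ ih => rw [hi y hy]; exact cjm y z c ▸ hq y hy _ ih

theorem cbc (h : IsThreeTranspositionSet D) (ha : a ∈ D) (hb : b ∈ D) (hc : c ∈ D) (n1 : ¬ Commute b a)
    (n2 : ¬ Commute c a) : Commute (b ⊳ a) (c ⊳ a) ↔ Commute b c := by
  rw [br h hb ha n1, br h hc ha n2, cmi]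
theorem adj (h : FS D) (hd : d ∈ D) (hy : y ∈ D) (hz : z ∈ D) (n1 : ¬ Commute y d) (n2 : ¬ Commute z d)
    (k : Commute y z) (n : y ≠ z) : ∃ p ∈ dd D d, ¬ Commute p y ∧ d ⊳ p ⊳ y = z :=
  ⟨_, ⟨h.clo _ hy _ (h.clo _ hz _ hd), s4ne h.tt hd hy hz n1 n, s4 h.tt hd hy hz n1 n2 k⟩,
    ncs (nc3 (Commute.refl y) (nc3 k n1)), s4sw h.tt hd hy hz n1 n2 k⟩

section
variable [Finite G] (h : TP D)
include h
theorem tp_ex (hd : d ∈ D) (hx : x ∈ D) (n : ¬ Commute x d) : ∃ b ∈ dd D d, ¬ Commute b x := by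
  by_contra! k
  exact nce n (h.wr_eq hd hx (wr_iff_set.2 (Set.eq_of_subset_of_ncard_le (s := dd D d) (t := dd D x)
    (fun b hb => ⟨hb.1, (ne_of hb.2.2 (ncs n)), (k b hb).symm⟩) (TT.ncard_dd h.toTC hx hd).le (Set.toFinite _)))).symm
theorem tp_cn (hd : d ∈ D) (hx : x ∈ D) (n : ¬ Commute x d) : ∃ b ∈ dd D d, Commute b x :=
  let ⟨y, a, b, c⟩ := h.cc2_ne hd hx (ncs n); ⟨y, ⟨a, ne_of c n, b⟩, c.symm⟩
theorem tp_vt (hd : d ∈ D) (hb : b ∈ D) (n : d ≠ b) : ∃ w ∈ D, Commute w b ∧ ¬ Commute w d := by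
  by_contra! k
  exact n (h.vr_eq hd hb (h.vr_of_sub hd hb fun e he c => (k e he c.symm).symm))
theorem tp_nn (hd : d ∈ D) (hb : b ∈ dd D d) : ∃ a ∈ D, ¬ Commute a d ∧ ¬ Commute a b := by
  obtain ⟨x, hx, n⟩ := h.nc hd
  obtain ⟨c, hc, m⟩ := tp_ex h hd hx (ncs n)
  obtain ⟨g, e1, e2⟩ := h.pe_edge hd hd hc hb
  exact ⟨g ⊳ x, h.cj g x hx, by rw [← e1]; exact mt cmi.1 (ncs n), by rw [← e2]; exact mt cmi.1 (ncs m)⟩
theorem tp_pe (ha : a ∈ D) (hx : x ∈ D) (hb : b ∈ D) (hy : y ∈ D) (n1 : ¬ Commute a x) (n2 : ¬ Commute b y) :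
    ∃ g, g ⊳ a = b ∧ g ⊳ x = y := by
  obtain ⟨g, rfl⟩ := h.cls a ha b hb
  exact Pe.trans ⟨g, rfl, rfl⟩ (h.pe_nc hb (h.cj g x hx) hy (mt cmi.1 n1) n2)
/-- the lines on `d` are connected -/
theorem tp_ind (hd : d ∈ D) (hx : x ∈ D) (n : ¬ Commute x d) {p : G → Prop} (p0 : p x)
    (p1 : ∀ a ∈ D, ¬ Commute a d → p a → p (d ⊳ a)) (p2 : ∀ a ∈ D, ¬ Commute a d → p a → ∀ b ∈ dd D d, p (b ⊳ a))
    (ha : a ∈ D) (na : ¬ Commute a d) : p a := by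
  have t := h.tt
  have f := FS.of h.toTT
  have p3 : ∀ y ∈ D, ¬ Commute y d → p y → ∀ z ∈ D, ¬ Commute z d → Commute y z → p z := fun y hy ny py z hz nz k => by
    by_cases e : y = z
    · exact e ▸ py
    obtain ⟨q, hq, -, rfl⟩ := adj f hd hy hz ny nz k e
    exact p1 _ (f.clo _ hq.1 _ hy) (ncj hq.2.2.symm ny) (p2 y hy ny py q hq)
  by_contra k
  have key : ∀ y ∈ D, ¬ Commute y d → p y → dd D d ∩ dd D y = dd D d ∩ dd D a := fun y hy ny py => by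
    have c := h.ncard_dd2 (h.pe_nc hd hy ha (ncs ny) (ncs na))
    by_contra q
    obtain ⟨u, hu, hu'⟩ := Set.not_subset.1 (mt (Set.eq_of_subset_of_ncard_le · c.ge (Set.toFinite _)) q)
    obtain ⟨v, hv, hv'⟩ := Set.not_subset.1 (mt (Set.eq_of_subset_of_ncard_le · c.le (Set.toFinite _)) (Ne.symm q))
    have nu : ¬ Commute u a := fun c => hu' ⟨hu.1, hu.1.1, ne_of hu.1.2.2 (ncs na), c.symm⟩
    have nv : ¬ Commute v y := fun c => hv' ⟨hv.1, hv.1.1, ne_of hv.1.2.2 (ncs ny), c.symm⟩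
    have n1 : ¬ Commute a y := fun c => k (p3 y hy ny py a ha na c.symm)
    have mz := f.clo _ ha _ hy
    by_cases nz : Commute (a ⊳ y) d
    · refine k (cb4 t ha hy n1 ▸ ?_)
      by_cases e : a ⊳ y = d
      · exact e ▸ p1 y hy ny py
      · exact p2 y hy ny py _ ⟨mz, e, nz.symm⟩
    have pz := p3 _ (f.clo _ hv.1.1 _ hy) (ncj hv.1.2.2.symm ny) (p2 y hy ny py v hv.1) _ mz nz
      ((cbc t hy hv.1.1 ha nv n1).2 hv.2.2.2.symm)
    have m := f.clo _ hu.1.1 _ ha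
    have := p3 _ mz nz pz _ m (ncj hu.1.2.2.symm na) (by
      rw [br t ha hy n1]; exact (cbc t ha hy hu.1.1 (ncs n1) nu).2 hu.2.2.2)
    exact k (cc t hu.1.1 a ▸ p2 _ m (ncj hu.1.2.2.symm na) this u hu.1)
  obtain ⟨b, hb, nb⟩ := tp_ex h hd hx n
  obtain ⟨c, hc, cb⟩ := tp_cn h hd hx n
  obtain ⟨g, hg, rfl⟩ := h.dd_trans hd hc hb
  refine nb (orb_ind (q := (· ∈ dd D d ∩ dd D x)) (fun y hy => tt_inv t hy.1) (fun y hy s hs => ?_) hg
    ⟨hc, hc.1, ne_of hc.2.2 (ncs n), cb.symm⟩).2.2.2.symm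
  rw [key x hx n p0, ← key _ (f.clo _ hy.1 _ hx) (ncj hy.2.2.symm n) (p2 x hx n p0 y hy)]
  exact ⟨(f.dd d).clo y hy s hs.1, h.dd_conj y hs.2⟩
end

/-- a closed set inside the subgroup it generates -/
def sub (A : Set G) : Set (closure A) := Subtype.val ⁻¹' A
theorem fsub (h : Clo A) : FIso (sub A) A Subtype.val :=
  ⟨fun _ hx _ hy => h _ hx _ hy, ⟨fun _ h => h, Subtype.val_injective.injOn, fun x hx => ⟨⟨x, subset_closure hx⟩, hx, rfl⟩⟩,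
    fun _ _ _ _ => rfl⟩
theorem sub_cm {x y : closure A} : Commute x y ↔ Commute x.1 y.1 :=
  ⟨fun h => congrArg Subtype.val h, fun h => Subtype.ext h⟩
theorem tt_sub (h : FS A) : TT (sub A) :=
  ⟨⟨fun x hx => (orderOf_coe x).symm.trans (h.tt.1 _ hx), fun x hx y hy =>
    (h.tt.2 _ hx _ hy).imp (fun e => Subtype.ext e) fun e => Subtype.ext e⟩,
    fun g _ hd => conj_mem_of_closure h.clo (fun _ => tt_inv h.tt) g.2 _ hd⟩

theorem tp_sub [Finite G] (h : FS A) (cls : ∀ a ∈ A, ∀ b ∈ A, b ∈ orb (closure A) a)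
    (wide : ∃ a ∈ A, ∃ b ∈ A, a ≠ b ∧ Commute a b) (hv : ∀ a ∈ A, ∀ b ∈ A, Vr A a b → a = b)
    (hw : ∀ a ∈ A, ∀ b ∈ A, dd A a = dd A b → a = b) (conn : ∀ a ∈ A, ∀ b ∈ A, CR A a b) : TP (sub A) := by
  obtain ⟨p, hp, q, hq, n, k⟩ := wide
  have w : ∃ a ∈ sub A, ∃ b ∈ sub A, a ≠ b ∧ Commute a b := ⟨⟨p, subset_closure hp⟩, hp, ⟨q, subset_closure hq⟩, hq,
    fun e => n (congrArg Subtype.val e), sub_cm.2 k⟩
  have h0 : TC (sub A) := ⟨tt_sub h, closure_closure_coe_preimage, fun a ha b hb =>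
    let ⟨g, m, e⟩ := cls _ ha _ hb; ⟨⟨g, m⟩, Subtype.ext e.symm⟩, let ⟨a, ha, b, hb, n, _⟩ := w; ⟨a, ha, b, hb, n⟩⟩
  obtain ⟨d, hd⟩ := h0.ne
  have h2 := (h0.O2_central_iff hd).2 fun v m r => Subtype.ext (hv _ hd _ m fun e he => by
    simpa only [sub_cm] using r ⟨e, subset_closure he⟩ he)
  have h3 := (h0.O3_central_iff hd).2 fun v m r => Subtype.ext (hw _ hd _ m (Set.ext fun e => and_congr_right fun he => by
    simpa only [sub_cm, Ne, Subtype.ext_iff] using r ⟨e, subset_closure he⟩ he))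
  have q := h0.layer_qs (h0.layer_ne_bot h2 h3)
  have c' := h0.cent_le h2 h3 (h0.fstar_eq h2 h3)
  refine ⟨h0, h0.relPrim_of_trans q c' (h0.trans_of_index (h0.index_of_conn q c' ?_)), w⟩
  rintro ⟨a, a'⟩ ha ⟨b, b'⟩ hb
  have := conn a ha b hb
  clear hb
  induction this with
  | refl => exact Relation.ReflTransGen.refl
  | tail _ r ih => exact (ih (subset_closure r.2.2)).tail ⟨r.1, sub_cm.2 r.2.1, r.2.2⟩

section
variable [Finite G] (h : TP D)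
include h
theorem tp_wide (hd : d ∈ D) (nw : ∀ b c, ¬ Wl D d b c) : ∃ a ∈ dd D d, ∃ b ∈ dd D d, a ≠ b ∧ Commute a b := by
  by_contra! k
  obtain ⟨x, hx, n⟩ := h.nc hd
  obtain ⟨b, hb, m⟩ := tp_cn h hd hx (ncs n)
  obtain ⟨c, hc, m'⟩ := tp_ex h hd hx (ncs n)
  have e : ∀ b ∈ dd D d, dd D d ∩ dd D b = ∅ := fun b hb =>
    Set.eq_empty_of_forall_notMem fun y hy => k b hb y hy.1 hy.2.2.1.symm hy.2.2.2
  exact nw b c ⟨hd, hb, hc, ne_of m.symm (ncs m') |>.symm, by rw [e b hb, e c hc]⟩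

/-- the residue theorem -/
theorem tp_res (hd : d ∈ D) (nw : ∀ b c, ¬ Wl D d b c)
    (nv : ∀ a ∈ dd D d, ∀ b ∈ dd D d, Vr (dd D d) a b → a = b) : TP (sub (dd D d)) := by
  have f := FS.of h.toTT
  refine tp_sub (f.dd d) (fun a ha b hb => h.dd_trans hd ha hb) (tp_wide h hd nw) nv (fun a ha b hb e => ?_)
    fun b hb c hc => ?_
  · by_contra n
    refine nw a b ⟨hd, ha, hb, Ne.symm n, Set.ext fun y => and_congr_right fun hy => ?_⟩
    have := Set.ext_iff.1 e y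
    exact ⟨fun k => ⟨hy.1, (this.1 ⟨hy, k.2⟩).2⟩, fun k => ⟨hy.1, (this.2 ⟨hy, k.2⟩).2⟩⟩
  by_contra k
  have n : ¬ Commute b c := fun q => k (.single ⟨hc, q, hb⟩)
  have m : d ∈ dd D b ∩ dd D c := ⟨dd_symm hd hb, dd_symm hd hc⟩
  have iso : ∀ e ∈ dd D b ∩ dd D c, Commute d e → e = d := fun e he q => by
    by_contra n'
    exact k (.tail (.single ⟨⟨he.1.1, n', q⟩, he.1.2.2, hb⟩) ⟨hc, he.2.2.2.symm, he.1.1, n', q⟩)
  have ef : ∀ e ∈ dd D b ∩ dd D c, ∀ e' ∈ dd D b ∩ dd D c, Commute e e' → e = e' := fun e he e' he' q => by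
    by_contra n'
    have n1 : ¬ Commute e d := fun r => n' ((iso e he r.symm).trans (iso e' he' (iso e he r.symm ▸ q)).symm)
    have n2 : ¬ Commute e' d := fun r => n' ((iso e he (iso e' he' r.symm ▸ q.symm)).trans (iso e' he' r.symm).symm)
    exact s4ne h.tt hd he.1.1 he'.1.1 n1 n' (iso _ ⟨(f.dd b).clo _ he.1 _ ((f.dd b).clo _ he'.1 _ m.1),
      (f.dd c).clo _ he.2 _ ((f.dd c).clo _ he'.2 _ m.2)⟩ (s4 h.tt hd he.1.1 he'.1.1 n1 n2 q))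
  have tr : ∀ p ∈ dd D d, ∀ q ∈ dd D d, ∀ r ∈ dd D d, Commute p q → Commute q r → Commute p r := by
    intro p hp q hq r hr c1 c2
    by_contra n'
    obtain ⟨g, rfl, rfl⟩ := tp_pe h hp.1 hr.1 hb.1 hc.1 n' n
    exact hq.2.1 (conj_inj (ef _ ⟨h.dd_conj g ⟨hq.1, ne_of c2.symm (ncs n'), c1⟩,
      h.dd_conj g ⟨hq.1, ne_of c1 n', c2.symm⟩⟩ _ ⟨h.dd_conj g (dd_symm hd hp), h.dd_conj g (dd_symm hd hr)⟩
      (cmi.2 hq.2.2.symm)))
  obtain ⟨p, hp, q, hq, n', c'⟩ := tp_wide h hd nw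
  exact n' (nv p hp q hq fun e he => ⟨tr q hq p hp e he c'.symm, tr p hp q hq e he c'⟩)
end

end H1.Fi
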