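import Cfsg.Agent.H1.J4d

/-! The centralizer of a central involution of `J4` maps onto `M22`. -/

set_option maxRecDepth 100000
set_option autoImplicit false

namespace H1.J4
open H29 H29.J4m H7.J4 Cfsg Cfsg.Spor Subgroup MulAction
open H27 (MM GE H22 Net Acts mm g22N)
open scoped Pointwise

theorem rho {G D : Type} [Group G] [Group D] (Γ : Subgroup (G × D)) (H : Subgroup D)
    (hinj : ∀ m, (1, m) ∈ Γ → m = 1) (hH : ∀ p ∈ Γ, p.2 ∈ H) :
    ∃ ρ : (Γ.map (MonoidHom.fst G D)) →* H, ∀ g m, (g : G × D).1 = m.1 → g ∈ Γ → (ρ m : D) = g.2 := by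
  let f := (MonoidHom.fst G D).comp Γ.subtype
  have hf : Function.Injective f := by
    rw [injective_iff_map_eq_one]
    rintro ⟨⟨g, m⟩, h⟩ e
    have e' : g = 1 := e
    subst e'
    exact Subtype.ext (Prod.ext rfl (hinj m h))
  have hr : f.range = Γ.map (MonoidHom.fst G D) := by
    rw [MonoidHom.range_comp, range_subtype]
  let e := (MonoidHom.ofInjective hf).trans (MulEquiv.subgroupCongr hr)
  refine ⟨(((MonoidHom.snd G D).comp Γ.subtype).codRestrict H fun p => hH p p.2).comp e.symm.toMonoidHom,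
    fun g m h hg => ?_⟩
  have : m = e ⟨g, hg⟩ := Subtype.ext h.symm
  rw [this]
  simp
  rfl

theorem sep {m : MM} {o i j : ℕ} (h : m • GE.fs o = GE.fs o) (hi : i < 24) (hj : j < 24) (e : m • GE.e i = GE.e j) :
    o.testBit i = o.testBit j := by
  have : GE.e i ∈ GE.fs o ↔ GE.e j ∈ GE.fs o := by
    rw [← e]
    conv_rhs => rw [← h]
    exact Finset.smul_mem_smul_finset_iff m |>.symm
  rw [GE.e_mem_fs hi, GE.e_mem_fs hj] at this
  exact Bool.eq_iff_iff.2 this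

theorem faith {m : MM} (h : ∀ r ∈ UO, m • GE.fs r.2 = GE.fs r.2) : m = 1 := by
  have a : ∀ i < 24, ∃ j < 24, m • GE.e i = GE.e j ∧ (i = j ∨ (i = 0 ∨ i = 23) ∧ (j = 0 ∨ j = 23)) := fun i hi =>
    ⟨_, GE.ix_lt _, (GE.e_ix _).symm, kS i hi _ (GE.ix_lt _) fun r hr => sep (h r hr) hi (GE.ix_lt _) (GE.e_ix _).symm⟩
  have b : m • GE.fs 0x13e005 = GE.fs 0x13e005 := by
    refine H27.smul_octad_of_fix m (F := GE.fs 0x13e004) ((H27.fs_mem_octads (by norm_num)).2 (by decide +kernel))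
      (fun p hp => ?_) (by decide +kernel)
    obtain ⟨j, -, h1, h2⟩ := a _ (GE.ix_lt p)
    rw [GE.mem_fs] at hp
    rcases h2 with h2 | ⟨h2 | h2, -⟩
    · rwa [← h2, GE.e_ix] at h1
    · rw [h2] at hp; exact absurd hp (by decide)
    · rw [h2] at hp; exact absurd hp (by decide)
  refine H27.MM_faithful fun i hi => ?_
  obtain ⟨j, hj, h1, h2⟩ := a i hi
  have := sep b hi hj h1
  rcases h2 with rfl | ⟨rfl | rfl, rfl | rfl⟩
  exacts [h1, h1, absurd this (by decide), absurd this (by decide), h1]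

/-- the matrix with a given code -/
noncomputable def um (x : ℕ) : Matrix (Fin 112) (Fin 112) (ZMod 2) := decode 2 112 1 x
theorem um_code {r : ℕ × ℕ} (h : r ∈ UO) : code 1 (um r.1) = r.1 := code_decode one_pos (kU r h)

/-- pairs acting compatibly on the 77 vectors and the 77 octads -/
def Cp (φ : J4 →* GG) [Finite J4] : Subgroup (J4 × MM) :=
  let S : Submonoid (J4 × MM) :=
    { carrier := {p | ∀ r ∈ UO, ∃ s ∈ UO, (φ p.1 : Matrix (Fin 112) (Fin 112) (ZMod 2)) * um r.1 = um s.1 ∧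
        p.2 • GE.fs r.2 = GE.fs s.2}
      one_mem' := fun r hr => ⟨r, hr, by simp, by simp⟩
      mul_mem' := fun {a b} ha hb r hr => by
        obtain ⟨s, hs, h1, h2⟩ := hb r hr
        obtain ⟨t, ht, h3, h4⟩ := ha s hs
        exact ⟨t, ht, by rw [Prod.fst_mul, map_mul, Units.val_mul, mul_assoc, h1, h3],
          by rw [Prod.snd_mul, mul_smul, h2, h4]⟩ }
  { S with
    inv_mem' := fun {g} hg => Submonoid.powers_le.2 hg (mem_powers_iff_mem_zpowers.2 (inv_mem (mem_zpowers g))) }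

variable {φ : J4 →* GG} [Finite J4]

theorem Cp.inj (m : MM) (h : (1, m) ∈ Cp φ) : m = 1 := faith fun r hr => by
  obtain ⟨s, hs, h1, h2⟩ := h r hr
  rw [map_one, Units.val_one, one_mul] at h1
  rw [h2, kF r hr s hs (by rw [← um_code hr, h1, um_code hs])]

theorem Cp.of {g : J4} {c : ℕ} (hc : ar.gM.R c (φ g)) {m : MM} {N : Net} (a : Acts 24 GE.e m N)
    (h : chk c N = true) : (g, m) ∈ Cp φ := fun r hr => by
  simp only [chk, List.all_eq_true, force_eq, List.any_eq_true, Bool.and_eq_true, Nat.beq_eq] at h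
  obtain ⟨s, hs, h1, h2⟩ := h r hr
  refine ⟨s, hs, ar.inj ?_, a.smul_gfs h2⟩
  have e : c = code 1 (φ g : Matrix (Fin 112) (Fin 112) (ZMod 2)) := hc
  have := ar.mul_eq (φ g : Matrix (Fin 112) (Fin 112) (ZMod 2)) (um r.1)
  change kmul (code 1 _) (code 1 _) = code 1 _ at this
  change code 1 _ = code 1 _
  rw [← this, ← e, um_code hr, um_code hs, h1]

theorem main (XS : ∀ (z : J4) (a b : Fin 6 → J4) (_ : z ≠ 1) (_ : z * z = 1) (_ : ∀ i, a i * a i = 1)
      (_ : ∀ i, b i * b i = 1) (_ : ∀ i, Commute z (a i)) (_ : ∀ i, Commute z (b i))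
      (_ : ∀ i j, Commute (a i) (a j)) (_ : ∀ i j, Commute (b i) (b j))
      (_ : ∀ i j, a i * b j = (if i = j then z else 1) * (b j * a i)),
      Nat.card (closure (Set.range a ∪ Set.range b)) = 2 ^ 13 ∧ IsExtraspecial 2 (closure (Set.range a ∪ Set.range b))) :
    orderOf je = 2 ∧ ∃ (d c : J4) (Q M : Subgroup J4), Nat.card Q = 2 ^ 13 ∧ IsExtraspecial 2 Q ∧ orderOf d = 3 ∧
      d ∈ normalizer (Q : Set J4) ∧ Q ≤ M ∧ ∃ hdM : d ∈ M, M ≤ centralizer {je} ∧ ∃ ρ : M →* H22,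
        Function.Surjective ρ ∧ (∀ g : M, (g : J4) ∈ Q → ρ g = 1) ∧ ρ ⟨d, hdM⟩ = 1 ∧ c ∈ centralizer {je} ∧ c ∉ M := by
  obtain ⟨φ, h0⟩ := ex_phi
  have s : Std ar.gM := ⟨rfl, rfl, rfl⟩
  have h := f1 s h0
  have hsim := H7.JD.j_main.2.1.1
  have hφ : Function.Injective φ := by
    rw [← MonoidHom.ker_eq_bot_iff]
    refine (φ.normal_ker.eq_bot_or_eq_top).resolve_right fun e => ?_
    have h1 : φ je = 1 := (show je ∈ φ.ker from e ▸ mem_top _)
    exact ar.gM.ne_of (R_getD h 4) ar.gM.R_one kd.2.2 h1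
  let M := ar.gM.comap φ hφ
  have sM : Std M := ⟨rfl, rfl, rfl⟩
  have i1 : ∀ c ∈ L1, M.In ⊤ c := fun c hc => by
    obtain ⟨_, ⟨g, rfl⟩, hg⟩ := inR h c hc
    exact ⟨g, trivial, hg⟩
  have i2 := sM.map i1 e2 k2
  have i3 := sM.map i2 e3 k3
  have i4 := sM.map i3 e4 k4
  have i5 := sM.map i4 e5 k5
  have re : M.R ce je := R_getD h 4
  have eq : ∀ {a b : ℕ} {g h : J4}, M.R a g → M.R b h → Nat.beq a b = true → g = h := fun a b e => M.eq_of a b e
  have mu : ∀ {a b : ℕ} {g h : J4}, M.R a g → M.R b h → M.R (kmul a b) (g * h) := fun a b => M.R_mul a b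
  have r1 : M.R kone 1 := M.R_one
  have gm : ∀ i < 12, gq i ∈ abL := fun i hi => by
    rw [gq, List.getD_eq_getElem _ _ (show i < abL.length from hi)]; exact List.getElem_mem _
  have i6 : ∀ i, ∃ g, M.R (gq i) g := fun i => by
    by_cases hi : i < 12
    · exact let ⟨g, _, hg⟩ := i5 _ (gm i hi); ⟨g, hg⟩
    · exact ⟨1, by rw [gq, List.getD_eq_default _ _ (show abL.length ≤ i from not_lt.1 hi)]; exact r1⟩
  choose f hf using i6
  have cz : ∀ {c : ℕ} {g : J4}, c ∈ cC :: c1 :: c2 :: cd :: abL → M.R c g → Commute je g := fun hc hg =>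
    eq (mu re hg) (mu hg re) (kz _ hc)
  have ma : ∀ {c : ℕ}, c ∈ abL → c ∈ cC :: c1 :: c2 :: cd :: abL := fun h =>
    .tail _ (.tail _ (.tail _ (.tail _ h)))
  have ne : ∀ {a b : ℕ} {g h : J4}, M.R a g → M.R b h → Nat.beq a b = false → g ≠ h := fun a b e => M.ne_of a b e
  have z1 : je ≠ 1 := ne re r1 kd.2.2
  have z2 : je * je = 1 := eq (mu re re) r1 (k22 _ List.mem_cons_self)
  have l6 : ∀ i : Fin 6, 6 + i.1 < 12 := fun i => by omega
  have l0 : ∀ i : Fin 6, i.1 < 12 := fun i => by omega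
  obtain ⟨q1, q2⟩ := XS je (fun i => f i) (fun i => f (6 + i)) z1 z2
    (fun i => eq (mu (hf _) (hf _)) r1 (k22 _ (List.mem_cons_of_mem _ (gm _ (l0 i)))))
    (fun i => eq (mu (hf _) (hf _)) r1 (k22 _ (List.mem_cons_of_mem _ (gm _ (l6 i)))))
    (fun i => cz (ma (gm _ (l0 i))) (hf _)) (fun i => cz (ma (gm _ (l6 i))) (hf _))
    (fun i j => eq (mu (hf _) (hf _)) (mu (hf _) (hf _)) (kaa i i.2 j j.2).1)
    (fun i j => eq (mu (hf _) (hf _)) (mu (hf _) (hf _)) (kaa i i.2 j j.2).2)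
    (fun i j => eq (mu (hf _) (hf _)) (mu (by
      by_cases e : i = j
      · rw [if_pos e, if_pos (congrArg Fin.val e)]; exact re
      · rw [if_neg e, if_neg (fun c => e (Fin.ext c))]; exact r1) (mu (hf _) (hf _))) (kab i i.2 j j.2))
  have hQ : closure (Set.range (fun i : Fin 6 => f i) ∪ Set.range fun i : Fin 6 => f (6 + i)) = M.cl abL := by
    refine le_antisymm ((closure_le _).2 ?_) (Model.cl_le' fun c hc g hg => subset_closure ?_)
    · rintro _ (⟨i, rfl⟩ | ⟨i, rfl⟩)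
      exacts [Model.mem_cl (gm _ (l0 i)) (hf _), Model.mem_cl (gm _ (l6 i)) (hf _)]
    · obtain ⟨i, hi, rfl⟩ := List.getElem_of_mem hc
      have hi' : i < 12 := hi
      have : g = f i := M.unique hg (by rw [← List.getD_eq_getElem _ kone hi]; exact hf i)
      by_cases e : i < 6
      · exact Or.inl ⟨⟨i, e⟩, this.symm⟩
      · exact Or.inr ⟨⟨i - 6, by omega⟩, this ▸ congrArg f (Nat.add_sub_cancel' (not_lt.1 e))⟩
  rw [hQ] at q1 q2
  obtain ⟨d, -, hd⟩ := i3 cd (by simp)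
  obtain ⟨c, -, hc⟩ := i2 cC (by simp)
  obtain ⟨x1, -, h1⟩ := i4 c1 (by simp)
  obtain ⟨x2, -, h2⟩ := i4 c2 (by simp)
  have d3 : d * (d * d) = 1 := eq (mu hd (mu hd hd)) r1 kd.1
  let Γ := Cp φ ⊓ (centralizer {je}).prod H22
  have mΓ : ∀ {c : ℕ} {g : J4} {m : MM} {N : Net}, c ∈ cC :: c1 :: c2 :: cd :: abL → M.R c g → Acts 24 GE.e m N →
      chk c N = true → m ∈ H22 → (g, m) ∈ Γ := fun hc hg a k hm =>
    ⟨Cp.of hg a k, mem_centralizer_singleton_iff.2 (cz hc hg).symm, hm⟩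
  obtain ⟨ρ, hρ⟩ := rho Γ H22 (fun m hm => Cp.inj m hm.1) fun p hp => hp.2.2
  have hQΓ : M.cl abL ≤ Γ.comap (MonoidHom.inl J4 MM) := Model.cl_le' fun c hc g hg =>
    mΓ (ma hc) hg Acts.one (kc _ (List.mem_cons_of_mem _ hc)) (one_mem _)
  have hdΓ : (d, 1) ∈ Γ := mΓ (.tail _ (.tail _ (.tail _ (.head _)))) hd Acts.one (kc _ List.mem_cons_self) (one_mem _)
  have : Fact (Nat.Prime 2) := ⟨Nat.prime_two⟩
  have : Fact (Nat.Prime 3) := ⟨Nat.prime_three⟩
  refine ⟨orderOf_eq_prime (by rw [sq, z2]) z1, d, c, M.cl abL, Γ.map (MonoidHom.fst _ _), q1, q2,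
    orderOf_eq_prime (by rw [pow_three, d3]) (ne hd r1 kd.2.1),
    sM.norm i5 hd (y := kmul cd cd) (by rw [← eq_inv_of_mul_eq_one_right d3]; exact mu hd hd) eN kn,
    fun g hg => ⟨_, hQΓ hg, rfl⟩, ⟨_, hdΓ, rfl⟩, ?_, ρ, ?_, fun g hg => Subtype.ext (hρ (g, 1) g rfl (hQΓ hg)),
    Subtype.ext (hρ (d, 1) _ rfl hdΓ), mem_centralizer_singleton_iff.2 (cz (.head _) hc).symm, ?_⟩
  · rintro _ ⟨p, hp, rfl⟩
    exact hp.2.1
  · have : H22 ≤ Γ.map (MonoidHom.snd _ _) := by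
      rw [← H27.cl_g22]
      refine H27.cl_le fun m hm => ?_
      have hm' := H27.g22_mem m hm
      obtain ⟨i, hi, rfl⟩ := List.getElem_of_mem hm
      have a := H27.g22_acts.getD i
      rw [List.getD_eq_getElem _ _ hi] at a
      have hi' : i < 2 := hi
      interval_cases i
      exacts [⟨_, mΓ (.tail _ (.head _)) h1 a kc1.1 hm', rfl⟩, ⟨_, mΓ (.tail _ (.tail _ (.head _))) h2 a kc1.2.1 hm', rfl⟩]
    rintro ⟨m, hm⟩
    obtain ⟨p, hp, rfl⟩ := this hm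
    exact ⟨⟨p.1, p, hp, rfl⟩, Subtype.ext (hρ p _ rfl hp)⟩
  · rintro ⟨⟨c', m⟩, hp, e⟩
    have e' : c' = c := e
    subst e'
    have a := H27.acts_mm k0.1
    have h3 := (Cp φ).mul_mem ((Cp φ).inv_mem hp.1) (Cp.of hc a kc1.2.2)
    rw [Prod.inv_mk, Prod.mk_mul_mk, inv_mul_cancel] at h3
    have h4 : m = mm n0 := inv_mul_eq_one.1 (Cp.inj _ h3)
    have h5 : m • GE.e 0 = GE.e 0 := (show m ∈ H22 from hp.2.2).2
    rw [h4, a.act 0 (by norm_num), k0.2] at h5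
    exact absurd h5 (by decide +kernel)

end H1.J4
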