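import Cfsg.Agent.H29.U0
import Cfsg.Agent.S0476

set_option maxRecDepth 100000
set_option autoImplicit false

open Cfsg Cfsg.Spor H7.J4 H29 H29.J4m H29.U Subgroup

universe u

namespace H1.Fin4

theorem dih {G : Type*} [Group G] [Finite G] {a b : G} (a2 : a * a = 1) (b2 : b * b = 1) :
    IsConj a b ∨ ∃ c, orderOf c = 2 ∧ c * a = a * c ∧ c * b = b * c := by
  have ai : a⁻¹ = a := inv_eq_of_mul_eq_one_right a2
  have bi : b⁻¹ = b := inv_eq_of_mul_eq_one_right b2
  have k1 : ∀ k : ℕ, a * (a * b) ^ k * a⁻¹ = ((a * b) ^ k)⁻¹ := fun k => by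
    rw [← conj_pow, ← inv_pow, mul_inv_rev, ai, bi, ← mul_assoc, a2, one_mul]
  have k2 : ∀ k : ℕ, b * (a * b) ^ k * b⁻¹ = ((a * b) ^ k)⁻¹ := fun k => by
    rw [← conj_pow, ← inv_pow, mul_inv_rev, ai, bi, mul_assoc, mul_assoc, b2, mul_one]
  have hn := pow_orderOf_eq_one (a * b)
  rcases Nat.even_or_odd' (orderOf (a * b)) with ⟨m, h | h⟩
  · right
    have c2 : ((a * b) ^ m) ^ 2 = 1 := by rw [← pow_mul, mul_comm m, ← h, hn]
    have ci : ((a * b) ^ m)⁻¹ = (a * b) ^ m := inv_eq_of_mul_eq_one_right (by rw [← pow_two, c2])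
    have hp := orderOf_pos (a * b)
    refine ⟨(a * b) ^ m, orderOf_eq_prime c2 (pow_ne_one_of_lt_orderOf (by omega) (by omega)), ?_, ?_⟩
    · exact (mul_inv_eq_iff_eq_mul.1 ((k1 m).trans ci)).symm
    · exact (mul_inv_eq_iff_eq_mul.1 ((k2 m).trans ci)).symm
  · left
    refine isConj_iff.2 ⟨((a * b) ^ (m + 1))⁻¹, ?_⟩
    rw [inv_inv, ← k1, inv_mul_cancel_right, mul_assoc, ← pow_add,
      show m + 1 + (m + 1) = orderOf (a * b) + 1 by omega, pow_succ, hn, one_mul, ← mul_assoc, a2, one_mul]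

theorem map_g {G H : Type*} [Group G] [Group H] (φ : G →* H) (l : List G) (w : Ex) :
    φ (w.g l) = w.g (l.map φ) := by
  induction w with
  | v i => simp only [Ex.g]; rw [← map_one φ, List.getD_map]
  | m a b ia ib => simp only [Ex.g, map_mul, ia, ib]
  | p a k ia => simp only [Ex.g, map_pow, ia]

theorem g_mem {G : Type*} [Group G] {K : Subgroup G} {l : List G} (h : ∀ a ∈ l, a ∈ K) (w : Ex) :
    w.g l ∈ K := by
  induction w with
  | v i =>
    simp only [Ex.g, List.getD_eq_getElem?_getD]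
    cases e : l[i]? with
    | none => exact one_mem _
    | some a => exact h a (List.mem_of_getElem? e)
  | m a b ia ib => exact mul_mem ia ib
  | p a k ia => exact pow_mem ia k

theorem cardC : Nat.card (centralizer ({je} : Set J4)) = 21799895040 := by
  have hJ := H7.JD.j_main.2.1
  have : Finite J4 := Nat.finite_of_card_ne_zero (by rw [hJ.2]; norm_num)
  obtain ⟨h2, d, c, Q, M, q1, q2, hd, hdQ, hQM, hdM, hM, ρ, hρ, hk, hkd, hc, hcM⟩ := H1.J4.main H13.Xs.xs
  obtain ⟨Q, N, M, -, -, -, NM, -, -, cN, iM, _, h22⟩ := H14.J4f.fin _ d c Q M q1 q2 hd hdQ hQM hdM hM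
    ⟨H27.simple_H22, H27.card_H22⟩ ρ hρ hk hkd H25.J4u.ub hc hcM
  have h3 := M.card_mul_index
  rw [iM, card_eq_card_quotient_mul_card_subgroup (N.subgroupOf M), h22.2,
    Nat.card_congr (subgroupOfEquivOfLe NM).toEquiv, cN] at h3
  exact h3.symm.trans (by norm_num)

def wd : Ex := .m (.m (eK.getD 3 (.v 0)) (eK.getD 4 (.v 0)))
  (.m (eK.getD 5 (.v 0)) (.m (eK.getD 7 (.v 0)) (eK.getD 8 (.v 0))))
def L5 : List ℕ := [cx, cy, cY, cd]
def uE (k : ℕ) : Ex := .m (.m (.p (.m (.v 0) (.v 1)) k) (.v 3)) (.p (.m (.v 2) (.v 0)) k)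
theorem u1 : ∀ k < 23, Nat.beq ((uE k).c kmul kone L5) ((Ex.m (.m (.v 0) (.v 3)) (.v 0)).c kmul kone L5) = false := by
  decide +kernel
theorem u2 : ∀ k < 22, Nat.beq ((uE (k + 1)).c kmul kone L5) ((Ex.v 3).c kmul kone L5) = false := by
  decide +kernel

variable {G : Type u} [Group G] [Finite G] {M : Model G} {x y e t : G}

theorem fin [IsSimpleGroup G] (f : Fr M x y e) (hi : ∀ c : J4, c ∈ closure {jx, jy, je} → orderOf c = 2 → IsConj c je ∨ IsConj c jx) (h8 : t ^ 2 = 1) (h9 : t⁻¹ * (y * x * y * ((x * (y⁻¹)) ^ 2) * ((x * y) ^ 3))⁻¹ * t * (y * x * y * ((x * (y⁻¹)) ^ 2) * ((x * y) ^ 3)) = 1) (h10 : t⁻¹ * x⁻¹ * t * x = 1) (h11 : (y * ((y * x * (y⁻¹) * x * y * x * (y⁻¹) * x)⁻¹ * t * (y * x * (y⁻¹) * x * y * x * (y⁻¹) * x))) ^ 3 = 1) (h12 : (((y * x * y * x * y * x * y) ^ 3) * t * ((((x * y) ^ 3) * y * ((x * y) ^ 6) * y)⁻¹ * t * (((x * y) ^ 3) * y * ((x * y) ^ 6) * y))) ^ 2 = 1) (he : (y * ((y * x) ^ 4 * y⁻¹ * x)⁻¹ * t * ((y * x) ^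 4 * y⁻¹ * x)) ^ 3 ∈ zpowers e) : Nonempty (G ≃* J4) := by
  have s := f.s
  have h := f.h
  have x2 : x * x = 1 := s.eq h (.m (.v 0) (.v 0)) (.v 9) (by decide +kernel)
  have xi : x⁻¹ = x := inv_eq_of_mul_eq_one_right x2
  have h1 : x ^ 2 = 1 := by rw [pow_two, x2]
  have h2 : y ^ 3 = 1 := s.eq h (.p (.v 1) 3) (.v 9) (by decide +kernel)
  have h3 : (x * y) ^ 23 = 1 := s.eq h (.p (.m (.v 0) (.v 1)) 23) (.v 9) (by decide +kernel)
  have h4 : (x⁻¹ * y⁻¹ * x * y) ^ 12 = 1 := by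
    rw [xi]
    exact s.eq h (.p (.m (.m (.m (.v 0) (.v 2)) (.v 0)) (.v 1)) 12) (.v 9) (by decide +kernel)
  have h5 : (x⁻¹ * (y * x * y)⁻¹ * x * (y * x * y)) ^ 5 = 1 := by
    rw [mul_inv_rev, mul_inv_rev, xi]
    exact s.eq h (.p (.m (.m (.m (.v 0) (.m (.v 2) (.m (.v 0) (.v 2)))) (.v 0)) (.m (.m (.v 1) (.v 0)) (.v 1))) 5)
      (.v 9) (by decide +kernel)
  have h6 : (x * y * ((x * y * x * (y⁻¹)) ^ 3)) ^ 4 = 1 :=
    s.eq h (.p (.m (.m (.v 0) (.v 1)) (.p (.m (.m (.m (.v 0) (.v 1)) (.v 0)) (.v 2)) 3)) 4) (.v 9) (by decide +kernel)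
  have h7 : ((x * y * x * y * x * (y⁻¹)) ^ 3) * ((x * y * x * (y⁻¹) * x * (y⁻¹)) ^ 3) = 1 :=
    s.eq h (.m (.p (.m (.m (.m (.m (.m (.v 0) (.v 1)) (.v 0)) (.v 1)) (.v 0)) (.v 2)) 3)
      (.p (.m (.m (.m (.m (.m (.v 0) (.v 1)) (.v 0)) (.v 2)) (.v 0)) (.v 2)) 3)) (.v 9) (by decide +kernel)
  let γ : J4.Gen → G := fun a => match a with | .x => x | .y => y | .t => t
  have hr : ∀ r ∈ coxRelators J4.edges ∪ {r | r ∈ J4.extra}, FreeGroup.lift γ r = 1 := by
    rintro r (⟨a, ha, -⟩ | hr)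
    · simp [coxNodes, J4.edges] at ha
    · revert r
      simp only [Set.mem_setOf_eq, J4.extra, List.forall_mem_cons, _root_.map_mul, _root_.map_pow,
        _root_.map_inv, FreeGroup.lift_apply_of]
      exact ⟨h1, h2, h3, h4, h5, h6, h7, h8, h9, h10, h11, h12, by simp⟩
  let φ : J4 →* G := PresentedGroup.toGroup hr
  have px : φ jx = x := PresentedGroup.toGroup.of hr
  have py : φ jy = y := PresentedGroup.toGroup.of hr
  have pt : φ jt = t := PresentedGroup.toGroup.of hr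
  have hJ := H7.JD.j_main.2.1
  have := hJ.1
  have : Finite J4 := Nat.finite_of_card_ne_zero (by rw [hJ.2]; norm_num)
  have inj : Function.Injective φ := by
    rw [← MonoidHom.ker_eq_bot_iff]
    refine (φ.normal_ker.eq_bot_or_eq_top).resolve_right fun k => s.ne h (.v 0) (.v 9) (by decide +kernel) ?_
    exact px.symm.trans (show jx ∈ φ.ker from k ▸ Subgroup.mem_top _)
  obtain ⟨MJ, sJ, hJ1⟩ := j4_model'
  obtain ⟨R, N, xs, -⟩ := f.xe
  have e2 : e * e = 1 := by rw [← pow_two, ← xs.o, pow_orderOf_eq_one]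
  have pe : φ je = e := by
    have k1 : φ je ∈ zpowers e := by
      simpa only [_root_.map_mul, _root_.map_pow, _root_.map_inv, px, py, pt] using he
    have k2 : φ je ≠ 1 := fun k => sJ.ne hJ1 (.v 4) (.v 9) (by decide +kernel) (inj (k.trans (map_one φ).symm))
    obtain ⟨n, hn⟩ := k1
    rcases Int.even_or_odd' n with ⟨m, rfl | rfl⟩
    · exact absurd (by rw [← hn]; simp only [zpow_mul, zpow_two, e2, one_zpow]) k2
    · rw [← hn]; simp only [zpow_add, zpow_mul, zpow_two, e2, one_zpow, zpow_one, one_mul]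
  have H0 : closure {x, y, e} = (closure {jx, jy, je}).map φ := by
    rw [MonoidHom.map_closure]
    simp only [Set.image_insert_eq, Set.image_singleton, px, py, pe]
  have H0J : closure {x, y, e} ≤ φ.range := H0 ▸ map_le_range _ _
  have hJ4 : List.Forall₂ MJ.R L4 [jx, jy, jy⁻¹, je] :=
    .cons (R_getD hJ1 0) (.cons (R_getD hJ1 1) (.cons (R_getD hJ1 2) (.cons (R_getD hJ1 4) .nil)))
  have rdJ : MJ.R cd (wd.g [jx, jy, jy⁻¹, je]) := sJ.lit hJ4 wd (by decide +kernel)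
  have rd : M.R cd (wd.g [x, y, y⁻¹, e]) := s.lit h wd (by decide +kernel)
  have pd : φ (wd.g [jx, jy, jy⁻¹, je]) = wd.g [x, y, y⁻¹, e] := by
    rw [map_g]; simp only [List.map_cons, List.map_nil, _root_.map_inv, px, py, pe]
  generalize wd.g [jx, jy, jy⁻¹, je] = dj at rdJ pd
  generalize wd.g [x, y, y⁻¹, e] = d at rd pd
  have Cd : centralizer {d} ≤ closure {x, y, e} := f.cD cd (List.mem_append_left _ List.mem_cons_self) d rd
  have hJ6 : List.Forall₂ MJ.R (L1 ++ [cd]) ([jx, jy, jy⁻¹, jt, je] ++ [dj]) := List.rel_append hJ1 (.cons rdJ .nil)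
  have dx : IsConj dj jx := isConj_iff.2 ⟨xw1.g ([jx, jy, jy⁻¹, jt, je] ++ [dj]), mul_inv_eq_of_eq_mul
    (sJ.eq hJ6 (.m xw1 (.v 5)) (.m (.v 0) xw1) (by decide +kernel))⟩
  have cjC : ∀ a b : J4, IsConj a b → centralizer {φ b} ≤ φ.range → centralizer {φ a} ≤ φ.range := by
    intro a b hab hb g hg
    obtain ⟨k, rfl⟩ := isConj_iff.1 hab
    have : φ k * g * (φ k)⁻¹ ∈ φ.range := hb (mem_centralizer_singleton_iff.2 (by
      simp only [_root_.map_mul, _root_.map_inv]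
      calc _ = φ k * (g * φ a) * (φ k)⁻¹ := by group
        _ = _ := by rw [mem_centralizer_singleton_iff.1 hg]; group))
    have mk : φ k ∈ φ.range := ⟨k, rfl⟩
    simpa [mul_assoc] using mul_mem (mul_mem (inv_mem mk) this) mk
  have Cx : centralizer {φ jx} ≤ φ.range := cjC _ _ dx.symm (pd ▸ Cd.trans H0J)
  have Ce : centralizer {φ je} ≤ φ.range := by
    have k1 : (centralizer {je}).map φ ≤ centralizer {φ je} := by
      rintro _ ⟨g, hg, rfl⟩
      rw [mem_centralizer_singleton_iff, ← _root_.map_mul, ← _root_.map_mul, mem_centralizer_singleton_iff.1 hg]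
    rw [← eq_of_le_of_card_ge k1 (by rw [card_map_of_injective inj, cardC, pe, xs.cC])]
    exact map_le_range _ _
  have h5' : List.Forall₂ M.R L5 [x, y, y⁻¹, d] :=
    .cons (R_getD h 0) (.cons (R_getD h 1) (.cons (R_getD h 2) (.cons rd .nil)))
  have d2 : d * d = 1 := s.eq h5' (.m (.v 3) (.v 3)) (.v 9) (by decide +kernel)
  have nde : ¬ IsConj d e := by
    intro hc
    obtain ⟨k, hk⟩ := isConj_iff.1 hc.symm
    have c1 := (xs.cj k).cC
    rw [hk] at c1
    have c2 : Nat.card (closure {x, y, e} : Subgroup G) = 21799895040 * 23 := by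
      have := (closure {jx, jy, je}).card_mul_index
      rw [H7.JD.j_main.1, hJ.2] at this
      rw [H0, card_map_of_injective inj]
      exact Nat.eq_of_mul_eq_mul_right (by norm_num : 0 < 173067389) (this.trans (by norm_num))
    have c3 := ((centralizer {d}).subgroupOf (closure {x, y, e})).card_mul_index
    rw [Nat.card_congr (subgroupOfEquivOfLe Cd).toEquiv, c1, c2] at c3
    have c4 : Nat.card (closure {x, y, e} ⧸ (centralizer {d}).subgroupOf (closure {x, y, e})) = 23 :=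
      Nat.eq_of_mul_eq_mul_left (by norm_num) c3
    have mx : x ∈ closure {x, y, e} := subset_closure (Or.inl rfl)
    have my : y ∈ closure {x, y, e} := subset_closure (Or.inr (Or.inl rfl))
    let g : Fin 24 → closure {x, y, e} := fun i =>
      if i.1 < 23 then ⟨(x * y) ^ i.1, pow_mem (mul_mem mx my) _⟩ else ⟨x, mx⟩
    have uu : ∀ k, (uE k).g [x, y, y⁻¹, d] = (x * y) ^ k * d * ((x * y) ^ k)⁻¹ := fun k => by
      change (x * y) ^ k * d * (y⁻¹ * x) ^ k = _
      rw [← inv_pow, mul_inv_rev, xi]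
    have key : ∀ i j : Fin 24, i < j → (g i : G) * d * (g i : G)⁻¹ ≠ (g j : G) * d * (g j : G)⁻¹ := by
      intro i j hij
      have hi' : i.1 < 23 := by have := j.2; have : i.1 < j.1 := hij; omega
      by_cases hj : j.1 < 23
      · obtain ⟨k, hk⟩ : ∃ k, j.1 = i.1 + (k + 1) := ⟨j.1 - i.1 - 1, by have : i.1 < j.1 := hij; omega⟩
        simp only [g, if_pos hi', if_pos hj]
        intro q
        refine s.ne h5' (uE (k + 1)) (.v 3) (u2 k (by omega)) ((uu _).trans ?_)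
        rw [hk, pow_add] at q
        change _ = d
        calc _ = ((x * y) ^ i.1)⁻¹ * ((x * y) ^ i.1 * (x * y) ^ (k + 1) * d *
            ((x * y) ^ i.1 * (x * y) ^ (k + 1))⁻¹) * (x * y) ^ i.1 := by group
          _ = d := by rw [← q]; group
      · simp only [g, if_pos hi', if_neg hj]
        intro q
        rw [xi] at q
        exact s.ne h5' (uE i.1) _ (u1 i.1 hi') ((uu _).trans q)
    have := Fintype.ofFinite (closure {x, y, e} ⧸ (centralizer {d}).subgroupOf (closure {x, y, e}))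
    obtain ⟨i, j, hij, q⟩ := Fintype.exists_ne_map_eq_of_card_lt
      (fun i => ((g i : closure {x, y, e}) : closure {x, y, e} ⧸ (centralizer {d}).subgroupOf (closure {x, y, e})))
      (by rw [← Nat.card_eq_fintype_card, c4]; simp)
    have q1 : (g i : G)⁻¹ * g j * d = d * ((g i : G)⁻¹ * g j) :=
      mem_centralizer_singleton_iff.1 (mem_subgroupOf.1 (QuotientGroup.eq.1 q))
    have q2 : (g i : G) * d * (g i : G)⁻¹ = (g j : G) * d * (g j : G)⁻¹ := by
      calc _ = (g i : G) * (d * ((g i : G)⁻¹ * g j)) * (g j : G)⁻¹ := by group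
        _ = _ := by rw [← q1]; group
    rcases lt_or_gt_of_ne hij with l | l
    · exact key i j l q2
    · exact key j i l q2.symm
  have all : ∀ g : G, g * e * g⁻¹ ∈ φ.range := by
    intro g
    rcases dih d2 (b := g * e * g⁻¹) (by
      calc _ = g * (e * e) * g⁻¹ := by group
        _ = 1 := by rw [e2]; group) with k | ⟨c, o, k1, k2⟩
    · exact absurd (k.trans (isConj_iff.2 ⟨g⁻¹, by group⟩)) nde
    obtain ⟨c0, m0, rfl⟩ : c ∈ (closure {jx, jy, je}).map φ := H0 ▸ Cd (mem_centralizer_singleton_iff.2 k1)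
    rw [orderOf_injective φ inj] at o
    rcases hi c0 m0 o with k | k
    · exact cjC _ _ k Ce (mem_centralizer_singleton_iff.2 k2.symm)
    · exact cjC _ _ k Cx (mem_centralizer_singleton_iff.2 k2.symm)
  have top : φ.range = ⊤ := by
    have k1 : normalClosure {e} ≤ φ.range := (closure_le _).2 fun a ha => by
      obtain ⟨b, hb, hc⟩ := Group.mem_conjugatesOfSet_iff.1 ha
      obtain ⟨g, rfl⟩ := isConj_iff.1 hc
      rw [Set.mem_singleton_iff.1 hb]
      exact all g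
    rcases (normalClosure_normal (s := {e})).eq_bot_or_eq_top with k | k
    · have : e = 1 := mem_bot.1 (k ▸ subset_normalClosure (Set.mem_singleton e))
      have o := xs.o
      rw [this, orderOf_one] at o
      omega
    · exact eq_top_iff.2 (k ▸ k1)
  exact ⟨(MulEquiv.ofBijective φ ⟨inj, MonoidHom.range_eq_top.1 top⟩).symm⟩

end H1.Fin4
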