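import Cfsg.Agent.H1.Fm

/-! Fischer's theorem: linear algebra. -/

set_option autoImplicit false

namespace H1.Fi
open Cfsg H18 H28 H23 Module

variable {G : Type*} [Group G] {F : Type} {V : Type*} [Field F] {σ : F →+* F} [AddCommGroup V] [Module F V]
  {Φ : Form σ V} {P : Set V} {A : Set G} {π : V → G}

theorem quot_form [FiniteDimensional F V] (Φ : Form σ V) : ∃ (n : ℕ) (Ψ : Form σ (Fin n → F)) (κ : V →ₗ[F] (Fin n → F)),
    Ψ.Nondeg ∧ Ψ.ε = Φ.ε ∧ Function.Surjective κ ∧ ∀ x y, Ψ.B (κ x) (κ y) = Φ.B x y := by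
  obtain ⟨U, hU⟩ := (Φ.perp ⊤).exists_isCompl
  let e := (finBasis F U).equivFun
  let p := U.projectionOnto _ hU.symm
  have k : ∀ x, x - (p x : V) ∈ Φ.perp ⊤ := fun x => by
    have := Submodule.projection_add_projection_eq_self hU.symm x
    rw [← eq_sub_iff_add_eq'] at this
    exact (this ▸ Submodule.projection_apply_mem _ _ :)
  refine ⟨_, Φ.comap (U.subtype ∘ₗ e.symm.toLinearMap), e.toLinearMap ∘ₗ p, fun x hx => ?_, rfl,
    e.surjective.comp fun u => ⟨u, Submodule.projectionOnto_apply_left _ u⟩, fun x y => ?_⟩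
  · have : (e.symm x : V) ∈ Φ.perp ⊤ := Φ.mem_perp'.2 fun w _ => by
      have h1 := hx (e (p w))
      have h2 := Φ.B_eq_zero_symm (Φ.mem_perp'.1 (k w) (e.symm x) trivial)
      simp only [Form.comap_B, LinearMap.comp_apply, LinearEquiv.coe_coe, e.symm_apply_apply, Submodule.subtype_apply] at h1
      rwa [map_sub, h1, sub_zero] at h2
    exact e.symm.injective (Subtype.ext (by simpa using Submodule.disjoint_def.1 hU.disjoint _ this (e.symm x).2))
  · have h1 := k y (p x) trivial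
    have h2 := Φ.mem_perp'.1 (k x) y trivial
    simp only [Form.comap_B, LinearMap.comp_apply, LinearEquiv.coe_coe, e.symm_apply_apply, Submodule.subtype_apply]
    rw [map_sub, sub_eq_zero] at h1
    rw [map_sub, LinearMap.sub_apply, sub_eq_zero] at h2
    rw [← h1, h2]

theorem gram {I : Type*} [Finite I] (g : I → I → F) (hσ : ∀ a, σ (σ a) = a) (hg : ∀ a b, g b a = σ (g a b))
    (h0 : ∀ a, ∃ s, g a a = s + σ s) : ∃ (n : ℕ) (Ψ : Form σ (Fin n → F)) (ι : I → Fin n → F),
      Ψ.Nondeg ∧ Ψ.ε = 1 ∧ Submodule.span F (Set.range ι) = ⊤ ∧ ∀ a b, Ψ.B (ι a) (ι b) = g a b := by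
  classical
  have := Fintype.ofFinite I
  let B : (I → F) →ₛₗ[σ] (I → F) →ₗ[F] F := LinearMap.mk₂'ₛₗ σ (RingHom.id F) (fun x y => ∑ a, ∑ b, σ (x a) * g a b * y b)
    (fun _ _ _ => by simp [add_mul, Finset.sum_add_distrib]) (fun _ _ _ => by simp [Finset.mul_sum, mul_assoc])
    (fun _ _ _ => by simp [mul_add, Finset.sum_add_distrib])
    (fun _ _ _ => by simp [Finset.mul_sum, mul_left_comm])
  have e : ∀ a b, B (Pi.single a 1) (Pi.single b 1) = g a b := fun a b => by
    simp [B, Pi.single_apply, apply_ite σ]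
  have sy : ∀ x y, B y x = σ (B x y) := fun x y => by
    simp only [B, LinearMap.mk₂'ₛₗ_apply, map_sum, map_mul, hσ, ← hg]
    rw [Finset.sum_comm]
    exact Finset.sum_congr rfl fun _ _ => Finset.sum_congr rfl fun _ _ => by ring
  let Φ : Form σ (I → F) := ⟨1, 0, B, fun _ => 0, hσ, by simp, by simpa using sy, by simp, by simp, by simp, by simp,
    fun v => by
      simp only [one_mul, zero_mul, and_true]
      have : v ∈ Submodule.span F (Set.range (Pi.basisFun F I)) := by simp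
      induction this using Submodule.span_induction with
      | mem x hx => obtain ⟨a, rfl⟩ := hx; simpa [e] using h0 a
      | zero => exact ⟨0, by simp⟩
      | add x y _ _ hx hy =>
        obtain ⟨s, hs⟩ := hx
        obtain ⟨t, ht⟩ := hy
        exact ⟨s + t + B x y, by simp only [map_add, LinearMap.add_apply, hs, ht, sy x y]; ring⟩
      | smul c x _ hx =>
        obtain ⟨s, hs⟩ := hx
        exact ⟨σ c * c * s, by simp only [map_smul, LinearMap.map_smulₛₗ, LinearMap.smul_apply, smul_eq_mul, hs, map_mul, hσ]; ring⟩⟩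
  obtain ⟨n, Ψ, κ, h1, h2, h3, h4⟩ := quot_form Φ
  refine ⟨n, Ψ, fun a => κ (Pi.single a 1), h1, h2, ?_, fun a b => (h4 _ _).trans (e a b)⟩
  have := congrArg (Submodule.map κ) (Pi.basisFun F I).span_eq
  rw [Submodule.map_span, ← Set.range_comp, Submodule.map_top, LinearMap.range_eq_top.2 h3] at this
  convert this using 3
  ext a
  simp

theorem ext_span (h : Φ.Nondeg) {s : Set V} (hs : Submodule.span F s = ⊤) {v : V} (hv : ∀ a ∈ s, Φ.B a v = 0) : v = 0 := by
  have : v ∈ Φ.perp ⊤ := hs ▸ Φ.mem_perp_span.2 hv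
  rwa [Φ.perp_top h] at this

theorem dim_ge [FiniteDimensional F V] (h : Φ.Nondeg) {k : ℕ} {f : Fin k → V} (i : LinearIndependent F f)
    (o : ∀ a b, Φ.B (f a) (f b) = 0) : 2 * k ≤ finrank F V := by
  have h1 := h.finrank_perp_add (Submodule.span F (Set.range f))
  have h2 := Submodule.finrank_mono (s := Submodule.span F (Set.range f)) (t := Φ.perp (Submodule.span F (Set.range f)))
    (Submodule.span_le.2 (by rintro _ ⟨a, rfl⟩; exact Φ.mem_perp_span.2 (by rintro _ ⟨b, rfl⟩; exact o b a)))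
  rw [finrank_span_eq_card i, Fintype.card_fin] at h1 h2
  omega

theorem LM.congr (h : LM Φ P A π) {Ψ : Form σ V} (e : ∀ x y, Ψ.B x y = Φ.B x y) (he : Ψ.ε = 1) : LM Ψ P A π where
  nd x hx := h.nd x fun y => e x y ▸ hx y
  eps := he
  un := h.un
  ne := h.ne
  nm v hv := e v v ▸ h.nm v hv
  cl v hv w hw := e w v ▸ h.cl v hv w hw
  sc := h.sc
  img := h.img
  eq := h.eq
  cj v hv w hw := e w v ▸ h.cj v hv w hw

theorem sur_comb [FiniteDimensional F V] (h : Φ.Nondeg) {k : ℕ} (f : Fin k → V) (o : ∀ v, (∀ i, Φ.B (f i) v = 0) → v = 0) :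
    Function.Surjective (Fintype.linearCombination F f) := by
  rw [← LinearMap.range_eq_top, Fintype.range_linearCombination]
  refine h.perp_injective ?_
  rw [Φ.perp_top h, eq_bot_iff]
  exact fun v hv => o v fun i => Φ.mem_perp_span.1 hv _ ⟨i, rfl⟩

/-- a vector orthogonal to a list of vectors and not to a further one -/
theorem ex_perp [FiniteDimensional F V] (h : Φ.Nondeg) (s : Set V) {x : V} (hx : x ∉ Submodule.span F s) :
    ∃ e, (∀ w ∈ s, Φ.B w e = 0) ∧ Φ.B x e = 1 := by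
  obtain ⟨e, h1, h2⟩ := h.exists_perp_eq_one hx
  refine ⟨(Φ.B x e)⁻¹ • e, fun w hw => ?_, ?_⟩
  · rw [Φ.B_smul_right, Φ.B_eq_zero_symm (h1 w (Submodule.subset_span hw)), mul_zero]
  · rw [Φ.B_smul_right, inv_mul_cancel₀ fun q => by simpa [h2] using Φ.B_eq_zero_symm q]

end H1.Fi
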