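import Cfsg.Agent.H1.F0
import Cfsg.Agent.H23.Classify

/-! Fischer's theorem: linear models. -/

set_option autoImplicit false

namespace H1.Fi
open Cfsg H18 H28 H23 Subgroup

/-- the field with four elements -/
abbrev K4 : Type := QuadraticAlgebra (ZMod 2) 1 1
instance factK4 : Fact (∀ r : ZMod 2, r ^ 2 ≠ 1 + 1 * r) := ⟨by decide⟩
instance finK4 : Fintype K4 := Fintype.ofEquiv _ (QuadraticAlgebra.equivProd 1 1).symm
theorem card_K4 : Fintype.card K4 = 2 ^ 2 := by rw [Fintype.ofEquiv_card]; rfl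
/-- conjugation of the field with four elements -/
abbrev c4 : K4 →+* K4 := conj card_K4

variable {G M : Type*} [Group G] [Group M] {F V W : Type*} [Field F] {σ : F →+* F} [AddCommGroup V] [Module F V]
  [AddCommGroup W] [Module F W] {Φ : Form σ V} {P : Set V} {A : Set G} {π : V → G} {u v w : V}

/-- a set of vectors closed under its transvections or reflections -/
structure PM (Φ : Form σ V) (P : Set V) : Prop where
  nd : Φ.Nondeg
  eps : Φ.ε = 1
  un : ∀ t : F, t ≠ 0 → σ t * t = 1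
  ne : ∀ v ∈ P, v ≠ 0
  nm : ∀ v ∈ P, Φ.B v v = -2
  cl : ∀ v ∈ P, ∀ w ∈ P, v + Φ.B w v • w ∈ P
  sc : ∀ v ∈ P, ∀ t : F, t ≠ 0 → t • v ∈ P

/-- a linear model of the Fischer space `A` -/
structure LM (Φ : Form σ V) (P : Set V) (A : Set G) (π : V → G) : Prop extends PM Φ P where
  img : π '' P = A
  eq : ∀ v ∈ P, ∀ w ∈ P, π v = π w ↔ ∃ t : F, w = t • v
  cj : ∀ v ∈ P, ∀ w ∈ P, π w ⊳ π v = π (v + Φ.B w v • w)

theorem PM.sym (h : PM Φ P) (x y : V) : Φ.B y x = σ (Φ.B x y) := by rw [Φ.symm, h.eps, one_mul]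

namespace LM
variable (h : LM Φ P A π)
include h
theorem mem (hv : v ∈ P) : π v ∈ A := h.img ▸ ⟨v, hv, rfl⟩
theorem sur {a : G} (ha : a ∈ A) : ∃ v ∈ P, π v = a := by rwa [← h.img] at ha
theorem smul (hv : v ∈ P) {t : F} (ht : t ≠ 0) : π (t • v) = π v :=
  ((h.eq _ hv _ (h.sc _ hv t ht)).2 ⟨t, rfl⟩).symm
theorem neg (hv : v ∈ P) : π (-v) = π v := by simpa using h.smul hv (t := -1) (by simp)
theorem clo : Clo A := fun a ha b hb => by
  obtain ⟨v, hv, rfl⟩ := h.sur ha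
  obtain ⟨w, hw, rfl⟩ := h.sur hb
  exact h.cj w hw v hv ▸ h.mem (h.cl w hw v hv)
theorem cm0 (hv : v ∈ P) (hw : w ∈ P) (e : Φ.B v w = 0) : Commute (π v) (π w) := by
  rw [← conj_eq_iff_commute, h.cj w hw v hv, e, zero_smul, add_zero]
theorem com (hv : v ∈ P) (hw : w ∈ P) : Commute (π v) (π w) ↔ π v = π w ∨ Φ.B v w = 0 := by
  refine ⟨fun c => or_iff_not_imp_right.2 fun n => ?_, fun c => c.elim (fun e => e ▸ Commute.refl _) (h.cm0 hv hw)⟩
  rw [← conj_eq_iff_commute, h.cj w hw v hv, eq_comm, h.eq w hw _ (h.cl w hw v hv)] at c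
  obtain ⟨t, e⟩ := c
  exact ((h.eq w hw v hv).2 ⟨(Φ.B v w)⁻¹ * (t - 1), by
    rw [mul_smul, eq_inv_smul_iff₀ n, sub_smul, ← e, one_smul, add_sub_cancel_left]⟩).symm
theorem nc0 (hv : v ∈ P) (hw : w ∈ P) (n : ¬ Commute (π v) (π w)) : Φ.B v w ≠ 0 := mt (h.cm0 hv hw) n
theorem b0 (hv : v ∈ P) (hw : w ∈ P) (c : Commute (π v) (π w)) (n : π v ≠ π w) : Φ.B v w = 0 :=
  ((h.com hv hw).1 c).resolve_left n
theorem fiso {B : Set M} {τ : G → M} (f : FIso A B τ) : LM Φ P B (fun v => τ (π v)) where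
  toPM := h.toPM
  img := by rw [← Set.image_image τ π, h.img, f.bij.image_eq]
  eq v hv w hw := ⟨fun e => (h.eq v hv w hw).1 (f.inj (h.mem hv) (h.mem hw) e), fun e => by rw [(h.eq v hv w hw).2 e]⟩
  cj v hv w hw := by rw [← f.cj _ (h.mem hw) _ (h.mem hv), h.cj v hv w hw]
/-- two spaces with the same model are isomorphic -/
theorem iso {B : Set M} {ρ : V → M} (k : LM Φ P B ρ) : ∃ τ, FIso A B τ ∧ ∀ v ∈ P, τ (π v) = ρ v := by
  classical
  let τ : G → M := fun a => if e : ∃ v ∈ P, π v = a then ρ e.choose else 1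
  have e : ∀ v ∈ P, τ (π v) = ρ v := fun v hv => by
    have e : ∃ w ∈ P, π w = π v := ⟨v, hv, rfl⟩
    simp only [τ, dif_pos e]
    exact (k.eq _ e.choose_spec.1 v hv).2 ((h.eq _ e.choose_spec.1 v hv).1 e.choose_spec.2)
  refine ⟨τ, ⟨h.clo, ⟨fun a ha => ?_, fun a ha b hb q => ?_, fun b hb => ?_⟩, fun a ha b hb => ?_⟩, e⟩
  · obtain ⟨v, hv, rfl⟩ := h.sur ha
    exact e v hv ▸ k.mem hv
  · obtain ⟨v, hv, rfl⟩ := h.sur ha
    obtain ⟨w, hw, rfl⟩ := h.sur hb
    rw [e v hv, e w hw] at q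
    exact (h.eq v hv w hw).2 ((k.eq v hv w hw).1 q)
  · obtain ⟨v, hv, rfl⟩ := k.sur hb
    exact ⟨_, h.mem hv, e v hv⟩
  · obtain ⟨v, hv, rfl⟩ := h.sur ha
    obtain ⟨w, hw, rfl⟩ := h.sur hb
    rw [h.cj w hw v hv, e v hv, e w hw, e _ (h.cl w hw v hv), k.cj w hw v hv]
theorem fs (o : ∀ v ∈ P, orderOf (π v) = 2) : FS A := by
  refine ⟨⟨fun a ha => ?_, fun a ha b hb => ?_⟩, h.clo⟩
  · obtain ⟨v, hv, rfl⟩ := h.sur ha
    exact o v hv
  obtain ⟨v, hv, rfl⟩ := h.sur ha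
  obtain ⟨w, hw, rfl⟩ := h.sur hb
  have s : ∀ v ∈ P, π v * π v = 1 := fun v hv => by rw [← sq, ← o v hv, pow_orderOf_eq_one]
  have i : ∀ v ∈ P, (π v)⁻¹ = π v := fun v hv => inv_eq_of_mul_eq_one_right (s v hv)
  by_cases c : Φ.B v w = 0
  · exact Or.inl (by rw [(h.cm0 hv hw c).mul_pow, sq, sq, s v hv, s w hw, one_mul])
  have e : π v ⊳ π w = π w ⊳ π v := by
    rw [h.cj w hw v hv, h.cj v hv w hw, h.eq _ (h.cl w hw v hv) _ (h.cl v hv w hw)]
    refine ⟨Φ.B w v, ?_⟩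
    rw [smul_add, smul_smul, h.sym v w, h.un _ c, one_smul, add_comm]
  rw [i v hv, i w hw] at e
  refine Or.inr ?_
  calc _ = (π v * π w * π v) * (π w * π v * π w) := by simp only [pow_succ, pow_zero, one_mul, mul_assoc]
    _ = (π v * π w * π v) * (π v * π w * π v) := by rw [e]
    _ = π v * (π w * (π v * π v) * π w) * π v := by simp only [mul_assoc]
    _ = 1 := by rw [s v hv, mul_one, s w hw, mul_one, s v hv]
theorem comap (κ : W →ₗ[F] V) (hκ : Function.Surjective κ) (nd : (Φ.comap κ).Nondeg) :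
    LM (Φ.comap κ) (κ ⁻¹' P) A (fun x => π (κ x)) where
  nd := nd
  eps := h.eps
  un := h.un
  ne v hv e := h.ne _ hv (by rw [e, map_zero])
  nm v hv := h.nm _ hv
  cl v hv w hw := by simpa using h.cl _ hv _ hw
  sc v hv t ht := by simpa using h.sc _ hv t ht
  img := by rw [← Set.image_image π κ, Set.image_preimage_eq _ hκ, h.img]
  eq v hv w hw := (h.eq _ hv _ hw).trans (exists_congr fun t => ⟨fun e => nd.eq_of_forall fun z => by
    simp only [Form.comap_B, e, map_smul], fun e => by rw [e, map_smul]⟩)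
  cj v hv w hw := by simpa using h.cj _ hv _ hw
end LM

open Classical in
/-- the transvection or reflection of a vector -/
noncomputable def tv (Φ : Form σ V) (v : V) : V ≃ₗ[F] V :=
  if h : Φ.B v v = -2 then LinearEquiv.ofInvolutive (LinearMap.id + (Φ.B v).smulRight v) fun x => by
    simp only [LinearMap.add_apply, LinearMap.id_apply, LinearMap.smulRight_apply, map_add, map_smul, h, smul_eq_mul]
    module
  else 1

theorem tv_apply (h : Φ.B v v = -2) (x : V) : tv Φ v x = x + Φ.B v x • v := by rw [tv, dif_pos h]; rfl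

/-- any representation of the vectors by their transvections is a model -/
theorem PM.lm_of (h : PM Φ P) (T : G →* (V ≃ₗ[F] V)) (hT : Function.Injective T)
    (e : ∀ v ∈ P, ∀ x, T (π v) x = x + Φ.B v x • v) : LM Φ P (π '' P) π ∧ ∀ v ∈ P, orderOf (π v) = 2 := by
  have sq : ∀ v ∈ P, π v * π v = 1 := fun v hv => hT (LinearEquiv.ext fun x => by
    simp only [map_mul, map_one, LinearEquiv.mul_apply, e v hv, map_add, map_smul, h.nm v hv,
      LinearEquiv.coe_one, id]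
    module)
  refine ⟨⟨h, rfl, fun v hv w hw => ⟨fun q => ?_, ?_⟩, fun v hv w hw => ?_⟩, fun v hv => ?_⟩
  · obtain ⟨y, hy⟩ := h.nd.exists_ne (h.ne w hw)
    have := e w hw y
    rw [← q, e v hv, hy, one_smul, add_right_inj] at this
    exact ⟨_, this.symm⟩
  · rintro ⟨t, rfl⟩
    refine hT (LinearEquiv.ext fun x => ?_)
    rw [e v hv, e _ hw, Φ.B_smul_left, smul_smul, mul_right_comm, h.un t (fun q => h.ne _ hw (by simp [q])), one_mul]
  · rw [inv_eq_of_mul_eq_one_right (sq w hw)]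
    refine hT (LinearEquiv.ext fun x => ?_)
    simp only [map_mul, LinearEquiv.mul_apply, e v hv, e w hw, e _ (h.cl v hv w hw), map_add, map_smul, h.nm w hw,
      smul_eq_mul, LinearMap.add_apply, Φ.B_smul_left, ← h.sym]
    module
  · haveI : Fact (Nat.Prime 2) := ⟨Nat.prime_two⟩
    refine orderOf_eq_prime (by rw [pow_two, sq v hv]) fun q => ?_
    obtain ⟨y, hy⟩ := h.nd.exists_ne (h.ne v hv)
    have := e v hv y
    rw [q, map_one, hy, one_smul, LinearEquiv.coe_one, id, left_eq_add] at this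
    exact h.ne v hv this

theorem PM.lm (h : PM Φ P) : LM Φ P (tv Φ '' P) (tv Φ) ∧ FS (tv Φ '' P) :=
  have := h.lm_of (π := tv Φ) (MonoidHom.id _) (fun _ _ e => e) fun v hv => tv_apply (h.nm v hv)
  ⟨this.1, this.1.fs this.2⟩

/-- symmetric type -/
def IsSym (A : Set G) (n : ℕ) : Prop := ∃ τ, FIso {s : Equiv.Perm (Fin n) | s.IsSwap} A τ
/-- symplectic type -/
def IsSp (A : Set G) (n : ℕ) : Prop := ∃ (V : Type) (_ : AddCommGroup V) (_ : Module (ZMod 2) V) (_ : Finite V)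
  (Φ : Form (RingHom.id (ZMod 2)) V) (π : V → G), Module.finrank (ZMod 2) V = n ∧ LM Φ {v | v ≠ 0} A π
/-- orthogonal type over the field with two elements -/
def IsO2 (A : Set G) (n : ℕ) : Prop := ∃ (V : Type) (_ : AddCommGroup V) (_ : Module (ZMod 2) V) (_ : Finite V)
  (Q : QuadraticForm (ZMod 2) V) (π : V → G), Module.finrank (ZMod 2) V = n ∧ LM (Form.ofQuad Q) {v | Q v = 1} A π
/-- unitary type -/
def IsU (A : Set G) (n : ℕ) : Prop := ∃ (V : Type) (_ : AddCommGroup V) (_ : Module K4 V) (_ : Finite V)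
  (Φ : Form c4 V) (π : V → G), Module.finrank K4 V = n ∧ LM Φ {v | v ≠ 0 ∧ Φ.B v v = 0} A π
/-- orthogonal type over the field with three elements -/
def IsO3 (A : Set G) (n : ℕ) : Prop := ∃ (V : Type) (_ : AddCommGroup V) (_ : Module (ZMod 3) V) (_ : Finite V)
  (Φ : Form (RingHom.id (ZMod 3)) V) (π : V → G), Module.finrank (ZMod 3) V = n ∧ LM Φ {v | Φ.B v v = 1} A π

section
variable {B : Set M} {τ : G → M} {n : ℕ}
theorem IsSym.fiso (h : IsSym A n) (f : FIso A B τ) : IsSym B n := let ⟨_, k⟩ := h; ⟨_, k.trans f⟩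
theorem IsSp.fiso (h : IsSp A n) (f : FIso A B τ) : IsSp B n :=
  let ⟨V, _, _, _, Φ, _, e, k⟩ := h; ⟨V, _, _, ‹_›, Φ, _, e, k.fiso f⟩
theorem IsO2.fiso (h : IsO2 A n) (f : FIso A B τ) : IsO2 B n :=
  let ⟨V, _, _, _, Φ, _, e, k⟩ := h; ⟨V, _, _, ‹_›, Φ, _, e, k.fiso f⟩
theorem IsU.fiso (h : IsU A n) (f : FIso A B τ) : IsU B n :=
  let ⟨V, _, _, _, Φ, _, e, k⟩ := h; ⟨V, _, _, ‹_›, Φ, _, e, k.fiso f⟩
theorem IsO3.fiso (h : IsO3 A n) (f : FIso A B τ) : IsO3 B n :=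
  let ⟨V, _, _, _, Φ, _, e, k⟩ := h; ⟨V, _, _, ‹_›, Φ, _, e, k.fiso f⟩
end

end H1.Fi
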