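import Cfsg.Agent.H1.Fg

/-! Fischer's theorem: the uniqueness lemma. -/

set_option autoImplicit false
set_option linter.unusedSectionVars false

namespace H1.Fi
open Cfsg H18 H28 H23 Subgroup

theorem cocycle {α : Type*} {Ω : Set α} {r c : α → α → Prop} {o : α} (ho : o ∈ Ω) (rf : ∀ x ∈ Ω, r x x)
    (sy : ∀ x ∈ Ω, ∀ y ∈ Ω, r x y → r y x) (cs : ∀ x y, c x y ↔ c y x)
    (tri : ∀ x ∈ Ω, ∀ y ∈ Ω, ∀ z ∈ Ω, r x y → r x z → r y z → (c y z ↔ (c x y ↔ c x z)))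
    (a1 : ∀ v ∈ Ω, ∃ z ∈ Ω, r o z ∧ r z v)
    (a2 : ∀ v ∈ Ω, ¬ r o v → ∀ z ∈ Ω, ∀ z' ∈ Ω, r o z → r z v → r o z' → r z' v →
      ∃ p ∈ Ω, ∃ q ∈ Ω, r o p ∧ r p v ∧ r o q ∧ r q v ∧ r z p ∧ r p q ∧ r q z')
    (b : ∀ v ∈ Ω, ∀ v' ∈ Ω, ¬ r o v → ¬ r o v' → r v v' → ∃ z ∈ Ω, r o z ∧ r z v ∧ r z v') :
    ∃ f : α → Prop, ∀ v ∈ Ω, ∀ v' ∈ Ω, r v v' → (c v v' ↔ (f v ↔ f v')) := by
  have s : ∀ v ∈ Ω, ∀ z ∈ Ω, ∀ z' ∈ Ω, r o z → r z v → r o z' → r z' v → r z z' →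
      ((c o z ↔ c z v) ↔ (c o z' ↔ c z' v)) := fun v hv z hz z' hz' h1 h2 h3 h4 h5 => by
    have := tri o ho z hz z' hz' h1 h3 h5
    have := tri z hz z' hz' v hv h5 h2 h4
    tauto
  have k : ∀ v ∈ Ω, ∀ z ∈ Ω, ∀ z' ∈ Ω, r o z → r z v → r o z' → r z' v → ((c o z ↔ c z v) ↔ (c o z' ↔ c z' v)) := by
    intro v hv z hz z' hz' h1 h2 h3 h4
    by_cases q : r o v
    · have := tri o ho z hz v hv h1 q h2
      have := tri o ho z' hz' v hv h3 q h4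
      tauto
    obtain ⟨p, hp, q, hq, e1, e2, e3, e4, e5, e6, e7⟩ := a2 v hv q z hz z' hz' h1 h2 h3 h4
    exact (s v hv z hz p hp h1 h2 e1 e2 e5).trans ((s v hv p hp q hq e1 e2 e3 e4 e6).trans
      (s v hv q hq z' hz' e3 e4 h3 h4 e7))
  let f : α → Prop := fun v => ∃ z ∈ Ω, r o z ∧ r z v ∧ (c o z ↔ c z v)
  have e : ∀ v ∈ Ω, ∀ z ∈ Ω, r o z → r z v → (f v ↔ (c o z ↔ c z v)) := fun v hv z hz h1 h2 =>
    ⟨fun ⟨w, hw, a, b, c⟩ => (k v hv w hw z hz a b h1 h2).1 c, fun c => ⟨z, hz, h1, h2, c⟩⟩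
  refine ⟨f, fun v hv v' hv' q => ?_⟩
  obtain ⟨z, hz, h1, h2, h3⟩ : ∃ z ∈ Ω, r o z ∧ r z v ∧ r z v' := by
    by_cases h1 : r o v
    · exact ⟨v, hv, h1, rf v hv, q⟩
    by_cases h2 : r o v'
    · exact ⟨v', hv', h2, sy v hv v' hv' q, rf v' hv'⟩
    exact b v hv v' hv' h1 h2 q
  rw [e v hv z hz h1 h2, e v' hv' z hz h1 h3, tri z hz v hv v' hv' h2 h3 q]
  tauto

theorem pl7 {A B C A' B' C' T : Prop} (h : A ↔ (T ↔ (B ↔ C))) (k : A' ↔ (T ↔ (B' ↔ C'))) :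
    (A ↔ A') ↔ ((B ↔ B') ↔ (C ↔ C')) := by tauto

theorem dsum {α β : Type*} {s : Set α} {t : Set β} (hs : s.Finite) (ht : t.Finite) (r : α → β → Prop) :
    ∑ a ∈ hs.toFinset, {b | b ∈ t ∧ r a b}.ncard = ∑ b ∈ ht.toFinset, {a | a ∈ s ∧ r a b}.ncard := by
  classical
  have := Finset.sum_card_bipartiteAbove_eq_sum_card_bipartiteBelow (s := hs.toFinset) (t := ht.toFinset) r
  simpa only [← Set.ncard_coe_finset, Finset.coe_bipartiteAbove, Finset.coe_bipartiteBelow, Set.Finite.mem_toFinset]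
    using this
theorem dcnt {α β : Type*} {s : Set α} {t : Set β} (hs : s.Finite) (ht : t.Finite) (r : α → β → Prop) {m n : ℕ}
    (h1 : ∀ a ∈ s, {b | b ∈ t ∧ r a b}.ncard = m) (h2 : ∀ b ∈ t, {a | a ∈ s ∧ r a b}.ncard = n) :
    s.ncard * m = t.ncard * n := by
  have := dsum hs ht r
  rwa [Finset.sum_const_nat fun a ha => h1 a (by simpa using ha), Finset.sum_const_nat fun a ha => h2 a (by simpa using ha),
    ← Set.ncard_eq_toFinset_card _ hs, ← Set.ncard_eq_toFinset_card _ ht] at this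

variable {G M : Type*} [Group G] [Group M] {D : Set G} {E : Set M} {a a' b c d x t t' a1 a2 a3 : G} {e y y' : M}
  {σ : G → M}

/-- the points not commuting with `d` -/
def Ao (D : Set G) (d : G) : Set G := {a | a ∈ D ∧ ¬ Commute a d}
/-- the lines through `d` generate a symmetric group -/
def Ad (d a a' : G) : Prop := Commute a a' ∨ Commute a (d ⊳ a')
/-- on the same line through `d` -/
def Ln (d a a' : G) : Prop := a' = a ∨ a' = d ⊳ a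
/-- the lines through `d` are determined by their traces -/
def Inj (D : Set G) (d : G) : Prop := ∀ a ∈ Ao D d, ∀ a' ∈ Ao D d, (∀ p ∈ dd D d, Commute a p ↔ Commute a' p) → Ln d a a'
/-- corresponding traces -/
def Rr (D : Set G) (d : G) (σ : G → M) (a : G) (y : M) : Prop := ∀ b ∈ dd D d, Commute a b ↔ Commute y (σ b)

section
variable (h : FS D) (hd : d ∈ D)
include h
theorem FS.ao (ht : t ∈ D) (c : Commute t d) (ha : a ∈ Ao D d) : t ⊳ a ∈ Ao D d := ⟨h.clo _ ht _ ha.1, ncj c ha.2⟩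
include hd
theorem FS.ln (ha : a ∈ Ao D d) (l : Ln d a a') : a' ∈ Ao D d := by
  rcases l with rfl | rfl
  exacts [ha, h.ao hd (Commute.refl d) ha]
theorem FS.lns (l : Ln d a a') : Ln d a' a := l.imp Eq.symm fun e => by rw [e, cc h.tt hd]
theorem FS.ads (k : Ad d a a') : Ad d a' a := k.imp Commute.symm fun k => ((cmv h.tt hd).2 k).symm
theorem FS.adl (l : Ln d a' b) (k : Ad d a a') : Ad d a b := by
  rcases l with rfl | rfl
  exacts [k, k.symm.imp id fun k => by rwa [cc h.tt hd]]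
theorem FS.xor (ha : a ∈ Ao D d) (ha' : a' ∈ Ao D d) (k : Ad d a a') : Commute a (d ⊳ a') ↔ ¬ Commute a a' :=
  ⟨fun c c' => nc3' h.tt hd ha'.1 (ncs ha'.2) c' ha.2 c, k.resolve_left⟩
theorem FS.nf (ha : a ∈ Ao D d) (ha' : a' ∈ Ao D d) (k : Ad d a a') :
    ∃ t ∈ D, Commute t d ∧ ¬ Commute t a ∧ Ln d (t ⊳ a) a' := by
  wlog c : Commute a a' generalizing a'
  · obtain ⟨t, m, c1, c2, l⟩ := this (h.ao hd (Commute.refl d) ha') (h.adl hd (Or.inr rfl) k) (k.resolve_left c)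
    exact ⟨t, m, c1, c2, l.symm.imp (fun e => conj_inj e) ((eqv h.tt hd).1 ·)⟩
  by_cases e : a = a'
  · exact ⟨d, hd, Commute.refl d, ncs ha.2, Or.inr (by rw [cc h.tt hd, e])⟩
  obtain ⟨p, hp, n, q⟩ := adj h hd ha.1 ha'.1 ha.2 ha'.2 c e
  exact ⟨p, hp.1, hp.2.2.symm, n, Or.inr q.symm⟩
theorem FS.fn (ha : a ∈ Ao D d) (ht : t ∈ D) (c : Commute t d) (n : ¬ Commute t a) : Commute a (d ⊳ t ⊳ a) := by
  by_cases e : d = t
  · rw [← e, cc h.tt hd]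
  exact s4 h.tt ha.1 hd ht (ncs ha.2) n c.symm
theorem FS.tri (h1 : a1 ∈ Ao D d) (ht : t ∈ D) (ht' : t' ∈ D) (c : Commute t d) (c' : Commute t' d)
    (n : ¬ Commute t a1) (n' : ¬ Commute t' a1) (l : Ln d (t ⊳ a1) a2) (l' : Ln d (t' ⊳ a1) a3) (k : Ad d a2 a3) :
    Commute a2 a3 ↔ (Commute t t' ↔ (Commute a1 a2 ↔ Commute a1 a3)) := by
  have m := h.ao ht c h1
  have m' := h.ao ht' c' h1
  have k' := h.adl hd (h.lns hd l') (h.ads hd (h.adl hd (h.lns hd l) (h.ads hd k)))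
  have e := cbc h.tt h1.1 ht ht' n n'
  have x1 := h.xor hd m m' k'
  have p := ncr h.tt ht h1.1 n
  have p' := ncr h.tt ht' h1.1 n'
  have q := h.fn hd h1 ht c n
  have q' := h.fn hd h1 ht' c' n'
  rcases l with rfl | rfl <;> rcases l' with rfl | rfl
  · tauto
  · tauto
  · rw [cmv h.tt hd]; tauto
  · rw [cmi]; tauto
theorem Rr.ln (r : Rr D d σ a y) (l : Ln d a a') : Rr D d σ a' y := by
  rcases l with rfl | rfl
  · exact r
  · exact fun b hb => by rw [cmv h.tt hd, fx hb.2.2, r b hb]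
end

theorem Rr.symm (s : FIso (dd D d) (dd E e) σ) {τ : M → G} (i : ∀ p ∈ dd E e, σ (τ p) = p) (s' : FIso (dd E e) (dd D d) τ)
    (r : Rr D d σ a y) : Rr E e τ y a := fun p hp => by rw [r _ (s'.mem hp), i p hp]

section
variable (h : FS D) (k : FS E) (hd : d ∈ D) (he : e ∈ E) (s : FIso (dd D d) (dd E e) σ)
include h k s
theorem Rr.mv (r : Rr D d σ a y) (hb : b ∈ dd D d) : Rr D d σ (b ⊳ a) (σ b ⊳ y) := fun c hc => by
  rw [cmv h.tt hb.1, cmv k.tt (s.mem hb).1, r _ (s.clo b hb c hc), s.cj b hb c hc]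
include he
theorem Rr.ln' (r : Rr D d σ a y) (l : Ln e y y') : Rr D d σ a y' := by
  rcases l with rfl | rfl
  · exact r
  · exact fun b hb => by rw [cmv k.tt he, fx (s.mem hb).2.2, r b hb]
include hd
/-- transport of a normal form -/
theorem Rr.nf (r : Rr D d σ a y) (hy : y ∈ Ao E e) (ht : t ∈ D) (c : Commute t d) (n : ¬ Commute t a) :
    ∃ u ∈ E, Commute u e ∧ ¬ Commute u y ∧ Rr D d σ (t ⊳ a) (u ⊳ y) ∧ ((t = d ∧ u = e) ∨ (t ∈ dd D d ∧ u = σ t)) := by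
  by_cases q : t = d
  · exact ⟨e, he, Commute.refl e, ncs hy.2, (r.ln h hd (Or.inr (by rw [q]))).ln' h k he s (Or.inr rfl), Or.inl ⟨q, rfl⟩⟩
  have m : t ∈ dd D d := ⟨ht, q, c.symm⟩
  exact ⟨σ t, (s.mem m).1, (s.mem m).2.2.symm, ncs (mt (r t m).2 (ncs n)), r.mv h k s m, Or.inr ⟨m, rfl⟩⟩
theorem Rr.nxt (r : Rr D d σ a y) (ha : a ∈ Ao D d) (hy : y ∈ Ao E e) (ha' : a' ∈ Ao D d) (q : Ad d a a') :
    ∃ y' ∈ Ao E e, Rr D d σ a' y' ∧ Ad e y y' := by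
  obtain ⟨t, ht, c, n, l⟩ := h.nf hd ha ha' q
  obtain ⟨u, hu, c', n', r', -⟩ := r.nf h k hd he s hy ht c n
  exact ⟨_, k.ao hu c' hy, r'.ln h hd l, Or.inr (k.fn he hy hu c' n')⟩
theorem Rr.inj (i : Inj E e) (r : Rr D d σ a y) (r' : Rr D d σ a y') (hy : y ∈ Ao E e) (hy' : y' ∈ Ao E e) : Ln e y y' :=
  i y hy y' hy' fun p hp => by
    obtain ⟨b, hb, rfl⟩ := s.surj hp
    rw [← r b hb, r' b hb]
theorem Rr.ad (i : Inj E e) (r : Rr D d σ a y) (r' : Rr D d σ a' y') (ha : a ∈ Ao D d) (hy : y ∈ Ao E e)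
    (ha' : a' ∈ Ao D d) (hy' : y' ∈ Ao E e) (q : Ad d a a') : Ad e y y' :=
  let ⟨_, m, p, q⟩ := r.nxt h k hd he s ha hy ha' q
  k.adl he (p.inj h k hd he s i r' m hy') q
theorem Rr.tri (i : Inj E e) {y1 y2 y3 : M} (r1 : Rr D d σ a1 y1) (r2 : Rr D d σ a2 y2) (r3 : Rr D d σ a3 y3)
    (h1 : a1 ∈ Ao D d) (h2 : a2 ∈ Ao D d) (h3 : a3 ∈ Ao D d) (k1 : y1 ∈ Ao E e) (k2 : y2 ∈ Ao E e) (k3 : y3 ∈ Ao E e)
    (q2 : Ad d a1 a2) (q3 : Ad d a1 a3) (q : Ad d a2 a3) : (Commute a2 a3 ↔ Commute y2 y3) ↔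
      ((Commute a1 a2 ↔ Commute y1 y2) ↔ (Commute a1 a3 ↔ Commute y1 y3)) := by
  obtain ⟨t, ht, c, n, l⟩ := h.nf hd h1 h2 q2
  obtain ⟨t', ht', c', n', l'⟩ := h.nf hd h1 h3 q3
  obtain ⟨u, hu, f, m, p, o⟩ := r1.nf h k hd he s k1 ht c n
  obtain ⟨u', hu', f', m', p', o'⟩ := r1.nf h k hd he s k1 ht' c' n'
  have e1 := h.tri hd h1 ht ht' c c' n n' l l' q
  have e2 := k.tri he k1 hu hu' f f' m m' ((p.ln h hd l).inj h k hd he s i r2 (k.ao hu f k1) k2)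
    ((p'.ln h hd l').inj h k hd he s i r3 (k.ao hu' f' k1) k3) (r2.ad h k hd he s i r3 h2 k2 h3 k3 q)
  have : Commute t t' ↔ Commute u u' := by
    rcases o with ⟨rfl, rfl⟩ | ⟨o, rfl⟩
    · exact iff_of_true c'.symm f'.symm
    rcases o' with ⟨rfl, rfl⟩ | ⟨o', rfl⟩
    · exact iff_of_true c f
    exact (s.comm o o').symm
  rw [this] at e1
  exact pl7 e1 e2
end

theorem fs_cnt (h : FS D) (f : D.Finite) (hd : d ∈ D) (hb : b ∈ dd D d) (ha : a ∈ Ao D d) (n : ¬ Commute a b) :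
    {a | a ∈ Ao D d ∧ Commute a b}.ncard + (dd (dd D d) b).ncard + 1 = (dd D d).ncard := by
  have e1 : (dd D b).ncard = (dd D d).ncard := by
    have p := (fdd (h.fcj (h.clo _ ha.1 _ hb.1)) ha.1).ncard
    have q := (fdd (h.fcj (h.clo _ ha.1 _ hd)) ha.1).ncard
    rw [cb3 h.tt ha.1 hb.1 n] at p
    rw [cb3 h.tt ha.1 hd ha.2] at q
    rw [← p, q]
  have e2 : dd D b = insert d ({a | a ∈ Ao D d ∧ Commute a b} ∪ dd (dd D d) b) := Set.ext fun z => by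
    refine ⟨fun m => ?_, ?_⟩
    · by_cases q : z = d
      · exact Or.inl q
      by_cases c : Commute z d
      · exact Or.inr (Or.inr ⟨⟨m.1, q, c.symm⟩, m.2⟩)
      exact Or.inr (Or.inl ⟨⟨m.1, c⟩, m.2.2.symm⟩)
    rintro (rfl | m | m)
    exacts [dd_symm hd hb, ⟨m.1.1, ne_of hb.2.2 (ncs m.1.2) |>.symm, m.2.symm⟩, ⟨m.1.1, m.2⟩]
  rw [← e1, e2, Set.ncard_insert_of_notMem _ (f.subset fun _ m => m.elim (·.1.1) (·.1.1)),
    Set.ncard_union_eq _ (f.subset fun _ m => m.1.1) (f.subset fun _ m => m.1.1)]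
  · exact Set.disjoint_left.2 fun z m m' => m.1.2 m'.1.2.2.symm
  · rintro (m | m)
    exacts [m.1.2 (Commute.refl d), m.1.2.1 rfl]

theorem tp_inj [Finite G] (h : TP D) (hd : d ∈ D) (i : Inj D d) (hb : b ∈ D) : Inj D b := by
  obtain ⟨g, rfl⟩ := h.cls d hd b hb
  intro a ha a' ha' q
  obtain ⟨a, rfl⟩ : ∃ z, g ⊳ z = a := ⟨g⁻¹ ⊳ a, by group⟩
  obtain ⟨a', rfl⟩ : ∃ z, g ⊳ z = a' := ⟨g⁻¹ ⊳ a', by group⟩
  have m : ∀ z, g ⊳ z ∈ Ao D (g ⊳ d) → z ∈ Ao D d := fun z m => ⟨by simpa [mul_assoc] using h.cj g⁻¹ _ m.1, mt cmi.2 m.2⟩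
  exact (i a (m a ha) a' (m a' ha') fun p hp => by rw [← cmi (g := g), q _ (h.dd_conj g hp), cmi]).imp (by rw [·])
    (by rw [·, cjj])

/-- simple connectivity of the geometry of lines through `e` -/
structure SC (E : Set M) (e o : M) : Prop where
  a1 : ∀ v ∈ Ao E e, ∃ z ∈ Ao E e, Ad e o z ∧ Ad e z v
  a2 : ∀ v ∈ Ao E e, ¬ Ad e o v → ∀ z ∈ Ao E e, ∀ z' ∈ Ao E e, Ad e o z → Ad e z v → Ad e o z' → Ad e z' v →
      ∃ p ∈ Ao E e, ∃ q ∈ Ao E e, Ad e o p ∧ Ad e p v ∧ Ad e o q ∧ Ad e q v ∧ Ad e z p ∧ Ad e p q ∧ Ad e q z'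
  b : ∀ v ∈ Ao E e, ∀ v' ∈ Ao E e, ¬ Ad e o v → ¬ Ad e o v' → Ad e v v' → ∃ z ∈ Ao E e, Ad e o z ∧ Ad e z v ∧ Ad e z v'

theorem ncard_ln (h : FS D) (hd : d ∈ D) (ha : a ∈ Ao D d) : {a' | Ln d a a'}.ncard = 2 :=
  Set.ncard_pair (ner (ncs ha.2)).symm

/-- the uniqueness lemma -/
theorem ul [Finite G] (h : TP D) (k : FS E) (fE : E.Finite) (hd : d ∈ D) (he : e ∈ E) (s : FIso (dd D d) (dd E e) σ)
    (hx : x ∈ Ao D d) (hy : y ∈ Ao E e) (r : Rr D d σ x y) (i : Inj E e) (sc : SC E e y) : ∃ τ, FIso E D τ := by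
  classical
  have f := FS.of h.toTT
  obtain ⟨ρ, s', i1, i2⟩ := s.symm
  have p1 : ∀ a ∈ Ao D d, ∃ z ∈ Ao E e, Rr D d σ a z := fun a ha =>
    tp_ind h hd hx.1 hx.2 (p := fun a => ∃ z ∈ Ao E e, Rr D d σ a z) ⟨y, hy, r⟩
      (fun a _ _ ⟨z, m, q⟩ => ⟨z, m, q.ln f hd (Or.inr rfl)⟩)
      (fun a _ _ ⟨z, m, q⟩ b hb => ⟨_, k.ao (s.mem hb).1 (s.mem hb).2.2.symm m, q.mv f k s hb⟩) ha.1 ha.2
  have p2 : ∀ z ∈ Ao E e, ∃ a ∈ Ao D d, Rr D d σ a z := fun z hz => by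
    obtain ⟨w, hw, q1, q2⟩ := sc.a1 z hz
    obtain ⟨a, ha, r1, -⟩ := (r.symm s i2 s').nxt k f he hd s' hy hx hw q1
    obtain ⟨a', ha', r2, -⟩ := r1.nxt k f he hd s' hw ha hz q2
    exact ⟨a', ha', r2.symm s' i1 s⟩
  have fA : (Ao E e).Finite := fE.subset fun _ m => m.1
  have tr : ∀ a z, Rr D d σ a z → {b | b ∈ dd D d ∧ Commute a b}.ncard = {p | p ∈ dd E e ∧ Commute z p}.ncard :=
    fun a z q => Set.ncard_congr (fun b _ => σ b) (fun b m => ⟨s.mem m.1, (q b m.1).1 m.2⟩)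
      (fun b c m m' => s.inj m.1 m'.1) fun p m => let ⟨b, hb, e⟩ := s.surj m.1; ⟨b, And.intro hb ((q b hb).2 (e ▸ m.2)), e⟩
  have mu : ∀ a ∈ Ao D d, {b | b ∈ dd D d ∧ Commute a b}.ncard = {b | b ∈ dd D d ∧ Commute x b}.ncard := fun a ha => by
    obtain ⟨g, e1, rfl⟩ := h.pe_nc hd hx.1 ha.1 (ncs hx.2) (ncs ha.2)
    refine (Set.ncard_congr (fun b _ => g ⊳ b) (fun b m => And.intro (e1 ▸ h.dd_conj g m.1) (cmi.2 m.2))
      (fun b c _ _ => conj_inj) fun p m => ⟨g⁻¹ ⊳ p, And.intro ?_ ?_, by group⟩).symm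
    · rw [← h.mem_dd_conj g, e1]; simpa [mul_assoc] using m.1
    · rw [← cmi (g := g)]; simpa [mul_assoc] using m.2
  obtain ⟨b0, hb0, c0⟩ := tp_cn h hd hx.1 hx.2
  have la : ∀ b ∈ dd D d, (dd (dd D d) b).ncard = (dd (dd D d) b0).ncard := fun b hb => by
    obtain ⟨g, hg, rfl⟩ := h.dd_trans hd hb0 hb
    exact (fdd (FIso.of_conj (f.dd d).clo g fun z => ⟨fun m => by
      simpa [mul_assoc] using h.orb_dd_sub m ⟨g⁻¹, inv_mem hg, rfl⟩, fun m => h.orb_dd_sub m ⟨g, hg, rfl⟩⟩) hb0).ncard.symm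
  have n1 := dcnt (Set.toFinite (dd D d)) (Set.toFinite (Ao D d)) (fun b a => Commute a b)
    (m := (dd D d).ncard - 1 - (dd (dd D d) b0).ncard) (fun b hb => by
      obtain ⟨a, ha, q1, q2⟩ := tp_nn h hd hb
      have := fs_cnt f (Set.toFinite _) hd hb ⟨ha, q1⟩ q2
      rw [la b hb] at this; omega) mu
  have n2 := dcnt (fE.subset (fun _ m => m.1) : (dd E e).Finite) fA (fun b a => Commute a b)
    (m := (dd D d).ncard - 1 - (dd (dd D d) b0).ncard) (n := {b | b ∈ dd D d ∧ Commute x b}.ncard) (fun p hp => by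
      obtain ⟨b, hb, rfl⟩ := s.surj hp
      obtain ⟨a, ha, q1, q2⟩ := tp_nn h hd hb
      obtain ⟨z, hz, q⟩ := p1 a ⟨ha, q1⟩
      have := fs_cnt k fE he hp hz (mt (q b hb).2 q2)
      rw [← (fdd s hb).ncard, la b hb, ← s.ncard] at this; omega) fun z hz => by
    obtain ⟨a, ha, q⟩ := p2 z hz
    rw [← tr a z q, mu a ha]
  have n3 : (Ao D d).ncard = (Ao E e).ncard := by
    rw [← s.ncard, n1] at n2
    exact Nat.eq_of_mul_eq_mul_right ((Set.ncard_pos (Set.toFinite _)).2 ⟨b0, (And.intro hb0 c0.symm : b0 ∈ {b | b ∈ dd D d ∧ Commute x b})⟩) n2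
  have iD : Inj D d := fun a ha a' ha' q => by
    by_contra nl
    obtain ⟨z, hz, rz⟩ := p1 a ha
    have ge : ∀ z, ∀ a ∈ Ao D d, Rr D d σ a z → {a' | Ln d a a'} ⊆ {a | a ∈ Ao D d ∧ Rr D d σ a z} :=
      fun z a ha q _ l => ⟨f.ln hd ha l, q.ln f hd l⟩
    have := dsum (Set.toFinite (Ao D d)) fA (Rr D d σ)
    rw [Finset.sum_const_nat (m := 2) fun a ha => by
      have ha : a ∈ Ao D d := by simpa using ha
      obtain ⟨z, hz, rz⟩ := p1 a ha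
      rw [← ncard_ln k he hz]
      exact congrArg _ (Set.ext fun w => ⟨fun m => rz.inj f k hd he s i m.2 hz m.1,
        fun l => ⟨k.ln he hz l, rz.ln' f k he s l⟩⟩), ← Set.ncard_eq_toFinset_card, n3, Set.ncard_eq_toFinset_card _ fA,
      ← smul_eq_mul, ← Finset.sum_const] at this
    refine (Finset.sum_lt_sum (fun w hw => ?_) ⟨z, by simpa using hz, ?_⟩).ne this
    · obtain ⟨a, ha, q⟩ := p2 w (by simpa using hw)
      exact ncard_ln f hd ha ▸ Set.ncard_le_ncard (ge w a ha q)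
    · exact ncard_ln f hd ha ▸ Set.ncard_lt_ncard ⟨ge z a ha rz, fun m => nl (m ⟨ha', fun p hp => (q p hp).symm.trans (rz p hp)⟩)⟩
  choose! ψ m1 m2 using p2
  have ad : ∀ {a a' z z'}, a ∈ Ao D d → a' ∈ Ao D d → z ∈ Ao E e → z' ∈ Ao E e → Rr D d σ a z → Rr D d σ a' z' →
      (Ad d a a' ↔ Ad e z z') := fun ha ha' hz hz' q q' => ⟨q.ad f k hd he s i q' ha hz ha' hz',
        (q.symm s i2 s').ad k f he hd s' iD (q'.symm s i2 s') hz ha hz' ha'⟩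
  obtain ⟨ε, hε⟩ := cocycle (c := fun z w => Commute (ψ z) (ψ w) ↔ Commute z w) hy (fun z _ => Or.inl (Commute.refl z))
    (fun _ _ _ _ => k.ads he) (fun _ _ => iff_congr Commute.symm_iff Commute.symm_iff) (fun a ha b hb c hc q1 q2 q3 =>
      (m2 a ha).tri f k hd he s i (m2 b hb) (m2 c hc) (m1 a ha) (m1 b hb) (m1 c hc) ha hb hc
        ((ad (m1 a ha) (m1 b hb) ha hb (m2 a ha) (m2 b hb)).2 q1) ((ad (m1 a ha) (m1 c hc) ha hc (m2 a ha) (m2 c hc)).2 q2)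
        ((ad (m1 b hb) (m1 c hc) hb hc (m2 b hb) (m2 c hc)).2 q3)) sc.a1 sc.a2 sc.b
  let φ : M → G := fun z => if ε z then ψ z else d ⊳ ψ z
  have l0 : ∀ z, Ln d (ψ z) (φ z) := fun z => by by_cases q : ε z <;> simp [φ, q, Ln]
  have k1 : ∀ z ∈ Ao E e, φ z ∈ Ao D d := fun z hz => f.ln hd (m1 z hz) (l0 z)
  have k2 : ∀ z ∈ Ao E e, Rr D d σ (φ z) z := fun z hz => (m2 z hz).ln f hd (l0 z)
  have k3 : ∀ z ∈ Ao E e, ∀ w ∈ Ao E e, Commute (φ z) (φ w) ↔ Commute z w := fun z hz w hw => by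
    by_cases q : Ad e z w
    · have q' := (ad (m1 z hz) (m1 w hw) hz hw (m2 z hz) (m2 w hw)).2 q
      have x1 := f.xor hd (m1 z hz) (m1 w hw) q'
      have := hε z hz w hw q
      by_cases a : ε z <;> by_cases b : ε w <;> simp only [φ, a, b, if_true, if_false, cmv f.tt hd, x1, cc f.tt hd] <;>
        simp only [a, b, iff_true, iff_false, not_true_eq_false] at this
      · exact this
      · exact not_iff.1 this
      · exact not_iff.1 this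
      · exact this
    exact iff_of_false (fun c => q ((ad (k1 z hz) (k1 w hw) hz hw (k2 z hz) (k2 w hw)).1 (Or.inl c))) fun c => q (Or.inl c)
  have k4 : Set.InjOn φ (Ao E e) := fun z hz w hw q =>
    ((k2 z hz).inj f k hd he s i (q ▸ k2 w hw) hz hw).elim Eq.symm fun e' =>
      (ncr k.tt he hz.1 (ncs hz.2) (e' ▸ (k3 z hz w hw).1 (q ▸ Commute.refl _))).elim
  have k5 : Set.SurjOn φ (Ao E e) (Ao D d) := by
    intro a ha
    rw [Set.eq_of_subset_of_ncard_le (s := φ '' Ao E e) (t := Ao D d) (by rintro _ ⟨z, hz, rfl⟩; exact k1 z hz)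
      (by rw [k4.ncard_image, n3])]
    exact ha
  let τ : M → G := fun z => if z = e then d else if Commute z e then ρ z else φ z
  have t0 : τ e = d := by simp [τ]
  have t1 : ∀ z ∈ dd E e, τ z = ρ z := fun z hz => by simp [τ, hz.2.1, hz.2.2.symm]
  have t2 : ∀ z ∈ Ao E e, τ z = φ z := fun z hz => by simp [τ, nce hz.2, hz.2]
  have cs : ∀ z ∈ E, z = e ∨ z ∈ dd E e ∨ z ∈ Ao E e := fun z hz => by
    by_cases q : Commute z e
    exacts [or_iff_not_imp_left.2 fun n => Or.inl ⟨hz, n, q.symm⟩, Or.inr (Or.inr ⟨hz, q⟩)]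
  have u1 : ∀ z ∈ E, τ z ∈ D := fun z hz => by
    rcases cs z hz with rfl | m | m
    exacts [t0 ▸ hd, t1 z m ▸ (s'.mem m).1, t2 z m ▸ (k1 z m).1]
  have u0 : ∀ w ∈ E, Commute d (τ w) ↔ Commute e w := fun w hw => by
    rcases cs w hw with rfl | m | m
    exacts [iff_of_true (t0 ▸ Commute.refl d) (Commute.refl _), iff_of_true (t1 w m ▸ (s'.mem m).2.2) m.2.2,
      iff_of_false (t2 w m ▸ ncs (k1 w m).2) (ncs m.2)]
  have u2 : ∀ z ∈ E, ∀ w ∈ E, Commute (τ z) (τ w) ↔ Commute z w := fun z hz w hw => by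
    rcases cs z hz with rfl | m | m
    · rw [t0, u0 w hw]
    all_goals rcases cs w hw with rfl | m' | m'
    · rw [t0, Commute.symm_iff, u0 z hz, Commute.symm_iff]
    · rw [t1 z m, t1 w m', s'.comm m m']
    · rw [t1 z m, t2 w m', Commute.symm_iff, k2 w m' _ (s'.mem m), i2 z m, Commute.symm_iff]
    · rw [t0, Commute.symm_iff, u0 z hz, Commute.symm_iff]
    · rw [t2 z m, t1 w m', k2 z m _ (s'.mem m'), i2 w m']
    · rw [t2 z m, t2 w m', k3 z m w m']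
  have u3 : Set.SurjOn τ E D := fun a ha => by
    by_cases q : Commute a d
    · by_cases n : a = d
      · exact ⟨e, he, t0.trans n.symm⟩
      have m : a ∈ dd D d := ⟨ha, n, q.symm⟩
      exact ⟨σ a, (s.mem m).1, by rw [t1 _ (s.mem m), i1 a m]⟩
    obtain ⟨z, hz, rfl⟩ := k5 ⟨ha, q⟩
    exact ⟨z, hz.1, t2 z hz⟩
  have u4 : Set.InjOn τ E := fun z hz w hw q => by
    have c : Commute e z ↔ Commute e w := by rw [← u0 z hz, q, u0 w hw]
    rcases cs z hz with rfl | m | m <;> rcases cs w hw with rfl | m' | m'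
    · rfl
    · exact ((s'.mem m').2.1 (by rw [← t1 w m', ← q, t0])).elim
    · exact (m'.2 (c.1 (Commute.refl _)).symm).elim
    · exact ((s'.mem m).2.1 (by rw [← t1 z m, q, t0])).elim
    · exact s'.inj m m' (by rw [← t1 z m, q, t1 w m'])
    · exact (m'.2 (c.1 m.2.2).symm).elim
    · exact (m.2 (c.2 (Commute.refl _)).symm).elim
    · exact (m.2 (c.2 m'.2.2).symm).elim
    · exact k4 m m' (by rw [← t2 z m, q, t2 w m'])
  refine ⟨τ, k.clo, ⟨u1, u4, u3⟩, fun p hp q hq => ?_⟩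
  by_cases c : Commute p q
  · rw [fx c, fx ((u2 p hp q hq).2 c)]
  have m := k.clo p hp q hq
  refine (tp_inj h hd iD (u1 p hp) _ ⟨u1 q hq, mt (u2 q hq p hp).1 (ncs c)⟩ _
    ⟨u1 _ m, mt (u2 _ m p hp).1 (ncs (ncl c))⟩ fun b hb => ?_).resolve_left fun e' => ner c (u4 m hq e')
  obtain ⟨w, hw, rfl⟩ := u3 hb.1
  rw [u2 q hq w hw, u2 _ m w hw, cmv k.tt hp, fx ((u2 p hp w hw).1 hb.2.2)]

end H1.Fi
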