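import Cfsg.Agent.H1.Fl
import Cfsg.Agent.H1.Fu

/-! Fischer's theorem: orthogonal spaces over the field with three elements. -/

set_option autoImplicit false
set_option linter.unusedSectionVars false
set_option linter.unusedSimpArgs false

namespace H1.Fi
open Cfsg H18 H28 H23 Module

theorem bx {F V : Type*} [Field F] {σ : F →+* F} [AddCommGroup V] [Module F V] (Φ : Form σ V) :
    (∀ x y z, Φ.B (x + y) z = Φ.B x z + Φ.B y z) ∧ (∀ x y z, Φ.B x (y + z) = Φ.B x y + Φ.B x z) ∧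
    (∀ x y z, Φ.B (x - y) z = Φ.B x z - Φ.B y z) ∧ (∀ x y z, Φ.B x (y - z) = Φ.B x y - Φ.B x z) ∧
    (∀ x y, Φ.B (-x) y = -Φ.B x y) ∧ (∀ x y, Φ.B x (-y) = -Φ.B x y) ∧
    (∀ (c : F) x y, Φ.B (c • x) y = σ c * Φ.B x y) ∧ (∀ (c : F) x y, Φ.B x (c • y) = c * Φ.B x y) ∧
    (∀ x, Φ.B 0 x = 0) ∧ ∀ x, Φ.B x 0 = 0 := by
  simp

section
variable {F : Type} {V : Type*} [Field F] {σ : F →+* F} [AddCommGroup V] [Module F V] {Φ : Form σ V} [FiniteDimensional F V]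
  {k : ℕ} {f : Fin k → V}

/-- a family with non-degenerate Gram matrix -/
def Gr (Φ : Form σ V) (f : Fin k → V) : Prop := ∀ c : Fin k → F, (∀ i, ∑ j, c j * Φ.B (f i) (f j) = 0) → ∀ j, c j = 0
theorem Gr.dis (h : Gr Φ f) : Disjoint (Submodule.span F (Set.range f)) (Φ.perp (Submodule.span F (Set.range f))) :=
  Submodule.disjoint_def.2 fun v hv hv' => by
    obtain ⟨c, rfl⟩ := (Submodule.mem_span_range_iff_exists_fun F).1 hv
    simp [h c fun i => by simpa using Φ.mem_perp_span.1 hv' _ ⟨i, rfl⟩]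
theorem Gr.dis' (nd : Φ.Nondeg) (h : Gr Φ f) : Disjoint (Φ.perp (Submodule.span F (Set.range f)))
    (Φ.perp (Φ.perp (Submodule.span F (Set.range f)))) := by rw [nd.perp_perp]; exact h.dis.symm
theorem rk_perp (nd : Φ.Nondeg) (f : Fin k → V) : finrank F V ≤ finrank F (Φ.perp (Submodule.span F (Set.range f))) + k := by
  have := nd.finrank_perp_add (Submodule.span F (Set.range f))
  have := finrank_range_le_card (R := F) f
  rw [Fintype.card_fin, Set.finrank] at this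
  omega
theorem ex_ne (nd : Φ.Nondeg) (f : Fin k → V) (hk : k < finrank F V) : ∃ v ≠ 0, ∀ i, Φ.B (f i) v = 0 := by
  have := rk_perp nd f
  obtain ⟨v, hv, n⟩ := (Φ.perp (Submodule.span F (Set.range f))).exists_mem_ne_zero_of_ne_bot fun e => by
    rw [e, finrank_bot] at this; omega
  exact ⟨v, n, fun i => Φ.mem_perp_span.1 hv _ ⟨i, rfl⟩⟩
theorem two_r (nd : Φ.Nondeg) {s : Set V} {o v : V} (h1 : v ∉ Submodule.span F (insert o s))
    (h2 : o ∉ Submodule.span F (insert v s)) (a b : F) : ∃ r, (∀ z ∈ s, Φ.B z r = 0) ∧ Φ.B o r = a ∧ Φ.B v r = b := by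
  obtain ⟨r, a1, a2⟩ := ex_perp nd _ h1
  obtain ⟨r', b1, b2⟩ := ex_perp nd _ h2
  exact ⟨b • r + a • r', fun z hz => by simp [a1 z (Or.inr hz), b1 z (Or.inr hz)], by simp [a1 o (Or.inl rfl), b2],
    by simp [b1 v (Or.inl rfl), a2]⟩
end

abbrev F3 := ZMod 3
theorem z3 (t : F3) : t = 0 ∨ t = 1 ∨ t = -1 := by revert t; decide
theorem z3' {t : F3} (h : t ≠ 0) : t * t = 1 := by revert t; decide

variable {G : Type*} [Group G] {V : Type} [AddCommGroup V] [Module F3 V] [Finite V] {Φ : Form (RingHom.id F3) V}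
  {A : Set G} {π : V → G} {e o p r u v v' w w' z z' : V}

/-- vectors of norm one -/
abbrev P3 (Φ : Form (RingHom.id F3) V) : Set V := {v | Φ.B v v = 1}
/-- singular vectors orthogonal to `e` -/
structure Sg (Φ : Form (RingHom.id F3) V) (e w : V) : Prop where
  ne : w ≠ 0
  s : Φ.B w w = 0
  o : Φ.B e w = 0

theorem pm3 (nd : Φ.Nondeg) (he : Φ.ε = 1) : PM Φ (P3 Φ) where
  nd := nd
  eps := he
  un := by decide
  ne v hv e := by simp [e] at hv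
  nm v hv := hv.trans (by decide)
  cl v hv w hw := by
    have := Φ.symm w v
    simp only [Set.mem_ofPred_eq, bx, RingHom.id_apply, he] at *
    grind
  sc v hv t ht := by
    have := z3' ht
    simp only [Set.mem_ofPred_eq, bx, RingHom.id_apply] at *
    grind

namespace PM
variable (h : PM Φ (P3 Φ))
include h
theorem sy (x y : V) : Φ.B x y = Φ.B y x := h.sym y x
theorem ex_norm {k : ℕ} {f : Fin k → V} (g : Gr Φ f) (hk : k + 2 ≤ finrank F3 V) (c : F3) :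
    ∃ v, (∀ i, Φ.B (f i) v = 0) ∧ Φ.B v v = c := by
  have := rk_perp h.nd f
  obtain ⟨v, hv, e⟩ := exists_symm_self_eq (by decide) Φ h.eps (g.dis' h.nd) (by omega) c
  exact ⟨v, fun i => Φ.mem_perp_span.1 hv _ ⟨i, rfl⟩, e⟩
theorem ex_ns {k : ℕ} {f : Fin k → V} (g : Gr Φ f) (n : v ≠ 0) (hv : ∀ i, Φ.B (f i) v = 0) :
    ∃ v, (∀ i, Φ.B (f i) v = 0) ∧ Φ.B v v ≠ 0 := by
  have m : v ∈ Φ.perp (Submodule.span F3 (Set.range f)) := Φ.mem_perp_span.2 (by rintro _ ⟨i, rfl⟩; exact hv i)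
  obtain ⟨y, hy⟩ := (Φ.nondeg_restrict_iff.2 (g.dis' h.nd)).exists_ne (x := ⟨v, m⟩) fun e => n (congrArg Subtype.val e)
  have m' : ∀ i, Φ.B (f i) y = 0 := fun i => Φ.mem_perp_span.1 y.2 _ ⟨i, rfl⟩
  by_contra! q
  have h1 := q (v + y) fun i => by rw [map_add, hv, m', add_zero]
  change Φ.B v y = 1 at hy
  simp only [bx, RingHom.id_apply, q v hv, q y m', h.sy y v, hy] at h1
  exact absurd h1 (by decide)
theorem det {Z : Set V} (h1 : Φ.B w w' = 0) (h2 : Φ.B w' w' = 0) (h3 : ∀ z ∈ Z, Φ.B z w' = 0)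
    (n : w' ∉ Submodule.span F3 (insert w Z)) : ∃ v ∈ P3 Φ, Φ.B w v = 0 ∧ (∀ z ∈ Z, Φ.B z v = 0) ∧ Φ.B w' v ≠ 0 := by
  obtain ⟨r, a, b⟩ := ex_perp h.nd _ n
  refine ⟨r + (Φ.B r r - 1) • w', ?_, by simp [a w (Or.inl rfl), h1], fun z hz => by simp [a z (Or.inr hz), h3 z hz],
    by simp [b, h2]⟩
  simp only [Set.mem_ofPred_eq, bx, RingHom.id_apply, h.sy r w', b, h2]
  grind
theorem det' {Z : Set V} (hp : p ∈ P3 Φ) (p1 : Φ.B w p = 0) (p2 : ∀ z ∈ Z, Φ.B z p = 0) (h0 : Φ.B w w = 0)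
    (h1 : ∀ z ∈ Z, Φ.B z w = 0) (h2 : Φ.B w' w' = 0) (h3 : ∀ z ∈ Z, Φ.B z w' = 0)
    (k : ∀ v ∈ P3 Φ, (∀ z ∈ Z, Φ.B z v = 0) → Φ.B w v = 0 → Φ.B w' v = 0) : w' ∈ Submodule.span F3 (insert w Z) := by
  by_contra n
  have a := k (p + w) (by simp only [Set.mem_ofPred_eq, bx, RingHom.id_apply, h.sy p w, p1, h0]; simpa using hp)
    (fun z hz => by simp [p2 z hz, h1 z hz]) (by simp [p1, h0])
  rw [map_add, k p hp p2 p1, zero_add, h.sy] at a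
  obtain ⟨v, a, b, c, d⟩ := h.det a h2 h3 n
  exact d (k v a c b)
theorem nsp (he : e ∈ P3 Φ) (s : Sg Φ e w) (s' : Sg Φ e w') (m : w' ∈ Submodule.span F3 {w, e}) : w' = w ∨ w' = -w := by
  obtain ⟨a, b, rfl⟩ := Submodule.mem_span_pair.1 m
  have := s'.o
  simp only [bx, RingHom.id_apply, s.o, show Φ.B e e = 1 from he, mul_zero, zero_add, mul_one] at this
  rcases z3 a with rfl | rfl | rfl <;> simp [this]
  exact (s'.ne (by simp [this])).elim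
theorem exP (hn : 5 ≤ finrank F3 V) (he : e ∈ P3 Φ) (s : Sg Φ e w) : ∃ p ∈ P3 Φ, Φ.B e p = 0 ∧ Φ.B w p = 0 := by
  obtain ⟨r, a, b⟩ := ex_perp h.nd {e} (x := w) fun m => by
    obtain ⟨c, rfl⟩ := Submodule.mem_span_singleton.1 m
    have := s.o
    rw [Φ.B_smul_right, show Φ.B e e = 1 from he, mul_one] at this
    exact s.ne (by simp [this])
  obtain ⟨p, c, d⟩ := h.ex_norm (f := ![e, w, r]) (fun c q => by
    simp only [Fin.forall_fin_succ, Fin.sum_univ_three] at q ⊢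
    simp [show Φ.B e e = 1 from he, s.o, s.s, a, b, h.sy w e, h.sy r e, h.sy r w] at q ⊢
    grind) hn 1
  exact ⟨p, d, c 0, c 1⟩
theorem inj (hn : 5 ≤ finrank F3 V) (he : e ∈ P3 Φ) (s : Sg Φ e w) (s' : Sg Φ e w')
    (k : ∀ v ∈ P3 Φ, Φ.B e v = 0 → Φ.B w v = 0 → Φ.B w' v = 0) : w' = w ∨ w' = -w :=
  let ⟨_, a, b, c⟩ := h.exP hn he s
  h.nsp he s s' (h.det' a c (by simpa using b) s.s (by simpa using s.o) s'.s (by simpa using s'.o) fun v hv q =>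
    k v hv (q e rfl))
theorem sg_mem (he : e ∈ P3 Φ) (s : Sg Φ e w) : e + w ∈ P3 Φ := by
  simp only [Set.mem_ofPred_eq, bx, RingHom.id_apply, h.sy w e, s.o, s.s]; simpa using he
/-- adjacency of singular vectors -/
theorem sc1 (he : e ∈ P3 Φ) (so : Sg Φ e o) (sv : Sg Φ e v) (n1 : v ≠ o) (n2 : v ≠ -o) (a b : F3) :
    ∃ r, Φ.B e r = 0 ∧ Φ.B o r = a ∧ Φ.B v r = b := by
  obtain ⟨r, c, d⟩ := two_r h.nd (s := {e}) (fun m => (h.nsp he so sv m).elim n1 n2)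
    (fun m => (h.nsp he sv so m).elim n1.symm fun k => n2 (by rw [k, neg_neg])) a b
  exact ⟨r, c e rfl, d⟩
theorem sc2 (he : e ∈ P3 Φ) (so : Sg Φ e o) (sv : Sg Φ e v) (q : Φ.B o v = 0) (n1 : v ≠ o) (n2 : v ≠ -o) :
    ∃ z, Sg Φ e z ∧ Φ.B o z ≠ 0 ∧ Φ.B z v ≠ 0 := by
  obtain ⟨r, a, b, c⟩ := h.sc1 he so sv n1 n2 1 1
  have k : Φ.B o (r + Φ.B r r • o) = 1 := by simp [b, so.s]
  refine ⟨r + Φ.B r r • o, ⟨fun e => by simp [e] at k, ?_, by simp [a, so.o]⟩, by simp [k], by simp [h.sy r v, c, q]⟩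
  simp only [bx, RingHom.id_apply, h.sy r o, b, so.s]; grind
theorem sc3 (he : e ∈ P3 Φ) (so : Sg Φ e o) (sv : Sg Φ e v) (sw : Sg Φ e w) (q : Φ.B o v = 0) (q' : Φ.B o w = 0)
    (n : Φ.B v w ≠ 0) : ∃ z, Sg Φ e z ∧ Φ.B o z ≠ 0 ∧ Φ.B z v ≠ 0 ∧ Φ.B z w ≠ 0 := by
  obtain ⟨r, a, b⟩ := ex_perp h.nd {e, v, w} (x := o) fun m => by
    obtain ⟨a, b, c, k⟩ := Submodule.mem_span_triple.1 m
    have k1 := congrArg (Φ.B e) k
    have k2 := congrArg (Φ.B v) k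
    have k3 := congrArg (Φ.B w) k
    simp [show Φ.B e e = 1 from he, so.o, sv.o, sw.o, sv.s, sw.s, h.sy v e, h.sy w e, h.sy w v, h.sy v o, h.sy w o, q, q',
      n] at k1 k2 k3
    exact so.ne (by simp [← k, k1, k2, k3])
  have a1 := a e (by simp)
  have a2 := a v (by simp)
  have a3 := a w (by simp)
  have k : Φ.B o (v + w + r + (Φ.B r r - Φ.B v w) • o) = 1 := by simp [b, so.s, q, q']
  refine ⟨v + w + r + (Φ.B r r - Φ.B v w) • o, ⟨fun e => by rw [e] at k; simp at k, ?_, by simp [a1, so.o, sv.o, sw.o]⟩, by simp only [k]; decide, ?_, ?_⟩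
  · simp only [bx, RingHom.id_apply, h.sy r o, h.sy r v, h.sy r w, h.sy w v, h.sy v o, h.sy w o, b, so.s, sv.s, sw.s, q, q', a2, a3]; grind
  · simpa [h.sy r v, h.sy w v, a2, q, sv.s] using n
  · simpa [h.sy r w, a3, q', sw.s] using n
theorem sc4 (hn : 6 ≤ finrank F3 V) (he : e ∈ P3 Φ) (so : Sg Φ e o) (sv : Sg Φ e v) (sz : Sg Φ e z) (sz' : Sg Φ e z')
    (q : Φ.B o v = 0) (n1 : v ≠ o) (n2 : v ≠ -o) (q' : Φ.B z z' = 0) (a1 : Φ.B o z ≠ 0) (a2 : Φ.B z v ≠ 0)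
    (a3 : Φ.B o z' ≠ 0) (a4 : Φ.B z' v ≠ 0) : ∃ p, Sg Φ e p ∧ Φ.B o p ≠ 0 ∧ Φ.B p v ≠ 0 ∧ Φ.B z p ≠ 0 ∧ Φ.B p z' ≠ 0 := by
  have b1 := z3' a1
  have b2 := z3' a2
  have b3 := z3' a3
  have b4 := z3' a4
  by_cases c : Φ.B o z' = Φ.B o z * Φ.B z v * Φ.B z' v
  · obtain ⟨r, c1, c2, c3⟩ := h.sc1 he so sv n1 n2 1 (-(Φ.B o z * Φ.B z v))
    obtain ⟨t, t1, t2⟩ := (by decide : ∀ a b c d : F3, c ≠ 0 → d ≠ 0 → ∃ t, a + t * c ≠ 0 ∧ b + t * d ≠ 0)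
      (Φ.B z r) (Φ.B z' r) _ _ a1 a3
    let p := r + t • o + (-Φ.B (r + t • o) (r + t • o)) • (o - (Φ.B o z * Φ.B z v) • v)
    have k : Φ.B o p = 1 := by simp [p, c2, so.s, q]
    refine ⟨p, ⟨fun e => by simp [e] at k, ?_, by simp [p, c1, so.o, sv.o]⟩, by simp [k], ?_, ?_, ?_⟩ <;>
      simp only [p, bx, RingHom.id_apply, h.sy r o, h.sy r v, h.sy v o, h.sy r z', h.sy z o, h.sy v z', c2, c3, so.s, sv.s, q] <;> grind
  · obtain ⟨y, y1, y2⟩ := ex_ne h.nd ![e, o, v, z, z'] hn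
    obtain ⟨r, c1, c2⟩ := h.ex_ns (f := ![e, o, v, z, z']) (fun g q0 => by
      simp only [Fin.forall_fin_succ, Fin.sum_univ_five] at q0 ⊢
      simp [show Φ.B e e = 1 from he, so.o, sv.o, sz.o, sz'.o, so.s, sv.s, sz.s, sz'.s, h.sy o e, h.sy v e, h.sy z e,
        h.sy z' e, q, q', h.sy v o, h.sy z' z, h.sy z o, h.sy z' o, h.sy v z, h.sy v z'] at q0 ⊢
      revert q0 c a1 a2 a3 a4
      generalize Φ.B o z = a, Φ.B z v = b, Φ.B o z' = a', Φ.B z' v = b', g 1 = c1, g 2 = c2, g 3 = c3, g 4 = c4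
      intro a1 a2 a3 a4 c ⟨q0, q1, q2, q3, q4⟩
      have k1 := (by decide : ∀ a b a' b' c d : F3, a ≠ 0 → b ≠ 0 → a' ≠ 0 → b' ≠ 0 → a' ≠ a * b * b' →
        c * a + d * b = 0 → c * a' + d * b' = 0 → c = 0 ∧ d = 0) _ _ _ _ _ _ a1 a2 a3 a4 c q3 q4
      have k2 := (by decide : ∀ a b a' b' c d : F3, a ≠ 0 → b ≠ 0 → a' ≠ 0 → b' ≠ 0 → a' ≠ a * b * b' →
        c * a + d * a' = 0 → c * b + d * b' = 0 → c = 0 ∧ d = 0) _ _ _ _ _ _ a1 a2 a3 a4 c q1 q2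
      exact ⟨q0, k1.1, k1.2, k2⟩) y1 y2
    have d0 := c1 0
    have d1 := c1 1
    have d2 := c1 2
    have d3 := c1 3
    have d4 := c1 4
    have := z3' c2
    simp only [Matrix.cons_val] at d0 d1 d2 d3 d4
    have k : Φ.B o (z + (Φ.B r r * Φ.B o z) • o + r) = Φ.B o z := by simp [d1, so.s]
    refine ⟨z + (Φ.B r r * Φ.B o z) • o + r, ⟨fun e => a1 (by simpa [e] using k.symm), ?_, by simp [d0, so.o, sz.o]⟩, k.trans_ne a1, ?_, ?_, ?_⟩ <;>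
      simp only [bx, RingHom.id_apply, h.sy r o, h.sy r v, h.sy r z, h.sy r z', h.sy z o, d1, d2, d3, d4, so.s, sz.s, q, q'] <;> grind
end PM

theorem Sg.neg (s : Sg Φ e w) : Sg Φ e (-w) := ⟨neg_ne_zero.2 s.ne, by simp [s.s], by simp [s.o]⟩

namespace LM
variable (h : LM Φ (P3 Φ) A π)
include h
theorem eq3 (hv : v ∈ P3 Φ) (hw : w ∈ P3 Φ) (q : π v = π w) : w = v ∨ w = -v := by
  obtain ⟨t, rfl⟩ := (h.eq v hv w hw).1 q
  rcases z3 t with rfl | rfl | rfl <;> simp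
  exact (h.ne _ hw (by simp)).elim
theorem ne3 (hv : v ∈ P3 Φ) (hw : w ∈ P3 Φ) (q : Φ.B v w = 0) : π v ≠ π w := fun k => by
  rcases h.eq3 hv hw k with rfl | rfl <;> simp [show Φ.B _ _ = 1 from hv] at q
theorem ao (he : e ∈ P3 Φ) {y : G} (hy : y ∈ Ao A (π e)) : ∃ w, Sg Φ e w ∧ y = π (e + w) := by
  obtain ⟨v, hv, rfl⟩ := h.sur hy.1
  have n := h.nc0 he hv (ncs hy.2)
  have := z3' n
  refine ⟨Φ.B e v • v - e, ⟨fun q => nce hy.2 ?_, ?_, ?_⟩, by rw [add_sub_cancel, h.smul hv n]⟩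
  · rw [← sub_eq_zero.1 q, h.smul hv n]
  all_goals simp only [bx, RingHom.id_apply, h.sy v e, show Φ.B e e = 1 from he, show Φ.B v v = 1 from hv]; grind
theorem sg_inj (he : e ∈ P3 Φ) (s : Sg Φ e w) (s' : Sg Φ e w') (q : π (e + w) = π (e + w')) : w' = w := by
  rcases h.eq3 (h.sg_mem he s) (h.sg_mem he s') q with k | k
  · exact add_left_cancel k
  have := congrArg (Φ.B e) k
  simp only [bx, s.o, s'.o, show Φ.B e e = 1 from he] at this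
  exact absurd this (by decide)
theorem ao' (he : e ∈ P3 Φ) (s : Sg Φ e w) : π (e + w) ∈ Ao A (π e) := ⟨h.mem (h.sg_mem he s), fun c => by
  rcases (h.com (h.sg_mem he s) he).1 c with k | k
  · rcases h.eq3 he (h.sg_mem he s) k.symm with k | k
    · exact s.ne (by simpa using k)
    have := congrArg (Φ.B e) k
    simp only [bx, s.o, show Φ.B e e = 1 from he] at this
    exact absurd this (by decide)
  simp [h.sy w e, s.o, show Φ.B e e = 1 from he] at k⟩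
theorem cje (he : e ∈ P3 Φ) (s : Sg Φ e w) : π e ⊳ π (e + w) = π (e + -w) := by
  rw [h.cj _ (h.sg_mem he s) _ he, ← h.neg (h.sg_mem he s.neg)]
  congr 1
  simp only [bx, s.o, show Φ.B e e = 1 from he]
  rw [← sub_eq_zero, show e + w + ((1 : F3) + 0) • e - -(e + -w) = (3 : F3) • e by module, show (3 : F3) = 0 from rfl,
    zero_smul]
theorem cm_sg (he : e ∈ P3 Φ) (s : Sg Φ e w) (s' : Sg Φ e w') :
    Commute (π (e + w)) (π (e + w')) ↔ w' = w ∨ Φ.B w w' = -1 := by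
  rw [h.com (h.sg_mem he s) (h.sg_mem he s')]
  refine or_congr ⟨h.sg_inj he s s', fun q => by rw [q]⟩ ?_
  simp only [bx, s'.o, h.sy w e, s.o, show Φ.B e e = 1 from he]
  grind
theorem ad3 (he : e ∈ P3 Φ) (s : Sg Φ e w) (s' : Sg Φ e w') :
    Ad (π e) (π (e + w)) (π (e + w')) ↔ w' = w ∨ w' = -w ∨ Φ.B w w' ≠ 0 := by
  rw [Ad, h.cje he s', h.cm_sg he s s', h.cm_sg he s s'.neg, neg_eq_iff_eq_neg, map_neg]
  have := z3 (Φ.B w w')
  grind
theorem cm_p (he : e ∈ P3 Φ) (s : Sg Φ e w) (hv : v ∈ P3 Φ) (q : Φ.B e v = 0) : Commute (π (e + w)) (π v) ↔ Φ.B w v = 0 := by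
  rw [h.com (h.sg_mem he s) hv, map_add, LinearMap.add_apply, q, zero_add]
  exact or_iff_right fun k => (h.ao' he s).2 (k ▸ (h.cm0 he hv q).symm)
theorem inj3 (hn : 5 ≤ finrank F3 V) (he : e ∈ P3 Φ) : Inj A (π e) := fun y hy y' hy' k => by
  obtain ⟨w, s, rfl⟩ := h.ao he hy
  obtain ⟨w', s', rfl⟩ := h.ao he hy'
  refine (h.inj hn he s s' fun v hv a b => ?_).imp (by rw [·]) (by rw [·, h.cje he s])
  exact (h.cm_p he s' hv a).1 ((k _ ⟨h.mem hv, (h.ne3 he hv a).symm, h.cm0 he hv a⟩).1 ((h.cm_p he s hv a).2 b))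
theorem sc3 (hn : 6 ≤ finrank F3 V) (he : e ∈ P3 Φ) (so : Sg Φ e o) : SC A (π e) (π (e + o)) := by
  have a : ∀ {w w'}, Sg Φ e w → Sg Φ e w' → Φ.B w w' ≠ 0 → Ad (π e) (π (e + w)) (π (e + w')) :=
    fun s s' n => (h.ad3 he s s').2 (Or.inr (Or.inr n))
  have a1 : ∀ {v}, Sg Φ e v → ¬ Ad (π e) (π (e + o)) (π (e + v)) → v ≠ o ∧ v ≠ -o ∧ Φ.B o v = 0 := fun s n => by
    simpa only [h.ad3 he so s, not_or, not_not] using n
  refine ⟨fun y hy => ?_, fun y hy n z hz z' hz' k1 k2 k3 k4 => ?_, fun y hy y' hy' n n' k => ?_⟩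
  · by_cases n : Ad (π e) (π (e + o)) y
    · exact ⟨y, hy, n, Or.inl (Commute.refl y)⟩
    obtain ⟨v, s, rfl⟩ := h.ao he hy
    obtain ⟨n1, n2, q⟩ := a1 s n
    obtain ⟨z, sz, b, c⟩ := h.sc2 he so s q n1 n2
    exact ⟨_, h.ao' he sz, a so sz b, a sz s c⟩
  · by_cases m : Ad (π e) z z'
    · exact ⟨z, hz, z', hz', k1, k2, k3, k4, Or.inl (Commute.refl z), m, Or.inl (Commute.refl z')⟩
    obtain ⟨v, s, rfl⟩ := h.ao he hy
    obtain ⟨z, sz, rfl⟩ := h.ao he hz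
    obtain ⟨z', sz', rfl⟩ := h.ao he hz'
    obtain ⟨n1, n2, q⟩ := a1 s n
    have b : ∀ {z}, Sg Φ e z → Ad (π e) (π (e + o)) (π (e + z)) → Ad (π e) (π (e + z)) (π (e + v)) →
        Φ.B o z ≠ 0 ∧ Φ.B z v ≠ 0 := fun {z} sz k1 k2 => by
      rw [h.ad3 he so sz] at k1
      rw [h.ad3 he sz s] at k2
      rcases k1 with rfl | rfl | k1
      · simp [n1, n2, q] at k2
      · simp [n1, n2, q] at k2
      rcases k2 with rfl | rfl | k2
      · exact (k1 q).elim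
      · exact (k1 (by simpa using q)).elim
      exact ⟨k1, k2⟩
    simp only [h.ad3 he sz sz', not_or, not_not] at m
    obtain ⟨p, sp, c1, c2, c3, c4⟩ := h.sc4 hn he so s sz sz' q n1 n2 m.2.2 (b sz k1 k2).1 (b sz k1 k2).2
      (b sz' k3 k4).1 (b sz' k3 k4).2
    exact ⟨_, h.ao' he sp, _, h.ao' he sp, a so sp c1, a sp s c2, a so sp c1, a sp s c2, a sz sp c3,
      Or.inl (Commute.refl _), a sp sz' c4⟩
  · obtain ⟨v, s, rfl⟩ := h.ao he hy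
    obtain ⟨w, s', rfl⟩ := h.ao he hy'
    obtain ⟨n1, n2, q⟩ := a1 s n
    rcases (h.ad3 he s s').1 k with rfl | rfl | k
    · obtain ⟨z, sz, b, c⟩ := h.sc2 he so s q n1 n2
      exact ⟨_, h.ao' he sz, a so sz b, a sz s c, a sz s c⟩
    · obtain ⟨z, sz, b, c⟩ := h.sc2 he so s q n1 n2
      exact ⟨_, h.ao' he sz, a so sz b, a sz s c, a sz s' (by simpa using c)⟩
    obtain ⟨z, sz, b, c, d⟩ := h.toPM.sc3 he so s s' q (a1 s' n').2.2 k
    exact ⟨_, h.ao' he sz, a so sz b, a sz s c, a sz s' d⟩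
end LM

/-- on a line, or commuting with none or all of its points -/
def Lq (a b q : G) : Prop := q = a ∨ q = b ∨ q = a ⊳ b ∨ (Commute a q ∧ Commute b q) ∨
  (¬ Commute a q ∧ ¬ Commute b q ∧ ¬ Commute (a ⊳ b) q)
theorem LM.lq (h : LM Φ (P3 Φ) A π) (hp : p ∈ P3 Φ) (s : Sg Φ p w) (hv : v ∈ P3 Φ) :
    Lq (π p) (π (p + w)) (π v) ↔ Φ.B w v = 0 := by
  have m1 := h.sg_mem hp s
  have m2 := h.sg_mem hp s.neg
  have k : ∀ u ∈ P3 Φ, Φ.B w u = 0 → π v = π u → Φ.B w v = 0 := fun u hu a b => by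
    rcases h.eq3 hu hv b.symm with rfl | rfl <;> simp [a]
  have k0 := k p hp (h.sy p w ▸ s.o)
  have k1 := k _ m1 (by simp [h.sy w p, s.o, s.s])
  have k2 := k _ m2 (by simp [h.sy w p, s.o, s.s])
  rw [Lq, h.cje hp s, h.com hp hv, h.com m1 hv, h.com m2 hv]
  simp only [bx, eq_comm (b := π v)]
  have := z3 (Φ.B p v)
  have := z3 (Φ.B w v)
  grind

end H1.Fi
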