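import Cfsg.Agent.H1.Fo1

/-! Fischer's theorem: locally orthogonal spaces over the field with three elements. -/

set_option autoImplicit false
set_option linter.unusedSectionVars false
set_option linter.unusedSimpArgs false
set_option synthInstance.maxSize 1024

namespace H1.Fi
open Cfsg H18 H28 H23 Module

variable {G : Type*} [Group G] {D : Set G} {d x : G}

/-- there is no Steiner triple system on five points -/
theorem sts5 (h : FS D) (hx : x ∈ D) (hd : d ∈ D) (n : ¬ Commute d x) (f : Fin 5 → G) (m : ∀ i, f i ∈ dd D d)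
    (c : ∀ i j, Commute (f i) (f j)) (i : Function.Injective f) (k : ∀ i, ¬ Commute (f i) x)
    (cl : ∀ i j, i ≠ j → ∃ l, z4 x d (f i) (f j) = f l) : False := by
  have s : ∀ i j, i ≠ j → St D x d (f i) (f j) := fun a b q => ⟨h, hx, hd, (m a).1, (m b).1, (m a).2.2, (m b).2.2, c a b,
    (m a).2.1.symm, (m b).2.1.symm, i.ne q, n, k a, k b⟩
  choose! g hg using cl
  have g1 : ∀ a b, a ≠ b → g a b ≠ a := fun a b q e => (s a b q).nb (by rw [hg a b q, e])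
  have g2 : ∀ a b, a ≠ b → g a b ≠ b := fun a b q e => (s a b q).nc (by rw [hg a b q, e])
  have g3 : ∀ a b, a ≠ b → g b a = g a b := fun a b q => i (by rw [← hg a b q, ← hg b a q.symm, (s a b q).e2])
  have g4 : ∀ a b, a ≠ b → g a (g a b) = b := fun a b q => i (by rw [← hg _ _ (g1 a b q).symm, ← hg a b q, (s a b q).zz])
  have : ∀ a b c d : Fin 5, a ≠ 0 → a ≠ 1 → b ≠ 0 → b ≠ 1 → b ≠ a → c ≠ 0 → c ≠ 1 → c ≠ a → c ≠ b →
    d ≠ 1 → d ≠ b → d ≠ 0 → d ≠ a → d ≠ c → False := by simp only [Ne, Fin.ext_iff]; omega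
  have n : (0 : Fin 5) ≠ 1 := by decide
  obtain ⟨b, b0, b1, b2⟩ := (by decide : ∀ a : Fin 5, ∃ b, b ≠ 0 ∧ b ≠ 1 ∧ b ≠ a) (g 0 1)
  refine this (g 0 1) b (g 0 b) (g 1 b) (g1 _ _ n) (g2 _ _ n) b0 b1 b2 (g1 _ _ b0.symm)
    (fun e => b2 ?_) (fun e => b1 ?_) (g2 _ _ b0.symm) (g1 _ _ b1.symm) (g2 _ _ b1.symm) (fun e => b2 ?_)
    (fun e => b0 ?_) fun e => n ?_
  · rw [← g4 0 b b0.symm, e]
  · rw [← g4 0 b b0.symm, e, g4 0 1 n]
  · rw [← g4 1 b b1.symm, e, g3 0 1 n]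
  · rw [← g4 1 b b1.symm, e, ← g3 0 1 n, g4 1 0 n.symm]
  · rw [← g4 b 0 b0, ← g4 b 1 b1, g3 1 b b1.symm, g3 0 b b0.symm, e]

variable {V : Type} [AddCommGroup V] [Module F3 V] [Finite V] {Φ : Form (RingHom.id F3) V} {S : V → Prop}
  {b c p r u v w w' z : V}

/-- the trace near a vector -/
structure Wb (Φ : Form (RingHom.id F3) V) (S : V → Prop) (b w : V) : Prop extends Sg Φ b w where
  e : ∀ v ∈ P3 Φ, Φ.B b v = 0 → (S v ↔ Φ.B w v = 0)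
theorem Wb.neg (h : Wb Φ S b w) : Wb Φ S b (-w) := ⟨h.toSg.neg, fun v hv q => by simp [h.e v hv q]⟩

/-- properties of a trace -/
structure Tr3 (Φ : Form (RingHom.id F3) V) (S : V → Prop) : Prop extends PM Φ (P3 Φ) where
  dim : 5 ≤ finrank F3 V
  s1 : ∃ b ∈ P3 Φ, S b
  s2 : ∀ b ∈ P3 Φ, S b → ∃ w, Wb Φ S b w
  s3 : ∀ u ∈ P3 Φ, ∀ v ∈ P3 Φ, S u → S v → S (v + Φ.B u v • u)
  s4 : ∀ u ∈ P3 Φ, ∀ v ∈ P3 Φ, ¬ S u → ¬ S v → Φ.B u v = 0 → ∃ z ∈ P3 Φ, ¬ S z ∧ ∀ s ∈ P3 Φ, S s →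
    S (s + Φ.B v s • v + Φ.B u (s + Φ.B v s • v) • u) → Φ.B s z = 0
  s5 : ∀ f : Fin 5 → V, (∀ i, f i ∈ P3 Φ) → (∀ i j, i ≠ j → Φ.B (f i) (f j) = 0) →
    (∀ i j, i ≠ j → ∀ z ∈ P3 Φ, Φ.B (f i) z = 0 → Φ.B (f j) z = 0 → ∃ k, z = f k ∨ z = -f k) → ∃ i, S (f i)

/-- the form in the exceptional case -/
def b5 (x y : Fin 5 → F3) : F3 := x 0 * y 0 + x 1 * y 1 + x 2 * y 3 + x 3 * y 2 - x 4 * y 4
/-- a frame -/
def f5 : Fin 5 → Fin 5 → F3 := ![![0, 0, 1, 1, 2], ![1, 1, 0, 2, 1], ![1, 1, 0, 1, 2], ![1, 2, 2, 0, 1], ![1, 2, 1, 0, 2]]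
theorem all5 {q : (Fin 5 → F3) → Prop} (h : ∀ a b c d e, q ![a, b, c, d, e]) (x : Fin 5 → F3) : q x := by
  convert h (x 0) (x 1) (x 2) (x 3) (x 4)
  ext i; fin_cases i <;> rfl

namespace Tr3
variable (h : Tr3 Φ S)
include h
theorem special (hb : b ∈ P3 Φ) (hc : c ∈ P3 Φ) (q : Φ.B b c = 0) (k : Wb Φ S b w) (k' : Wb Φ S c w') (q1 : Φ.B c w = 0)
    (q2 : Φ.B b w' = 0) (q3 : Φ.B w w' = 1) (n : ∀ p ∈ P3 Φ, Φ.B b p = 0 → Φ.B c p = 0 → Φ.B w p ≠ 0) : False := by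
  have hb' : Φ.B b b = 1 := hb
  have hc' : Φ.B c c = 1 := hc
  have m1 : ∀ r, Φ.B b r = 0 → Φ.B c r = 0 → Φ.B w r = 0 → Φ.B r r ≠ 0 → Φ.B r r = -1 := fun r a1 a2 a3 a4 =>
    ((z3 _).resolve_left a4).resolve_left fun e => n r e a1 a2 a3
  obtain ⟨y, y1, y2⟩ := ex_ne h.nd ![b, c, w, w'] h.dim
  obtain ⟨r, r1, r2⟩ := h.ex_ns (f := ![b, c, w, w']) (fun g q0 => by
    simp only [Fin.forall_fin_succ, Fin.sum_univ_four] at q0 ⊢
    simp [hb', hc', q, q1, q2, q3, k.s, k.o, k'.s, k'.o, h.sy c b, h.sy w b, h.sy w c, h.sy w' b, h.sy w' c, h.sy w' w]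
      at q0 ⊢
    tauto) y1 y2
  have d0 : Φ.B b r = 0 := r1 0
  have d1 : Φ.B c r = 0 := r1 1
  have d2 : Φ.B w r = 0 := r1 2
  have d3 : Φ.B w' r = 0 := r1 3
  have d4 := m1 r d0 d1 d2 r2
  let κ := Fintype.linearCombination F3 ![b, c, w, w', r]
  have e : ∀ x y, Φ.B (κ x) (κ y) = b5 x y := fun x y => by
    simp only [κ, Fintype.linearCombination_apply, Fin.sum_univ_five, Matrix.cons_val, bx, RingHom.id_apply, hb', hc', q, q1,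
      q2, q3, k.s, k.o, k'.s, k'.o, h.sy c b, h.sy w b, h.sy w c, h.sy w' b, h.sy w' c, h.sy w' w, h.sy r b, h.sy r c,
      h.sy r w, h.sy r w', d0, d1, d2, d3, d4, b5]
    ring
  have sj : Function.Surjective κ := sur_comb h.nd _ fun v hv => by
    by_contra nv
    obtain ⟨s, s1, s2⟩ := h.ex_ns (f := ![b, c, w, w', r]) (fun g q0 => by
      refine all5 (q := fun g => (∀ i : Fin 5, b5 (Pi.single i 1) g = 0) → ∀ j, g j = 0) (by decide) g fun i => ?_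
      rw [← e, ← q0 i]
      simp only [κ, Fintype.linearCombination_apply_single, one_smul]
      simp only [Fintype.linearCombination_apply, map_sum, bx]) nv hv
    refine n (r + s) ?_ (by simpa [d0] using s1 0) (by simpa [d1] using s1 1) (by simpa [d2] using s1 2)
    simp only [Set.mem_ofPred_eq, bx, h.sy s r, d4, m1 s (s1 0) (s1 1) (s1 2) s2, show Φ.B r s = 0 from s1 4]
    rfl
  have e0 : κ ![1, 0, 0, 0, 0] = b := by simp [κ, Fintype.linearCombination_apply, Fin.sum_univ_five]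
  have e1 : κ ![0, 1, 0, 0, 0] = c := by simp [κ, Fintype.linearCombination_apply, Fin.sum_univ_five]
  have e2 : κ ![0, 0, 1, 0, 0] = w := by simp [κ, Fintype.linearCombination_apply, Fin.sum_univ_five]
  have e3 : κ ![0, 0, 0, 1, 0] = w' := by simp [κ, Fintype.linearCombination_apply, Fin.sum_univ_five]
  have t1 : ∀ x, b5 x x = 1 → b5 ![1, 0, 0, 0, 0] x = 0 → (S (κ x) ↔ b5 ![0, 0, 1, 0, 0] x = 0) := fun x a1 a2 => by
    rw [k.e _ ((e x x).trans a1) (by rw [← e0, e, a2]), ← e2, e]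
  have t2 : ∀ x, b5 x x = 1 → b5 ![0, 1, 0, 0, 0] x = 0 → (S (κ x) ↔ b5 ![0, 0, 0, 1, 0] x = 0) := fun x a1 a2 => by
    rw [k'.e _ ((e x x).trans a1) (by rw [← e1, e, a2]), ← e3, e]
  have t3 : ∀ x y z, b5 x x = 1 ∧ b5 y y = 1 ∧ b5 ![1, 0, 0, 0, 0] x = 0 ∧ b5 ![0, 0, 1, 0, 0] x = 0 ∧
      b5 ![0, 1, 0, 0, 0] y = 0 ∧ b5 ![0, 0, 0, 1, 0] y = 0 ∧ y + b5 x y • x = z → S (κ z) := by
    rintro x y _ ⟨a1, a2, a3, a4, a5, a6, rfl⟩
    rw [map_add, map_smul, ← e]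
    exact h.s3 _ ((e x x).trans a1) _ ((e y y).trans a2) ((t1 x a1 a3).2 a4) ((t2 y a2 a5).2 a6)
  have t4 : ∀ x y z, (b5 x x = 1 ∧ b5 y y = 1 ∧ b5 z z = 1 ∧ b5 x y = 0 ∧ b5 x z = 0 ∧ ∀ u,
      b5 x u = 0 → b5 u y = 0 → b5 u z = 0 → b5 u u = 0 → u = 0) → S (κ x) → S (κ y) → S (κ z) → False := by
    rintro x y z ⟨a1, a2, a3, a4, a5, a6⟩ s1 s2 s3
    obtain ⟨u, hu⟩ := h.s2 _ ((e x x).trans a1) s1
    obtain ⟨u, rfl⟩ := sj u
    exact hu.ne (by rw [a6 u (e _ _ ▸ hu.o) (e _ _ ▸ (hu.e _ ((e y y).trans a2) ((e x y).trans a4)).1 s2)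
      (e _ _ ▸ (hu.e _ ((e z z).trans a3) ((e x z).trans a5)).1 s3) (e _ _ ▸ hu.s), map_zero])
  obtain ⟨i, hi⟩ := h.s5 (fun i => κ (f5 i)) (fun i => (e _ _).trans (by revert i; decide))
    (fun i j => by rw [e]; revert i j; decide) fun i j ne z hz a1 a2 => by
      obtain ⟨z, rfl⟩ := sj z
      rw [Set.mem_ofPred_eq, e] at hz
      rw [e] at a1 a2
      obtain ⟨k, hk⟩ := all5 (q := fun z => ∀ i j, i ≠ j → b5 z z = 1 → b5 (f5 i) z = 0 → b5 (f5 j) z = 0 →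
        ∃ k, z = f5 k ∨ z = -f5 k) (by decide +kernel) z i j ne hz a1 a2
      exact ⟨k, hk.imp (by rw [·]) (by rw [·, map_neg])⟩
  fin_cases i
  · exact absurd ((t1 _ (by decide) (by decide)).1 hi) (by decide)
  · exact t4 ![0, 1, 1, 0, 0] _ _ (by decide +kernel) ((t1 _ (by decide) (by decide)).2 (by decide)) hi
      (t3 ![0, 1, 2, 0, 0] ![1, 0, 0, 2, 0] ![1, 1, 2, 2, 0] (by decide))
  · exact t4 ![0, 1, 2, 0, 0] _ _ (by decide +kernel) ((t1 _ (by decide) (by decide)).2 (by decide)) hi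
      (t3 ![0, 1, 1, 0, 0] ![1, 0, 0, 1, 0] ![1, 1, 1, 1, 0] (by decide))
  · exact t4 ![1, 0, 0, 1, 0] _ _ (by decide +kernel) ((t2 _ (by decide) (by decide)).2 (by decide)) hi
      (t3 ![0, 1, 1, 0, 0] ![1, 0, 0, 2, 0] ![1, 2, 2, 2, 0] (by decide))
  · exact t4 ![1, 0, 0, 2, 0] _ _ (by decide +kernel) ((t2 _ (by decide) (by decide)).2 (by decide)) hi
      (t3 ![0, 1, 2, 0, 0] ![1, 0, 0, 1, 0] ![1, 2, 1, 1, 0] (by decide))
theorem step1 (hb : b ∈ P3 Φ) (hc : c ∈ P3 Φ) (sb : S b) (sc : S c) (q : Φ.B b c = 0) (k : Wb Φ S b w) (k' : Wb Φ S c w') :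
    w' = w ∨ w' = -w := by
  have q1 : Φ.B c w = 0 := h.sy w c ▸ (k.e c hc q).1 sc
  have q2 : Φ.B b w' = 0 := h.sy w' b ▸ (k'.e b hb (h.sy b c ▸ q)).1 sb
  have a : ∀ v ∈ P3 Φ, (∀ z ∈ ({b, c} : Set V), Φ.B z v = 0) → Φ.B w v = 0 → Φ.B w' v = 0 := fun v hv a1 a2 =>
    (k'.e v hv (a1 c (by simp))).1 ((k.e v hv (a1 b (by simp))).2 a2)
  have m : w' ∈ Submodule.span F3 {w, b, c} := by
    by_contra n
    have n1 : Φ.B w w' ≠ 0 := fun e => by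
      obtain ⟨v, a1, a2, a3, a4⟩ := h.det e k'.s (by simp [q2, k'.o]) n
      exact a4 (a v a1 a3 a2)
    have n2 : ∀ p ∈ P3 Φ, Φ.B b p = 0 → Φ.B c p = 0 → Φ.B w p ≠ 0 := fun p hp a1 a2 a3 =>
      n (h.det' hp a3 (by simp [a1, a2]) k.s (by simp [q1, k.o]) k'.s (by simp [q2, k'.o]) a)
    rcases (z3 _).resolve_left n1 with e | e
    · exact h.special hb hc q k k' q1 q2 e n2
    · exact h.special hb hc q k k'.neg q1 (by simp [q2]) (by simp [e]) n2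
  obtain ⟨x, y, z, e⟩ := Submodule.mem_span_triple.1 m
  have := k'.o
  simp only [← e, bx, q1, h.sy c b, q, show Φ.B c c = 1 from hc, mul_zero, zero_add, mul_one] at this
  exact h.nsp hb k.toSg ⟨k'.ne, k'.s, q2⟩ (Submodule.mem_span_pair.2 ⟨x, y, by simpa [this] using e⟩)
theorem step2 (hb : b ∈ P3 Φ) (sb : S b) (k : Wb Φ S b w) (hv : v ∈ P3 Φ) (sv : S v) : Φ.B w v = 0 := by
  by_contra n
  obtain ⟨c, a, hc⟩ := h.ex_norm (f := ![b, w, v]) (fun g q => by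
    simp only [Fin.forall_fin_succ, Fin.sum_univ_three] at q ⊢
    simp [show Φ.B b b = 1 from hb, show Φ.B v v = 1 from hv, k.o, k.s, h.sy w b, h.sy v w, n] at q ⊢
    grind) h.dim 1
  have sc := (k.e c hc (a 0)).2 (a 1)
  obtain ⟨w', k'⟩ := h.s2 c hc sc
  have := (k'.e v hv (h.sy v c ▸ a 2)).1 sv
  rcases h.step1 hb hc sb sc (a 0) k k' with rfl | rfl
  exacts [n this, n (by simpa using this)]
theorem step3 (hb : b ∈ P3 Φ) (sb : S b) (k : Wb Φ S b w) (hc : c ∈ P3 Φ) (sc : S c) (hv : v ∈ P3 Φ) (a1 : Φ.B c v = 0)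
    (a2 : Φ.B w v = 0) : S v := by
  obtain ⟨w', k'⟩ := h.s2 c hc sc
  refine (k'.e v hv a1).2 ?_
  rcases h.inj h.dim hb k.toSg ⟨k'.ne, k'.s, h.sy w' b ▸ h.step2 hc sc k' hb sb⟩ fun v hv a b =>
    h.step2 hc sc k' hv ((k.e v hv a).2 b) with rfl | rfl
  exacts [a2, by simpa using a2]
theorem main : ∃ w ≠ 0, Φ.B w w = 0 ∧ ∀ v ∈ P3 Φ, S v ↔ Φ.B w v = 0 := by
  obtain ⟨b, hb, sb⟩ := h.s1
  obtain ⟨w, k⟩ := h.s2 b hb sb
  refine ⟨w, k.ne, k.s, fun v hv => ⟨h.step2 hb sb k hv, fun q => by_contra fun n => ?_⟩⟩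
  obtain ⟨c, hc, c1, c2⟩ := h.exP h.dim hb k.toSg
  have sc := (k.e c hc c1).2 c2
  have a : ∀ v ∈ P3 Φ, Φ.B w v = 0 → ¬ S v → ∀ s ∈ P3 Φ, S s → Φ.B s v * Φ.B s v = 1 := fun v hv q n s hs ss =>
    z3' fun e => n (h.step3 hb sb k hs ss hv e q)
  have a1 := a v hv q n b hb sb
  have a2 := a v hv q n c hc sc
  have hb' : Φ.B b b = 1 := hb
  have hc' : Φ.B c c = 1 := hc
  have hv' : Φ.B v v = 1 := hv
  have m1 := h.cl v hv c hc
  have m2 := h.cl _ m1 b hb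
  set u := v + Φ.B c v • c + Φ.B b (v + Φ.B c v • c) • b with hu
  have q' : Φ.B w u = 0 := by simp [hu, q, c2, h.sy w b, k.o]
  have o : Φ.B v u = 0 := by simp only [hu, bx, RingHom.id_apply, hv', h.sy v c, h.sy v b, c1]; grind
  have nu : ¬ S u := fun su => n (by
    have := h.s3 c hc _ (h.cl _ m2 b hb) sc (h.s3 b hb u m2 sb su)
    convert this using 1
    simp only [hu, bx, RingHom.id_apply, hb', hc', c1, h.sy c b]
    rw [← sub_eq_zero]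
    calc _ = (3 : F3) • (-(Φ.B c v • c) - Φ.B b v • b) := by module
      _ = 0 := by rw [show (3 : F3) = 0 from rfl, zero_smul])
  obtain ⟨z, hz, nz, e⟩ := h.s4 v hv u m2 n nu o
  have f : ∀ s ∈ P3 Φ, S s → Φ.B s z = 0 := fun s hs ss => e s hs ss (h.step3 hb sb k hs ss (h.cl _ (h.cl s hs u m2) v hv)
    (by
      have := a v hv q n s hs ss
      have := a u m2 q' nu s hs ss
      simp only [bx, show Φ.B s s = 1 from hs, h.sy u s, h.sy v s, o]; grind)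
    (by simp [h.step2 hb sb k hs ss, q, q']))
  have m3 := h.sg_mem hc (⟨k.ne, k.s, h.sy w c ▸ c2⟩ : Sg Φ c w)
  have := f _ m3 ((k.e _ m3 (by simp [c1, k.o])).2 (by simp [c2, k.s]))
  exact nz ((k.e z hz (f b hb sb)).2 (by simpa [f c hc sc] using this))
end Tr3

theorem tr3 [Finite G] (h : TP D) (hd : d ∈ D) (hx : x ∈ Ao D d) {π : V → G} (k : LM Φ (P3 Φ) (dd D d) π)
    (hn : 5 ≤ finrank F3 V) : Tr3 Φ (fun v => Commute (π v) x) where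
  toPM := k.toPM
  dim := hn
  s1 := let ⟨_, hb, c⟩ := tp_cn h hd hx.1 hx.2; let ⟨v, hv, e⟩ := k.sur hb; ⟨v, hv, e ▸ c⟩
  s2 b hb sb := by
    have m := k.mem hb
    obtain ⟨g, hg⟩ := h.cls d hd _ m.1
    have l := k.fiso (fdd (fcj h.toTT g) hd)
    simp only [hg] at l
    obtain ⟨e, he, e1⟩ := l.sur (dd_symm hd m)
    obtain ⟨u, su, e2⟩ := l.ao he (y := x) ⟨⟨hx.1, ne_of m.2.2 (ncs hx.2) |>.symm, sb⟩, by simpa only [e1] using hx.2⟩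
    obtain ⟨p, hp, p1, p2⟩ := l.exP hn he su
    have sp : Sg Φ p u := ⟨su.ne, su.s, l.sy u p ▸ p2⟩
    have t : ∀ v ∈ P3 Φ, Φ.B e v = 0 → g ⊳ π v ∈ dd D d := fun v hv q =>
      ⟨(l.mem hv).1, e1 ▸ (l.ne3 he hv q).symm, e1 ▸ l.cm0 he hv q⟩
    obtain ⟨q, hq, e3⟩ := k.sur (t p hp p1)
    have m' := l.sg_mem hp sp
    obtain ⟨w, sw, e4⟩ := k.ao hq (y := g ⊳ π (p + u)) ⟨t _ m' (by simp [p1, su.o]), e3 ▸ (l.ao' hp sp).2⟩
    have b1 := k.b0 hb hq (e3 ▸ (l.mem hp).2.2) (e3 ▸ (l.mem hp).2.1.symm)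
    have b2 := k.b0 hb (k.sg_mem hq sw) (e4 ▸ (l.mem m').2.2) (e4 ▸ (l.mem m').2.1.symm)
    refine ⟨w, ⟨sw.ne, sw.s, by simpa [b1] using b2⟩, fun v hv o => ?_⟩
    obtain ⟨v', hv', e5⟩ := l.sur (a := π v) ⟨(k.mem hv).1, (k.ne3 hb hv o).symm, k.cm0 hb hv o⟩
    rw [← k.lq hq sw hv, e3, ← e4, ← e5, l.lq hp sp hv', e2, Commute.symm_iff, l.cm_p he su hv'
      (l.b0 he hv' (by simpa only [e1, e5] using (k.mem hv).2.2) (by simpa only [e1, e5] using (k.mem hv).2.1.symm))]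
  s3 u hu v hv a b := k.cj v hv u hu ▸ (cm3 a.symm b.symm).symm
  s4 u hu v hv a b o := by
    have s : St D x d (π u) (π v) := ⟨FS.of h.toTT, hx.1, hd, (k.mem hu).1, (k.mem hv).1, (k.mem hu).2.2, (k.mem hv).2.2,
      k.cm0 hu hv o, (k.mem hu).2.1.symm, (k.mem hv).2.1.symm, k.ne3 hu hv o, ncs hx.2, a, b⟩
    obtain ⟨z, hz, e⟩ := k.sur (a := z4 x d (π u) (π v)) ⟨s.mem, s.na, s.ca⟩
    refine ⟨z, hz, e ▸ s.nx, fun t ht c q => k.b0 ht hz (e ▸ (s.key (k.mem ht).2.2.symm c).2 ?_) (ne_of c.symm (e ▸ ncs s.nx))⟩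
    rw [k.cj t ht v hv, k.cj _ (k.cl t ht v hv) u hu]
    exact q.symm
  s5 f m o cl := by
    by_contra! n
    have i : ∀ i j, i ≠ j → π (f i) ≠ π (f j) := fun i j q => k.ne3 (m i) (m j) (o i j q)
    refine sts5 (FS.of h.toTT) hx.1 hd (ncs hx.2) (fun i => π (f i)) (fun i => k.mem (m i)) (fun i j => ?_)
      (fun a b => not_imp_not.1 (i a b)) n fun a b q => ?_
    · by_cases q : i = j
      exacts [q ▸ Commute.refl _, k.cm0 (m i) (m j) (o i j q)]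
    have s : St D x d (π (f a)) (π (f b)) := ⟨FS.of h.toTT, hx.1, hd, (k.mem (m a)).1, (k.mem (m b)).1, (k.mem (m a)).2.2,
      (k.mem (m b)).2.2, k.cm0 (m a) (m b) (o a b q), (k.mem (m a)).2.1.symm, (k.mem (m b)).2.1.symm, i a b q, ncs hx.2,
      n a, n b⟩
    obtain ⟨z, hz, e⟩ := k.sur (a := z4 x d (π (f a)) (π (f b))) ⟨s.mem, s.na, s.ca⟩
    obtain ⟨l, q⟩ := cl a b q z hz (k.b0 (m a) hz (e ▸ s.cb) (e ▸ s.nb.symm)) (k.b0 (m b) hz (e ▸ s.cc') (e ▸ s.nc.symm))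
    exact ⟨l, by rcases q with rfl | rfl; exacts [e.symm, e.symm.trans (k.neg (m l))]⟩

/-- the orthogonal sum with a vector of norm one -/
def plus1 (Φ : Form (RingHom.id F3) V) (he : Φ.ε = 1) : Form (RingHom.id F3) (V × F3) :=
  Form.ofSymm (LinearMap.mk₂ F3 (fun x y => Φ.B x.1 y.1 + x.2 * y.2) (fun _ _ _ => by simp; ring) (fun _ _ _ => by simp; ring)
    (fun _ _ _ => by simp; ring) (fun _ _ _ => by simp; ring)) ⟨fun x y => by simp [Φ.symm x.1 y.1, he, mul_comm]⟩ (by decide)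
theorem plus1_B (he : Φ.ε = 1) (x y : V × F3) : (plus1 Φ he).B x y = Φ.B x.1 y.1 + x.2 * y.2 := rfl

/-- locally orthogonal spaces are orthogonal -/
theorem loc_o3 [Finite G] (h : TP D) (hd : d ∈ D) {n : ℕ} (hn : 5 ≤ n) (k : IsO3 (dd D d) n) : IsO3 D (n + 1) := by
  obtain ⟨V, _, _, _, Φ, π, rfl, k⟩ := k
  obtain ⟨x, hx, nx⟩ := h.nc hd
  obtain ⟨w, w0, w1, w2⟩ := (tr3 h hd ⟨hx, ncs nx⟩ k hn).main
  let Ψ := plus1 Φ k.eps
  have B := plus1_B k.eps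
  have pm : PM Ψ (P3 Ψ) := pm3 (fun x q => Prod.ext (k.nd _ fun y => by simpa [Ψ, B] using q (y, 0))
    (by simpa [Ψ, B] using q (0, 1))) rfl
  obtain ⟨l, f⟩ := pm.lm
  have he : ((0, 1) : V × F3) ∈ P3 Ψ := by simp [Ψ, B]
  have m : ∀ v ∈ P3 Φ, (v, 0) ∈ P3 Ψ := fun v hv => by simpa [Ψ, B] using hv
  have o : ∀ v, Ψ.B (0, 1) (v, 0) = 0 := fun v => by simp [Ψ, B]
  have r : LM Φ (P3 Φ) (dd (tv Ψ '' P3 Ψ) (tv Ψ (0, 1))) fun v => tv Ψ (v, 0) := by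
    refine ⟨k.toPM, Set.ext fun y => ⟨?_, fun hy => ?_⟩, fun v hv u hu => ?_, fun v hv u hu => ?_⟩
    · rintro ⟨v, hv, rfl⟩
      exact ⟨l.mem (m v hv), (l.ne3 he (m v hv) (o v)).symm, l.cm0 he (m v hv) (o v)⟩
    · obtain ⟨⟨v, t⟩, hv, rfl⟩ := l.sur hy.1
      obtain rfl : t = 0 := by simpa [Ψ, B] using l.b0 he hv hy.2.2 hy.2.1.symm
      exact ⟨v, by simpa [Ψ, B] using hv, rfl⟩
    · simp [l.eq _ (m v hv) _ (m u hu)]
    · simp [l.cj _ (m v hv) _ (m u hu), Ψ, B]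
  obtain ⟨σ, s, e⟩ := k.iso r
  have sw : Sg Ψ (0, 1) (w, 0) := ⟨by simpa using w0, by simpa [Ψ, B] using w1, o w⟩
  have dim : finrank F3 (V × F3) = finrank F3 V + 1 := by simp
  obtain ⟨τ, t⟩ := ul h f (Set.toFinite _) hd (l.mem he) s ⟨hx, ncs nx⟩ (l.ao' he sw) (fun b hb => by
    obtain ⟨v, hv, rfl⟩ := k.sur hb
    rw [e v hv, l.cm_p he sw (m v hv) (o v), Commute.symm_iff, w2 v hv]
    simp [Ψ, B]) (l.inj3 (dim ▸ hn.trans (Nat.le_succ _)) he) (l.sc3 (dim ▸ Nat.succ_le_succ hn) he sw)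
  exact ⟨_, _, _, inferInstance, Ψ, _, dim, l.fiso t⟩

end H1.Fi
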