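import Cfsg.Agent.H1.Fs

/-! Fischer's theorem: the polar lines. -/

set_option autoImplicit false
set_option linter.unusedSectionVars false

namespace H1.Fi
open Cfsg H18 H28 H23 Subgroup

variable {G : Type*} [Group G] {D : Set G} {a a' b c d f p q t u v w x y z : G}

/-- the line on two commuting points -/
def pl (D : Set G) (p q : G) : Set G := {z | z ∈ D ∧ ∀ w ∈ D, Commute p w → Commute q w → Commute z w}
theorem pl_l (hp : p ∈ D) : p ∈ pl D p q := ⟨hp, fun _ _ c _ => c⟩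
theorem pl_r (hq : q ∈ D) : q ∈ pl D p q := ⟨hq, fun _ _ _ c => c⟩
theorem pl_s (hz : z ∈ pl D p q) : z ∈ pl D q p := ⟨hz.1, fun w hw a b => hz.2 w hw b a⟩
theorem pl_cl (hp : p ∈ D) (hq : q ∈ dd D p) (hz : z ∈ pl D p q) : Commute p z :=
  (hz.2 p hp (Commute.refl p) hq.2.2.symm).symm
theorem pl_cr (hq : q ∈ dd D p) (hz : z ∈ pl D p q) : Commute q z := (hz.2 q hq.1 hq.2.2 (Commute.refl q)).symm
theorem pl_c (hp : p ∈ D) (hq : q ∈ dd D p) (hu : u ∈ pl D p q) (hv : v ∈ pl D p q) : Commute u v :=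
  hu.2 v hv.1 (pl_cl hp hq hv) (pl_cr hq hv)
theorem pl_dd (hp : p ∈ D) (hq : q ∈ dd D p) (hu : u ∈ pl D p q) (n : u ≠ p) : u ∈ dd D p := ⟨hu.1, n, pl_cl hp hq hu⟩
theorem pl_cj (h : TT D) (g : G) (hz : z ∈ pl D p q) : g ⊳ z ∈ pl D (g ⊳ p) (g ⊳ q) :=
  ⟨h.cj g z hz.1, fun _ hw a b => commute_conj_left.2 (hz.2 _ (h.cj' g hw) (commute_conj_left.1 a) (commute_conj_left.1 b))⟩
theorem cjx (h : IsThreeTranspositionSet D) (ha : a ∈ D) (hb : b ∈ D) (hx : x ∈ D) (n : a ≠ b) (e : a ⊳ b ⊳ x = x) :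
    Commute a x := ((tt_commute_mul_iff h ha hb hx n).1 (conj_eq_iff_commute.1 (cjm a b x ▸ e)).symm).1.symm

/-- thick lines -/
def Th (D : Set G) : Prop := ∀ p ∈ D, ∀ q ∈ dd D p, ∃ z ∈ pl D p q, z ≠ p ∧ z ≠ q
/-- coordinates on a line -/
structure Co (D : Set G) (p q : G) (κ : K4 → G) : Prop where
  inj : Function.Injective κ
  z : κ 0 = q
  e : ∀ y, (∃ t, κ t = y) ↔ y ∈ pl D p q ∧ y ≠ p

variable [Finite G] (h : TP D)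
include h
theorem pl_two (hp : p ∈ D) (hq : q ∈ dd D p) (hu : u ∈ pl D p q) (hv : v ∈ pl D p q) (n : u ≠ v) (hw : w ∈ D)
    (c1 : Commute u w) (c2 : Commute v w) (hz : z ∈ pl D p q) : Commute z w := by
  have : w ∈ cc2 D p q := by
    rw [Set.eq_of_subset_of_ncard_le (s := cc2 D p q) (t := cc2 D u v) (fun y m => ⟨m.1, hu.2 y m.1 m.2.1 m.2.2,
      hv.2 y m.1 m.2.1 m.2.2⟩) (h.ncard_cc2 (h.pe_edge hu.1 hp ⟨hv.1, n.symm, pl_c hp hq hu hv⟩ hq)).le (Set.toFinite _)]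
    exact ⟨hw, c1, c2⟩
  exact hz.2 w hw this.2.1 this.2.2
theorem pl_un (hp : p ∈ D) (hq : q ∈ dd D p) (hu : u ∈ pl D p q) (hv : v ∈ pl D p q) (hw : w ∈ D)
    (c1 : Commute u w) (c2 : Commute v w) (hz : z ∈ pl D p q) (n : ¬ Commute z w) : u = v :=
  by_contra fun e => n (pl_two h hp hq hu hv e hw c1 c2 hz)
theorem pl_eq (hp : p ∈ D) (hq : q ∈ dd D p) (hu : u ∈ pl D p q) (hv : v ∈ pl D p q) (n : u ≠ v) :
    pl D u v = pl D p q := Set.ext fun _ => ⟨fun m => ⟨m.1, fun w hw a b => m.2 w hw (hu.2 w hw a b) (hv.2 w hw a b)⟩,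
      fun m => ⟨m.1, fun _ hw a b => pl_two h hp hq hu hv n hw a b m⟩⟩
theorem pl_z4 (hp : p ∈ D) (hq : q ∈ dd D p) (s : St D x a b c) (ha : a ∈ pl D p q) (hb : b ∈ pl D p q)
    (hc : c ∈ pl D p q) : z4 x a b c ∈ pl D p q := by
  obtain ⟨g, -, e1, e2, e3⟩ := s.swap
  have := pl_cj h.toTT g (pl_eq h hp hq ha hb s.nab ▸ hc)
  rwa [e1, e2, e3, pl_eq h hp hq hb ha s.nab.symm] at this
theorem pl_lf (hp : p ∈ D) (hq : q ∈ dd D p) (hx : x ∈ D) : Lf D x {z | z ∈ pl D p q ∧ ¬ Commute z x} := by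
  have f := FS.of h.toTT
  refine ⟨f, hx, fun _ m => m.1.1, fun a m b m' => pl_c hp hq m.1 m'.1, fun _ m => m.2, fun a m b m' c m'' n1 n2 n3 => ?_⟩
  have s : St D x a b c := ⟨f, hx, m.1.1, m'.1.1, m''.1.1, pl_c hp hq m.1 m'.1, pl_c hp hq m.1 m''.1,
    pl_c hp hq m'.1 m''.1, n1, n2, n3, m.2, m'.2, m''.2⟩
  exact ⟨pl_z4 h hp hq s m.1 m'.1 m''.1, s.nx⟩
theorem th_of (hd : d ∈ D) (ha : a ∈ dd D d) (hb : b ∈ dd D d) (n : a ≠ b) (v : Vr (dd D d) a b) : Th D := fun p hp q hq => by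
  obtain ⟨g, rfl, rfl⟩ := h.pe_edge hd hp hb hq
  refine ⟨_, pl_cj h.toTT g ⟨ha.1, fun w hw c1 c2 => ?_⟩, fun e => ha.2.1 (conj_inj e), fun e => n (conj_inj e)⟩
  by_cases e : w = d
  exacts [e ▸ ha.2.2.symm, (v w ⟨hw, e, c1⟩).2 c2]
/-- the translation lemma -/
theorem pl_m (hd : d ∈ D) (ha : a ∈ dd D d) (hv : v ∈ dd D d) (n : ¬ Commute a v) (m : a' ∈ pl D d a) (n' : a' ≠ d) :
    ¬ Commute a' v ∧ a' ⊳ a ⊳ v ∈ pl D d v ∧ a' ⊳ a ⊳ v ≠ d := by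
  have k : ¬ Commute a' v := fun c => n' (pl_un h hd ha m (pl_l hd) hv.1 c hv.2.2 (pl_r ha.1) n)
  have := pl_cj h.toTT (a ⊳ v) m
  rw [cb3 h.tt ha.1 hv.1 n, fx (cm3 ha.2.2 hv.2.2).symm, br h.tt (h.cj _ _ hv.1) m.1 (ncs (nc3 (pl_cr ha m).symm k))] at this
  refine ⟨k, this, fun e => hv.2.1 ?_⟩
  rwa [eqv h.tt m.1, fx (pl_cl hd ha m).symm, eqv h.tt ha.1, fx ha.2.2.symm] at e

variable (th : Th D)
include th
theorem pl_one (hp : p ∈ D) (hq : q ∈ dd D p) (hx : x ∈ D) : ∃ z ∈ pl D p q, Commute z x := by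
  by_contra! k
  obtain ⟨w, hw, c1, c2⟩ := tp_vt h hp hq.1 hq.2.1.symm
  obtain ⟨z, hz, n1, n2⟩ := th p hp q hq
  have e1 := (pl_lf h hp hq hx).even (Set.toFinite _) ⟨pl_l hp, k p (pl_l hp)⟩ ⟨pl_r hq.1, k q (pl_r hq.1)⟩ hq.2.1.symm
  have e2 := (pl_lf h hp hq hw).even (Set.toFinite _) ⟨pl_l hp, ncs c2⟩ ⟨hz, fun c =>
    n2 (pl_un h hp hq hz (pl_r hq.1) hw c c1.symm (pl_l hp) (ncs c2))⟩ n1.symm
  rw [show {z | z ∈ pl D p q ∧ ¬ Commute z x} = insert q {z | z ∈ pl D p q ∧ ¬ Commute z w} from Set.ext fun y =>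
    ⟨fun m => or_iff_not_imp_left.2 fun n => ⟨m.1, fun c => n (pl_un h hp hq m.1 (pl_r hq.1) hw c c1.symm (pl_l hp)
      (ncs c2))⟩, fun m => m.elim (fun e => by rw [e]; exact ⟨pl_r hq.1, k q (pl_r hq.1)⟩) fun m => ⟨m.1, k y m.1⟩⟩,
    Set.ncard_insert_of_notMem (fun m => m.2 c1.symm), Nat.even_add_one] at e1
  exact e1 e2
theorem pl_sy (k : ∀ p ∈ D, ∀ q ∈ dd D p, ∀ u ∈ pl D p q, ∀ v ∈ pl D p q, u ≠ p → u ≠ q → v ≠ p → v ≠ q → u = v) :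
    Sy D := fun a ha b hb x hx n n1 n2 => by
  obtain ⟨d, hd, c1, c2⟩ := h.cc2_ne ha hb n
  have t := h.tt
  have m : ∀ u ∈ dd D d, ∀ v ∈ dd D d, ¬ Commute u v → ∀ u' ∈ pl D d u, u' ≠ d → u' ≠ u → ∀ v' ∈ pl D d v, v' ≠ d → v' ≠ v →
      v' = u' ⊳ u ⊳ v := fun u hu v hv n u' m a b v' m' a' b' =>
    let ⟨k1, k2, k3⟩ := pl_m h hd hu hv n m a
    k d hd v hv _ m' _ k2 a' b' k3 (s4ne t hv.1 m.1 hu.1 k1 b)
  have i : ∀ u ∈ dd D d, ∀ v ∈ dd D d, ¬ Commute u v → ∀ u' ∈ pl D d u, u' ≠ d → u' ≠ u → ∀ v' ∈ pl D d v, v' ≠ d → v' ≠ v →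
      u' ⊳ v' = u ⊳ v := fun u hu v hv n u' m1 a b v' m' a' b' => by rw [m u hu v hv n u' m1 a b v' m' a' b', cc t m1.1]
  have ma : a ∈ dd D d := ⟨ha, ne_of c2 (ncs n) |>.symm, c1.symm⟩
  have mb : b ∈ dd D d := ⟨hb, ne_of c1 n |>.symm, c2.symm⟩
  obtain ⟨a', p1, p2, p3⟩ := th d hd a ma
  obtain ⟨b', q1, q2, q3⟩ := th d hd b mb
  by_cases c : Commute x d
  · have mx : x ∈ dd D d := ⟨hx, ne_of c1 (ncs n1) |>.symm, c.symm⟩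
    obtain ⟨x', r1, r2, r3⟩ := th d hd x mx
    have := i b mb x mx (ncs n2) b' q1 q2 q3 x' r1 r2 r3
    rw [m a ma b mb n a' p1 p2 p3 b' q1 q2 q3, m a ma x mx (ncs n1) a' p1 p2 p3 x' r1 r2 r3, ← cjj, ← cjj,
      cjs (pl_cr ma p1).symm] at this
    rw [br t ha hb n]
    exact ((cmv t hb).2 (cjx t ha p1.1 (h.cj _ _ hx) p3.symm this)).symm
  · have e : ∀ u ∈ dd D d, ¬ Commute x u → ∀ u' ∈ pl D d u, u' ≠ d → u' ≠ u → Commute x u' := fun u hu n u' m a b =>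
      let ⟨z, hz, c'⟩ := pl_one h th hd hu hx
      k d hd u hu z hz u' m (ne_of c'.symm c) (ne_of c'.symm n) a b ▸ c'.symm
    rw [← i a ma b mb n a' p1 p2 p3 b' q1 q2 q3]
    exact cm3 (e a ma n1 a' p1 p2 p3) (e b mb n2 b' q1 q2 q3)
theorem pl_five (hp : p ∈ D) (hq : q ∈ dd D p) (hu : u ∈ pl D p q) (hv : v ∈ pl D p q) (n1 : u ≠ p) (n2 : u ≠ q) (n3 : v ≠ p)
    (n4 : v ≠ q) (n5 : u ≠ v) : {y | y ∈ pl D p q ∧ y ≠ p}.ncard = 4 := by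
  have t := h.tt
  have fs := FS.of h.toTT
  obtain ⟨x, hx, x1, x2⟩ := tp_vt h hq.1 hp hq.2.1
  obtain ⟨w, hw, w1, w2⟩ := tp_vt h hp hx (ne_of hq.2.2.symm (ncs x2))
  obtain ⟨a, ha, w3⟩ := pl_one h th hp hq hw
  have na : a ≠ p := ne_of w3.symm w2
  have nx : ∀ y ∈ pl D p q, y ≠ p → ¬ Commute y x := fun y m n c =>
    n (pl_un h hp hq m (pl_l hp) hx c x1.symm (pl_r hq.1) (ncs x2))
  have nw : ∀ y ∈ pl D p q, y ≠ a → ¬ Commute y w := fun y m n c => n (pl_un h hp hq m ha hw c w3 (pl_l hp) (ncs w2))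
  have st : ∀ {y a b c}, y ∈ D → a ∈ pl D p q → b ∈ pl D p q → c ∈ pl D p q → a ≠ b → a ≠ c → b ≠ c → ¬ Commute a y →
      ¬ Commute b y → ¬ Commute c y → St D y a b c := fun hy ha hb hc a b c d e f =>
    ⟨fs, hy, ha.1, hb.1, hc.1, pl_c hp hq ha hb, pl_c hp hq ha hc, pl_c hp hq hb hc, a, b, c, d, e, f⟩
  obtain ⟨b, hb, c, hc, b1, b2, c1, c2, bc⟩ : ∃ b ∈ pl D p q, ∃ c ∈ pl D p q, b ≠ p ∧ b ≠ a ∧ c ≠ p ∧ c ≠ a ∧ b ≠ c := by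
    by_cases e : a = q
    · exact ⟨u, hu, v, hv, n1, e ▸ n2, n3, e ▸ n4, n5⟩
    by_cases e' : a = u
    · exact ⟨q, pl_r hq.1, v, hv, hq.2.1, Ne.symm e, n3, e' ▸ n5.symm, n4.symm⟩
    exact ⟨q, pl_r hq.1, u, hu, hq.2.1, Ne.symm e, n1, Ne.symm e', n2.symm⟩
  have s := st hx ha hb hc b2.symm c2.symm bc (nx a ha na) (nx b hb b1) (nx c hc c1)
  have s' := st hw (pl_l hp) hb hc b1.symm c1.symm bc (ncs w2) (nw b hb b2) (nw c hc c2)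
  have m := pl_z4 h hp hq s ha hb hc
  have m' := pl_z4 h hp hq s' (pl_l hp) hb hc
  have l : ∀ y ∈ pl D p q, y ≠ p → y ≠ a → ∀ z ∈ pl D p q, Commute z (x ⊳ w ⊳ y) → z = y := fun y hy k1 k2 z hz c =>
    pl_un h hp hq hz hy (h.cj _ _ (h.cj _ _ hy.1)) c (s4 t hy.1 hx hw (ncs (nx y hy k1)) (ncs (nw y hy k2)) w1.symm) ha
      (nc3' t hx (h.cj _ _ hy.1) (nc3 w1.symm (ncs (nx y hy k1))) (cm3 w3 (pl_c hp hq ha hy)) (nx a ha na))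
  have fp : z4 x a b c ≠ p := ne_of x1 (ncs s.nx) |>.symm
  have e := l _ m fp s.na _ m' (by
    rw [z4, z4, cjs w1.symm, cc t hx, cmi, cmv t hp, cjs (pl_cl hp hq ha), fx (cm3 s'.ab (cm3 s'.ac x1.symm)), ← cmv t ha.1,
      fx (cm3 s.ab (cm3 s.ac w3)), cmi, cmi]
    exact w1)
  have : ({z4 x a b c, c, a, b} : Set G).ncard = 4 := by
    rw [Set.ncard_insert_of_notMem (by simp [s.na, s.nb, s.nc]), Set.ncard_insert_of_notMem (by simp [c2, bc.symm]),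
      Set.ncard_pair s.nab]
  refine Eq.trans (congrArg _ (Set.ext fun y => ⟨fun ⟨hy, k⟩ => ?_, ?_⟩)) this
  · by_contra! n
    simp only [Set.mem_insert_iff, Set.mem_singleton_iff, not_or] at n
    obtain ⟨k1, k2, k3, k4⟩ := n
    have ny : ∀ z ∈ pl D p q, z ≠ y → ¬ Commute z (x ⊳ w ⊳ y) := fun z hz n c => n (l y hy k k3 z hz c)
    have my := h.cj x _ (h.cj w _ hy.1)
    have s2 := st my ha hb hc s.nab s.nac bc (ny a ha (Ne.symm k3)) (ny b hb (Ne.symm k4)) (ny c hc (Ne.symm k2))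
    have := s4 t my m.1 s2.mem (ny _ m (Ne.symm k1)) s2.nx (pl_c hp hq m (pl_z4 h hp hq s2 ha hb hc))
    have q1 : z4 x a b c ⊳ a ⊳ b ⊳ c ⊳ x = p ⊳ x := by rw [← s.act, cc t m.1, fx x1.symm]
    have q2 : z4 x a b c ⊳ a ⊳ b ⊳ c ⊳ w = p ⊳ w := by
      rw [fx (cm3 s.ab (cm3 s.ac w3)), ← e, cjs s'.cb.symm, cjs s'.cc'.symm, s'.act, cjs s'.ac.symm, cjs s'.bc.symm, cc t hc.1,
        cjs s'.ab.symm, cc t hb.1]
    have q3 : z4 x a b c ⊳ a ⊳ b ⊳ c ⊳ y = p ⊳ y := by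
      rw [fx (pl_c hp hq hc hy), fx (pl_c hp hq hb hy), fx (pl_c hp hq ha hy), fx (pl_c hp hq m hy), fx (pl_cl hp hq hy)]
    have q4 : z4 x a b c ⊳ a ⊳ b ⊳ c ⊳ x ⊳ w ⊳ y = p ⊳ x ⊳ w ⊳ y := by
      rw [cjj (g := p), cjj (g := p), ← q1, ← q2, ← q3]; group
    rw [s2.act, q4] at this
    exact ncr t hp my (ny p (pl_l hp) (Ne.symm k)) this
  · rintro (rfl | rfl | rfl | rfl)
    exacts [⟨m, fp⟩, ⟨hc, c1⟩, ⟨ha, na⟩, ⟨hb, b1⟩]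
theorem pl_co (ns : ¬ Sy D) (hp : p ∈ D) (hq : q ∈ dd D p) : ∃ κ, Co D p q κ := by
  have := mt (pl_sy h th) ns
  push Not at this
  obtain ⟨p', hp', q', hq', u, hu, v, hv, n1, n2, n3, n4, n5⟩ := this
  obtain ⟨g, rfl, rfl⟩ := h.pe_edge hp' hp hq' hq
  have := pl_five h th hp hq (pl_cj h.toTT g hu) (pl_cj h.toTT g hv) (mt conj_inj n1) (mt conj_inj n2) (mt conj_inj n3)
    (mt conj_inj n4) (mt conj_inj n5)
  obtain ⟨e⟩ := (Finite.card_eq (α := K4)).1 ((Nat.card_eq_fintype_card.trans card_K4).trans this.symm)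
  refine ⟨fun t => e (Equiv.swap 0 (e.symm ⟨_, pl_r hq.1, hq.2.1⟩) t), Subtype.val_injective.comp (e.injective.comp
    (Equiv.injective _)), by simp, fun y => ⟨?_, fun m => ⟨Equiv.swap 0 (e.symm ⟨_, pl_r hq.1, hq.2.1⟩) (e.symm ⟨y, m⟩), by simp⟩⟩⟩
  rintro ⟨t, rfl⟩
  exact (e _).2

end H1.Fi
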