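import Cfsg.Agent.H1.Fp
import Cfsg.Agent.H1.Fu

/-! Fischer's theorem: coordinates in the unitary case. -/

set_option autoImplicit false
set_option linter.unusedSectionVars false

namespace H1.Fi
open Cfsg H18 H28 H23 Subgroup

instance charK4 : CharP K4 2 := charP_of_injective_algebraMap (algebraMap (ZMod 2) K4).injective 2
/-- semilinear maps -/
def mk4 (s : Bool) (g t : K4) : K4 := g * cond s t (c4 t)
theorem mk4_ex : ∀ τ : K4 → K4, Function.Injective τ → τ 0 = 0 → ∃ s g, g ≠ 0 ∧ ∀ t, τ t = mk4 s g t := by decide +kernel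
theorem mk4_inv : ∀ s s' g g', (∀ t, mk4 s' g' (mk4 s g t) = t) → s = s' := by decide +kernel
theorem mk4_tri : ∀ s1 s2 s3 g1 g2 g3, g1 ≠ 0 → g2 ≠ 0 → g3 ≠ 0 → (∀ t ≠ 0, ∀ t' ≠ 0, mk4 s2 g2 (mk4 s1 g1 t) = mk4 s3 g3 t →
    mk4 s2 g2 (mk4 s1 g1 t') = mk4 s3 g3 t') → (s2 = true ↔ (s1 = true ↔ s3 = true)) := by decide +kernel
theorem mk4_f : ∀ s a b g, (s = true ↔ (a = true ↔ b = true)) → ∃ k, ∀ t, mk4 s g (mk4 a 1 t) = mk4 b 1 (k * t) := by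
  decide +kernel
theorem mk4_i : ∀ s t, mk4 s 1 (mk4 s 1 t) = t := by decide +kernel
theorem k4_tr : ∀ τ : K4 → K4, (∀ u, τ (τ u) = u) → (∀ u, τ u ≠ u) → ∀ u, τ u = u + τ 0 := by decide +kernel
theorem k4_h : ∀ a b : K4, b * a = 1 → b = c4 a := by decide +kernel
theorem k4_u : ∀ a : K4, a ≠ 0 → c4 a * a = 1 := by decide +kernel
theorem k4_c : ∀ a : K4, c4 (c4 a) = a := by decide +kernel

variable {G : Type*} [Group G] {D : Set G} {a a' b c d p q v w x y z : G} {κ : G → K4 → G} {g : G → G → K4} {t u : K4}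

theorem Co.m {κ : K4 → G} (k : Co D p q κ) (t : K4) : κ t ∈ pl D p q ∧ κ t ≠ p := (k.e _).1 ⟨t, rfl⟩
theorem s_dd (n : ¬ Commute x d) (hb : b ∈ cc2 D d x) : b ∈ dd D d := ⟨hb.1, ne_of hb.2.2 n, hb.2.1⟩
theorem FS.cc2 (h : FS D) (ha : a ∈ cc2 D d x) (hb : b ∈ cc2 D d x) : a ⊳ b ∈ cc2 D d x :=
  ⟨h.clo _ ha.1 _ hb.1, cm3 ha.2.1 hb.2.1, cm3 ha.2.2 hb.2.2⟩

/-- coherent coordinates -/
structure Uc (D : Set G) (d x : G) (κ : G → K4 → G) (g : G → G → K4) : Prop where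
  md : d ∈ D
  mx : x ∈ D
  n : ¬ Commute x d
  co : ∀ b ∈ cc2 D d x, Co D d b (κ b)
  t : ∀ a ∈ cc2 D d x, ∀ b ∈ cc2 D d x, ∀ t, a ⊳ κ a t ⊳ b = κ b (g a b * t)

variable [Finite G] (h : TP D)
include h
section
variable (th : Th D) (hd : d ∈ D) (hx : x ∈ D) (n : ¬ Commute x d)
include th hd hx n
theorem s_pr (hp : p ∈ dd D d) : ∃ b ∈ cc2 D d x, pl D d b = pl D d p := by
  obtain ⟨b, hb, c⟩ := pl_one h th hd hp hx
  exact ⟨b, ⟨hb.1, pl_cl hd hp hb, c.symm⟩, pl_eq h hd hp (pl_l hd) hb (ne_of c.symm n).symm⟩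
theorem s_sep (hp : p ∈ cc2 D d x) (hq : q ∈ cc2 D d x) (k : p ≠ q) : ∃ w ∈ cc2 D d x, Commute p w ∧ ¬ Commute q w := by
  have : q ∉ pl D d p := fun m => k (pl_un h hd (s_dd n hp) (pl_r hp.1) m hx hp.2.2.symm hq.2.2.symm (pl_l hd) (ncs n))
  simp only [pl, Set.mem_ofPred_eq, hq.1, true_and, not_forall] at this
  obtain ⟨w, hw, c1, c2, c3⟩ := this
  have m : w ∈ dd D d := ⟨hw, ne_of hq.2.1.symm c3 |>.symm, c1⟩
  obtain ⟨b, hb, e⟩ := s_pr h th hd hx n m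
  exact ⟨b, hb, ((e ▸ pl_r hb.1 :).2 p hp.1 hp.2.1 c2.symm).symm, fun c =>
    c3 ((e ▸ pl_r hw : w ∈ pl D d b).2 q hq.1 hq.2.1 c.symm).symm⟩
theorem s_3 (hp : p ∈ cc2 D d x) (hq : q ∈ cc2 D d x) (c : Commute p q) (hu : v ∈ D) (hw : w ∈ D) (c1 : Commute p v)
    (c2 : ¬ Commute q v) (c3 : Commute q w) (c4 : ¬ Commute p w) :
    ∃ z ∈ cc2 D d x, Commute p z ∧ Commute q z ∧ ¬ Commute z v ∧ ¬ Commute z w := by
  have m : q ∈ dd D p := ⟨hq.1, (ne_of c1.symm (ncs c2)).symm, c⟩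
  obtain ⟨z, hz, n1, n2⟩ := th p hp.1 q m
  exact ⟨z, ⟨hz.1, (hz.2 d hd hp.2.1.symm hq.2.1.symm).symm, (hz.2 x hx hp.2.2.symm hq.2.2.symm).symm⟩, pl_cl hp.1 m hz,
    pl_cr m hz, fun k => n1 (pl_un h hp.1 m hz (pl_l hp.1) hu k c1 (pl_r hq.1) c2),
    fun k => n2 (pl_un h hp.1 m hz (pl_r hq.1) hw k c3 (pl_l hp.1) c4)⟩
theorem s_a1 (hp : p ∈ cc2 D d x) (hq : q ∈ cc2 D d x) (k : p ≠ q) : ∃ w ∈ cc2 D d x, ¬ Commute p w ∧ ¬ Commute w q := by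
  obtain ⟨w, hw, c1, c2⟩ := s_sep h th hd hx n hp hq k
  obtain ⟨w', hw', c3, c4⟩ := s_sep h th hd hx n hq hp k.symm
  by_cases c : Commute w w'
  · obtain ⟨z, hz, -, -, a, b⟩ := s_3 h th hd hx n hw hw' c hp.1 hq.1 c1.symm (ncs c4) c3.symm (ncs c2)
    exact ⟨z, hz, ncs a, b⟩
  exact ⟨_, (FS.of h.toTT).cc2 hw hw', nc3 c1 c4, ncs (nc3' h.tt hw.1 hw'.1 c c3 c2)⟩

theorem ex_uc (ns : ¬ Sy D) : ∃ κ g, Uc D d x κ g := by
  classical
  have t := h.tt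
  have fs := FS.of h.toTT
  choose! κ hκ using fun b (hb : b ∈ cc2 D d x) => pl_co h th ns hd (s_dd n hb)
  have m : ∀ a ∈ cc2 D d x, ∀ b ∈ cc2 D d x, ¬ Commute a b → ∀ s, ¬ Commute (κ a s) b ∧ ∃ u, κ b u = a ⊳ κ a s ⊳ b :=
    fun a ha b hb c s => let ⟨k1, k2, k3⟩ := pl_m h hd (s_dd n ha) (s_dd n hb) c ((hκ a ha).m s).1 ((hκ a ha).m s).2
      ⟨k1, ((hκ b hb).e _).2 (cjs (pl_cr (s_dd n ha) ((hκ a ha).m s).1) b ▸ ⟨k2, k3⟩)⟩
  have : ∀ a ∈ cc2 D d x, ∀ b ∈ cc2 D d x, ¬ Commute a b → ∃ s g, g ≠ 0 ∧ ∀ t, a ⊳ κ a t ⊳ b = κ b (mk4 s g t) := by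
    intro a ha b hb c
    choose τ hτ using fun s => (m a ha b hb c s).2
    obtain ⟨s, g, k1, k2⟩ := mk4_ex τ (fun s s' e => (hκ a ha).inj (lin t hb.1 ((hκ a ha).m s).1.1 ((hκ a ha).m s').1.1
      (m a ha b hb c s).1 (m a ha b hb c s').1 (conj_inj (by rw [← hτ, e, hτ])))) ((hκ b hb).inj (by
        rw [hτ, (hκ a ha).z, (hκ b hb).z, cc t ha.1]))
    exact ⟨s, g, k1, fun t => by rw [← hτ, k2]⟩
  choose! s g g0 e using this
  have cs : ∀ a ∈ cc2 D d x, ∀ b ∈ cc2 D d x, ¬ Commute a b → s a b = s b a := fun a ha b hb c =>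
    mk4_inv _ _ (g a b) (g b a) fun u => (hκ a ha).inj (by
      rw [← e b hb a ha (ncs c), ← e a ha b hb c]
      exact s4sw t hb.1 ha.1 ((hκ a ha).m u).1.1 c (m a ha b hb c u).1 (pl_cr (s_dd n ha) ((hκ a ha).m u).1))
  obtain ⟨x0, h0⟩ := h.cc2_ne hd hx (ncs n)
  obtain ⟨f, hf⟩ := cocycle (r := fun a b => a = b ∨ ¬ Commute a b)
    (c := fun a b => a ∈ cc2 D d x → b ∈ cc2 D d x → ¬ Commute a b → s a b = true) h0 (fun _ _ => Or.inl rfl)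
    (fun _ _ _ _ => Or.imp Eq.symm ncs) (fun a b => ⟨fun k hb ha c => cs a ha b hb (ncs c) ▸ k ha hb (ncs c),
      fun k ha hb c => cs b hb a ha (ncs c) ▸ k hb ha (ncs c)⟩) (by
      rintro a ha b hb c hc (rfl | r1) r2 r3
      · simp
      rcases r2 with rfl | r2
      · simp [ha, hb, r1, ncs r1, cs a ha b hb r1]
      rcases r3 with rfl | r3
      · simp
      simp only [ha, hb, hc, r1, r2, r3, not_false_eq_true, forall_const]
      have k : ∀ u ≠ 0, (mk4 (s b c) (g b c) (mk4 (s a b) (g a b) u) = mk4 (s a c) (g a c) u ↔ Commute a (b ⊳ c)) := by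
        intro u hu
        have q := (hκ b hb).m (mk4 (s a b) (g a b) u)
        have q' := (hκ a ha).m u
        rw [← (hκ c hc).inj.eq_iff, ← e b hb c hc r3, cjs (pl_cr (s_dd n hb) q.1), eqv t q.1.1, ← e a ha c hc r2,
          ← e a ha b hb r1, ← cjj, ← cjj]
        exact ⟨fun k => cjx t ha.1 q'.1.1 (fs.clo _ hb.1 _ hc.1) (fun k => hu ((hκ a ha).inj (k.symm.trans (hκ a ha).z.symm)))
          k.symm, fun k => by rw [fx (q'.1.2 _ (fs.clo _ hb.1 _ hc.1) (cm3 hb.2.1 hc.2.1) k), fx k]⟩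
      exact mk4_tri _ _ _ _ _ _ (g0 a ha b hb r1) (g0 b hb c hc r3) (g0 a ha c hc r2) fun u hu u' hu' q =>
        (k u' hu').2 ((k u hu).1 q))
    (fun v hv => by
      by_cases k : x0 = v
      · exact ⟨v, hv, Or.inl k, Or.inl rfl⟩
      obtain ⟨w, hw, a, b⟩ := s_a1 h th hd hx n h0 hv k
      exact ⟨w, hw, Or.inr a, Or.inr b⟩)
    (fun v hv k z hz z' hz' r1 r2 r3 r4 => by
      by_cases c : z = z' ∨ ¬ Commute z z'
      · exact ⟨z, hz, z', hz', r1, r2, r3, r4, Or.inl rfl, c, Or.inl rfl⟩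
      simp only [not_or, not_not] at k c
      have k1 := r1.resolve_left fun e => r2.elim (fun e' => k.1 (e.trans e')) fun c => c (e ▸ k.2)
      have k2 := r2.resolve_left fun e => k1 (e ▸ k.2)
      have k3 := r3.resolve_left fun e => r4.elim (fun e' => k.1 (e.trans e')) fun c => c (e ▸ k.2)
      have m := fs.cc2 h0 hz
      have a := ncs (nc3 k.2.symm (ncs k2))
      exact ⟨_, m, _, m, Or.inr (ncl k1), Or.inr a, Or.inr (ncl k1), Or.inr a, Or.inr (ncr t h0.1 hz.1 k1), Or.inl rfl,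
        Or.inr (ncs (nc3' t h0.1 hz.1 k1 c.2.symm (ncs k3)))⟩)
    (fun v hv v' hv' k k' r => by
      simp only [not_or, not_not] at k k'
      rcases r with rfl | r
      · obtain ⟨w, hw, a, b⟩ := s_a1 h th hd hx n h0 hv k.1
        exact ⟨w, hw, Or.inr a, Or.inr b, Or.inr b⟩
      obtain ⟨z, hz, a, b, c⟩ : ∃ z ∈ cc2 D d x, Commute v z ∧ ¬ Commute x0 z ∧ ¬ Commute v' z := by
        obtain ⟨z, hz, a, b⟩ := s_sep h th hd hx n hv h0 (Ne.symm k.1)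
        by_cases c : Commute v' z
        · obtain ⟨y, hy, a, -, b, c⟩ := s_3 h th hd hx n hv hz a h0.1 hv'.1 k.2.symm (ncs b) c.symm r
          exact ⟨y, hy, a, ncs b, ncs c⟩
        exact ⟨z, hz, a, b, c⟩
      exact ⟨_, fs.cc2 hv' hz, Or.inr (nc3 k'.2 b), Or.inr (ncs (nc3' t hv'.1 hz.1 c a r)), Or.inr (ncs (ncl c))⟩)
  have : ∀ a ∈ cc2 D d x, ∀ b ∈ cc2 D d x, ∃ k, ∀ u, a ⊳ κ a (mk4 (decide (f a)) 1 u) ⊳ b =
      κ b (mk4 (decide (f b)) 1 (k * u)) := fun a ha b hb => by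
    by_cases c : Commute a b
    · exact ⟨0, fun u => by
        rw [fx (((hκ a ha).m _).1.2 b hb.1 hb.2.1 c), fx c, zero_mul, show mk4 _ 1 0 = 0 by cases decide (f b) <;> simp [mk4],
          (hκ b hb).z]⟩
    obtain ⟨k, hk⟩ := mk4_f (s a b) (decide (f a)) (decide (f b)) (g a b) (by simpa [ha, hb, c] using hf a ha b hb (Or.inr c))
    exact ⟨k, fun u => by rw [e a ha b hb c, hk]⟩
  choose! k hk using this
  exact ⟨fun b u => κ b (mk4 (decide (f b)) 1 u), k, hd, hx, n, fun b hb => ⟨(hκ b hb).inj.comp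
    (Function.Involutive.injective (mk4_i _)), by
      rw [show mk4 _ 1 0 = 0 by cases decide (f b) <;> simp [mk4], (hκ b hb).z], fun y => Iff.trans
      ⟨fun ⟨_, e⟩ => ⟨_, e⟩, fun ⟨u, e⟩ => ⟨mk4 (decide (f b)) 1 u, by rw [mk4_i, e]⟩⟩ ((hκ b hb).e y)⟩, hk⟩
end

namespace Uc
variable (k : Uc D d x κ g)
include k
theorem m (ha : a ∈ cc2 D d x) (t : K4) : κ a t ∈ dd D d := pl_dd k.md (s_dd k.n ha) ((k.co a ha).m t).1 ((k.co a ha).m t).2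
theorem cm (ha : a ∈ cc2 D d x) (t : K4) (hw : w ∈ dd D d) : Commute (κ a t) w ↔ Commute a w :=
  ⟨fun c => by_contra fun n => (pl_m h k.md (s_dd k.n ha) hw n ((k.co a ha).m t).1 ((k.co a ha).m t).2).1 c,
    ((k.co a ha).m t).1.2 w hw.1 hw.2.2⟩
theorem cm' (ha : a ∈ cc2 D d x) (hb : b ∈ cc2 D d x) (t u : K4) : Commute (κ a t) (κ b u) ↔ Commute a b := by
  rw [k.cm h ha t (k.m h hb u), Commute.symm_iff, k.cm h hb u (s_dd k.n ha), Commute.symm_iff]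
theorem c0 (ha : a ∈ cc2 D d x) (t : K4) : Commute a (κ a t) := pl_cr (s_dd k.n ha) ((k.co a ha).m t).1
theorem ne (ha : a ∈ cc2 D d x) (ht : t ≠ 0) : a ≠ κ a t := fun e => ht ((k.co a ha).inj (e.symm.trans (k.co a ha).z.symm))
theorem zr (ha : a ∈ cc2 D d x) (hb : b ∈ cc2 D d x) : g a b = 0 ↔ Commute a b := by
  have := k.t a ha b hb 1
  refine ⟨fun e => ?_, fun c => ?_⟩
  · rw [e, zero_mul, (k.co b hb).z] at this
    exact cjx h.tt ha.1 (k.m h ha 1).1 hb.1 (k.ne h ha one_ne_zero) this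
  rw [fx ((k.cm h ha 1 (s_dd k.n hb)).2 c), fx c, mul_one] at this
  exact (k.co b hb).inj (this.symm.trans (k.co b hb).z.symm)
theorem inv (ha : a ∈ cc2 D d x) (hb : b ∈ cc2 D d x) (c : ¬ Commute a b) : g b a * g a b = 1 := (k.co a ha).inj (by
  rw [← k.t b hb a ha, ← mul_one (g a b), ← k.t a ha b hb]
  exact s4sw h.tt hb.1 ha.1 (k.m h ha 1).1 c (mt (k.cm h ha 1 (s_dd k.n hb)).1 c) (k.c0 h ha 1))
theorem herm (ha : a ∈ cc2 D d x) (hb : b ∈ cc2 D d x) : g b a = c4 (g a b) := by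
  by_cases c : Commute a b
  · rw [(k.zr h ha hb).2 c, (k.zr h hb ha).2 c.symm, map_zero]
  exact k4_h _ _ (k.inv h ha hb c)
theorem tr (hc : c ∈ cc2 D d x) (hb : b ∈ cc2 D d x) (t u : K4) : c ⊳ κ c t ⊳ κ b u = κ b (u + g c b * t) := by
  by_cases n : Commute c b
  · rw [(k.zr h hc hb).2 n, zero_mul, add_zero, fx ((k.cm' h hc hb t u).2 n), fx ((k.cm h hb u (s_dd k.n hc)).2 n.symm).symm]
  by_cases q : t = 0
  · rw [q, (k.co c hc).z, cc h.tt hc.1, mul_zero, add_zero]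
  have n' : ∀ u, ¬ Commute c (κ b u) := fun u => ncs (mt (k.cm h hb u (s_dd k.n hc)).1 (ncs n))
  have : ∀ u, ∃ s, κ b s = c ⊳ κ c t ⊳ κ b u := fun u => ((k.co b hb).e _).2 (by
    have := (pl_m h k.md (s_dd k.n hc) (k.m h hb u) (n' u) ((k.co c hc).m t).1 ((k.co c hc).m t).2).2
    rwa [pl_eq h k.md (s_dd k.n hb) (pl_l k.md) ((k.co b hb).m u).1 ((k.co b hb).m u).2.symm, ← cjs (k.c0 h hc t)] at this)
  choose τ hτ using this
  rw [← hτ, k4_tr τ (fun u => (k.co b hb).inj (by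
    rw [hτ, hτ, cjs (k.c0 h hc t), cc h.tt hc.1, cc h.tt (k.m h hc t).1])) fun u e => n' u
      (cjx h.tt hc.1 (k.m h hc t).1 (k.m h hb u).1 (k.ne h hc q) (by rw [← hτ, e])),
    (k.co b hb).inj (show κ b (τ 0) = κ b (g c b * t) by rw [hτ, (k.co b hb).z, k.t c hc b hb])]
theorem lam (hc : c ∈ cc2 D d x) (hb : b ∈ cc2 D d x) (n : ¬ Commute c b) (u : K4) :
    c ⊳ κ b u = κ (c ⊳ b) (g c (c ⊳ b) * g b c * u) := by
  rw [mul_assoc (g c _), ← k.t c hc _ ((FS.of h.toTT).cc2 hc hb), cjs (k.c0 h hc _), cc h.tt hc.1, eqv h.tt hc.1, k.t c hc b hb,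
    ← mul_assoc (g c b), k.inv h hb hc (ncs n), one_mul]
theorem cj (hc : c ∈ cc2 D d x) (hb : b ∈ cc2 D d x) (n : ¬ Commute c b) (t u : K4) :
    κ c t ⊳ κ b u = κ (c ⊳ b) (g c (c ⊳ b) * g b c * (u + g c b * t)) := by
  rw [← k.lam h hc hb n, ← k.tr h hc hb, cc h.tt hc.1]
theorem add (hc : c ∈ cc2 D d x) (hb : b ∈ cc2 D d x) (n : ¬ Commute c b) (ha : a ∈ cc2 D d x) :
    g a (c ⊳ b) = g c (c ⊳ b) * g b c * (g a b + g c b * g a c) := by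
  have m := (FS.of h.toTT).cc2 hc hb
  have := k.t a ha _ m 1
  rw [cjj (g := κ a 1), cjj, k.t a ha b hb, k.t a ha c hc, k.cj h hc hb n] at this
  simpa using ((k.co _ m).inj this).symm
theorem xc (ha : a ∈ cc2 D d x) : Commute (κ a t) x ↔ t = 0 :=
  ⟨fun c => (k.co a ha).inj ((pl_un h k.md (s_dd k.n ha) ((k.co a ha).m t).1 (pl_r ha.1) k.mx c ha.2.2.symm (pl_l k.md)
    (ncs k.n)).trans (k.co a ha).z.symm), fun e => by rw [e, (k.co a ha).z]; exact ha.2.2.symm⟩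
theorem un (ha : a ∈ cc2 D d x) (hb : b ∈ cc2 D d x) (e : κ a t = κ b u) : a = b := by
  have := pl_eq h k.md (s_dd k.n ha) (pl_l k.md) ((k.co a ha).m t).1 ((k.co a ha).m t).2.symm
  rw [e, pl_eq h k.md (s_dd k.n hb) (pl_l k.md) ((k.co b hb).m u).1 ((k.co b hb).m u).2.symm] at this
  exact pl_un h k.md (s_dd k.n ha) (pl_r ha.1) (this ▸ pl_r hb.1) k.mx ha.2.2.symm hb.2.2.symm (pl_l k.md) (ncs k.n)
theorem sur (th : Th D) (hp : p ∈ dd D d) : ∃ b ∈ cc2 D d x, ∃ t, κ b t = p :=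
  let ⟨b, hb, e⟩ := s_pr h th k.md k.mx k.n hp
  ⟨b, hb, ((k.co b hb).e p).2 ⟨e ▸ pl_r hp.1, hp.2.1⟩⟩
end Uc

end H1.Fi
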