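import Cfsg.Agent.H1.Fq
import Cfsg.Agent.H1.Fo1

/-! Fischer's theorem: unitary spaces. -/

set_option autoImplicit false
set_option linter.unusedSectionVars false
set_option linter.unusedSimpArgs false

namespace H1.Fi
open Cfsg H18 H28 H23 Module

variable {G : Type*} [Group G] {V : Type} [AddCommGroup V] [Module K4 V] [Finite V] {Φ : Form c4 V}
  {A : Set G} {π : V → G} {e f m m' p u v w z z' : V} {y y' : G}

/-- isotropic vectors -/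
abbrev PU (Φ : Form c4 V) : Set V := {v | v ≠ 0 ∧ Φ.B v v = 0}
theorem k4_01 : ∀ t : K4, t = c4 t → t = 0 ∨ t = 1 := by decide +kernel
theorem two4 (v : V) : v + v = 0 := by rw [← two_smul K4 v, show (2 : K4) = 0 by decide, zero_smul]
theorem mv4 : u + v = w ↔ u = w + v := ⟨fun h => by rw [← h, add_assoc, two4, add_zero], fun h => by
  rw [h, add_assoc, two4, add_zero]⟩
/-- a primitive cube root of one -/
def om : K4 := ⟨0, 1⟩

theorem pmU (nd : Φ.Nondeg) (he : Φ.ε = 1) : PM Φ (PU Φ) where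
  nd := nd
  eps := he
  un := k4_u
  ne v hv := hv.1
  nm v hv := hv.2.trans (by decide)
  cl v hv w hw := by
    have := Φ.symm w v
    refine ⟨fun q => hv.1 ?_, ?_⟩
    · have q' := mv4.1 q
      have := congrArg (Φ.B w) q'
      simp only [bx, hw.2, mul_zero, zero_add] at this
      simpa [this] using q'
    simp only [bx, hv.2, hw.2, he] at *
    grind
  sc v hv t ht := ⟨smul_ne_zero ht hv.1, by simp [hv.2]⟩

namespace PM
variable {P : Set V} (h : PM Φ P)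
include h
theorem n01 (v : V) : Φ.B v v = 0 ∨ Φ.B v v = 1 := k4_01 _ (h.sym v v)
theorem nadd (u v : V) : Φ.B (u + v) (u + v) = Φ.B u u + Φ.B v v + (Φ.B u v + c4 (Φ.B u v)) := by
  simp only [bx, h.sym u v]; ring
theorem iso_all {N : Set V} (n0 : 0 ∈ N) (ni : ∀ v ∈ N, Φ.B v v = 0) (ns : ∀ v ∈ N, ∀ t : K4, t • v ∈ N)
    (n1 : ∀ u ∈ N, ∀ v ∈ N, v + Φ.B u v • u ∈ N) (n2 : ∀ u ∈ N, ∀ v ∈ N, Φ.B u v = 0 → u + v ∈ N)
    (hv : v ∈ Submodule.span K4 N) (q : Φ.B v v = 0) : v ∈ N := by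
  have k2 : ∀ u ∈ N, ∀ v ∈ N, Φ.B u v = 0 ∨ Φ.B u v = 1 → u + v ∈ N := fun u hu v hv q => q.elim (n2 u hu v hv) fun q => by
    simpa [q, add_comm] using n1 u hu v hv
  have k3 : ∀ u ∈ N, ∀ v ∈ N, ∀ w ∈ N, Φ.B u v = Φ.B v w → ¬ (Φ.B u v = 0 ∨ Φ.B u v = 1) → ¬ (Φ.B w u = 0 ∨ Φ.B w u = 1) →
      ∃ a ∈ N, ∃ b ∈ N, u + v + w = a + b := fun u hu v hv w hw q a b => by
    refine ⟨_, ns _ (n1 u hu v hv) (c4 (Φ.B u v) * Φ.B w u), _, n1 v hv _ (n1 u hu w hw), ?_⟩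
    obtain ⟨k1, k2⟩ := (by decide +kernel : ∀ a b : K4, ¬ (a = 0 ∨ a = 1) → ¬ (b = 0 ∨ b = 1) →
      1 = c4 a * b * a + c4 b ∧ 1 = c4 a * b + (a + c4 b * c4 a)) _ _ a b
    simp only [bx, ← q, h.sym u v, h.sym w u]
    linear_combination (norm := module) k1 • u + k2 • v
  have k4 : ∀ u ∈ N, ∀ v ∈ N, ∀ w ∈ N, ∃ a ∈ N, ∃ b ∈ N, u + v + w = a + b := fun u hu v hv w hw => by
    by_cases a : Φ.B u v = 0 ∨ Φ.B u v = 1
    · exact ⟨_, k2 u hu v hv a, w, hw, rfl⟩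
    by_cases b : Φ.B v w = 0 ∨ Φ.B v w = 1
    · exact ⟨u, hu, _, k2 v hv w hw b, add_assoc _ _ _⟩
    by_cases c : Φ.B w u = 0 ∨ Φ.B w u = 1
    · exact ⟨_, k2 w hw u hu c, v, hv, by abel⟩
    rcases (by decide +kernel : ∀ a b c : K4, ¬ (a = 0 ∨ a = 1) → ¬ (b = 0 ∨ b = 1) → ¬ (c = 0 ∨ c = 1) →
      a = b ∨ b = c ∨ c = a) _ _ _ a b c with q | q | q
    · exact k3 u hu v hv w hw q a c
    · exact (by abel : v + w + u = u + v + w) ▸ k3 v hv w hw u hu q b a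
    · exact (by abel : w + u + v = u + v + w) ▸ k3 w hw u hu v hv q c b
  have : ∀ a ∈ N, ∀ b ∈ N, ∃ a' ∈ N, ∃ b' ∈ N, v + a + b = a' + b' := by
    clear q
    induction hv using Submodule.span_induction with
    | mem x hx => exact k4 x hx
    | zero => exact fun a ha b hb => ⟨a, ha, b, hb, by simp⟩
    | add x y _ _ hx hy =>
      intro a ha b hb
      obtain ⟨a', ha', b', hb', q⟩ := hy a ha b hb
      obtain ⟨a'', ha'', b'', hb'', q'⟩ := hx a' ha' b' hb'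
      exact ⟨_, ha'', _, hb'', by rw [← q', add_assoc x a', ← q]; abel⟩
    | smul c x _ hx =>
      intro a ha b hb
      by_cases q : c = 0
      · exact ⟨a, ha, b, hb, by simp [q]⟩
      obtain ⟨a', ha', b', hb', q'⟩ := hx _ (ns a ha c⁻¹) _ (ns b hb c⁻¹)
      exact ⟨_, ns _ ha' c, _, ns _ hb' c, by rw [← smul_add, ← q']; simp [q]⟩
  obtain ⟨a, ha, b, hb, k⟩ := this 0 n0 0 n0
  rw [add_zero, add_zero] at k
  rw [k, h.nadd, ni a ha, ni b hb, add_zero, zero_add] at q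
  exact k ▸ k2 a ha b hb (k4_01 _ (by grind))
variable (he : Φ.B e e = 0) (H : ∀ m, (∀ p, Φ.B p p = 0 → Φ.B e p = 0 → Φ.B m p = 0) → ∃ a : K4, m = a • e)
include he H
theorem u0 (n : ∀ a : K4, m ≠ a • e) (c : K4) : ∃ p, Φ.B e p = 0 ∧ Φ.B p p = 0 ∧ Φ.B m p = c := by
  have := mt (H m) (not_exists.2 n)
  push Not at this
  obtain ⟨p, a, b, k⟩ := this
  exact ⟨(c / Φ.B m p) • p, by simp [b], by simp [a], by simp [k]⟩
theorem ua (m : V) : ∃ p, Φ.B e p = 0 ∧ Φ.B p p = 0 ∧ Φ.B (m + p) (m + p) = 0 := by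
  rcases h.n01 m with q | q
  · exact ⟨0, by simp, by simp, by simpa using q⟩
  obtain ⟨p, a, b, c⟩ := h.u0 he H (m := m) (by rintro a rfl; simp [he] at q) om
  exact ⟨p, a, b, by rw [h.nadd, q, b, c]; decide⟩
theorem ub (o : Φ.B e m = 0) (o' : Φ.B e m' = 0) (q : Φ.B m m = 1) (q' : Φ.B m' m' = 1) (r : Φ.B (m + m') (m + m') = 0) :
    ∃ p, Φ.B e p = 0 ∧ Φ.B p p = 0 ∧ Φ.B (m + p) (m + p) = 0 ∧ Φ.B (m' + p) (m' + p) = 0 := by
  obtain ⟨s, rfl⟩ : ∃ s, m' = m + s := ⟨m + m', by rw [← add_assoc, two4, zero_add]⟩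
  rw [← add_assoc, two4, zero_add] at r
  rw [map_add, o, zero_add] at o'
  rw [h.nadd, q, r] at q'
  suffices ∃ p, Φ.B e p = 0 ∧ Φ.B p p = 0 ∧ Φ.B m p + c4 (Φ.B m p) = 1 ∧ Φ.B s p + c4 (Φ.B s p) = 0 by
    obtain ⟨p, a, b, c, d⟩ := this
    refine ⟨p, a, b, by rw [h.nadd, q, b, c]; decide, ?_⟩
    simp only [bx, h.sym m s, h.sym m p, h.sym s p, q, r, b]; grind
  rcases k4_01 (Φ.B m s) (by grind) with k | k
  · by_cases n : ∀ a : K4, s ≠ a • e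
    · obtain ⟨t, a, b, c⟩ := h.u0 he H n 1
      obtain ⟨x, y, k1, k2⟩ := (by decide +kernel : ∀ g : K4, ∃ x y : K4,
        c4 x * x + (c4 x * g + x * c4 g) + (y + c4 y) = 0 ∧ x + g + c4 (x + g) = 1) (Φ.B m t)
      refine ⟨x • m + t + y • s, by simp [a, o, o'], ?_, ?_, ?_⟩ <;>
        simp only [bx, h.sym m s, h.sym m t, h.sym s t, q, r, b, c, k, map_zero, map_one, mul_zero, add_zero, mul_one, zero_add]
      · linear_combination k1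
      · exact k2
      · decide
    push Not at n
    obtain ⟨a, rfl⟩ := n
    obtain ⟨p, a, b, c⟩ := h.u0 he H (m := m) (by rintro a rfl; simp [he] at q) om
    exact ⟨p, a, b, by rw [c]; decide, by simp [a]⟩
  exact ⟨om • s, by simp [o'], by simp [r], by rw [Φ.B_smul_right, k]; decide, by simp [r]⟩
omit he H in
theorem uc (q : Φ.B m m = 1) (z1 : Φ.B z z = 0) (z2 : Φ.B z' z' = 0) (r1 : Φ.B (m + z) (m + z) = 0)
    (r2 : Φ.B (m + z') (m + z') = 0) : ∃ a b : K4, Φ.B (m + a • z) (m + a • z) = 0 ∧ Φ.B (m + b • z') (m + b • z') = 0 ∧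
      Φ.B (a • z + b • z') (a • z + b • z') = 0 := by
  rw [h.nadd, q] at r1 r2
  obtain ⟨a, b, k⟩ := (by decide +kernel : ∀ x y z : K4, 1 + 0 + (x + c4 x) = 0 → 1 + 0 + (y + c4 y) = 0 → ∃ a b : K4,
    1 + 0 + (a * x + c4 (a * x)) = 0 ∧ 1 + 0 + (b * y + c4 (b * y)) = 0 ∧
      0 + 0 + (b * (c4 a * z) + c4 (b * (c4 a * z))) = 0) _ _ (Φ.B z z') (z1 ▸ r1) (z2 ▸ r2)
  refine ⟨a, b, ?_⟩
  rw [h.nadd, h.nadd, h.nadd]
  simpa only [Φ.B_smul_right, Φ.B_smul_left, q, z1, z2, mul_zero] using k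
end PM

/-- displacement vectors -/
def Rp (Φ : Form c4 V) (π : V → G) (e f : V) (y : G) (m : V) : Prop :=
  Φ.B e m = 0 ∧ ∃ s : K4, Φ.B (f + m + s • e) (f + m + s • e) = 0 ∧ y = π (f + m + s • e)

namespace LM
variable (h : LM Φ (PU Φ) A π)
include h
theorem cmU (hu : u ∈ PU Φ) (hv : v ∈ PU Φ) : Commute (π u) (π v) ↔ Φ.B u v = 0 :=
  (h.com hu hv).trans (or_iff_right_of_imp fun q => by obtain ⟨t, rfl⟩ := (h.eq u hu v hv).1 q; simp [hu.2])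
theorem aoU (he : e ∈ PU Φ) (hy : y ∈ Ao A (π e)) : ∃ v ∈ PU Φ, Φ.B e v = 1 ∧ y = π v := by
  obtain ⟨v, hv, rfl⟩ := h.sur hy.1
  have n := h.nc0 he hv (ncs hy.2)
  exact ⟨_, h.sc v hv _ (inv_ne_zero n), by simp [n], (h.smul hv (inv_ne_zero n)).symm⟩
theorem cjU (he : e ∈ PU Φ) (hv : v ∈ PU Φ) (q : Φ.B e v = 1) : v + e ∈ PU Φ ∧ π e ⊳ π v = π (v + e) := by
  simpa [q] using And.intro (h.cl v hv e he) (h.cj v hv e he)
theorem adU (he : e ∈ PU Φ) (hu : u ∈ PU Φ) (hv : v ∈ PU Φ) (q : Φ.B e u = 1) (q' : Φ.B e v = 1) :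
    Ad (π e) (π u) (π v) ↔ Φ.B (u + v) (u + v) = 0 := by
  rw [Ad, (h.cjU he hv q').2, h.cmU hu hv, h.cmU hu (h.cjU he hv q').1, h.nadd, hu.2, hv.2, map_add, h.sym e u, q]
  generalize Φ.B u v = t
  revert t; decide +kernel
variable (he : e ∈ PU Φ) (H : ∀ m, (∀ p, Φ.B p p = 0 → Φ.B e p = 0 → Φ.B m p = 0) → ∃ a : K4, m = a • e)
include he
theorem injU (H : ∀ m, (∀ p, Φ.B p p = 0 → Φ.B e p = 0 → Φ.B m p = 0) → ∃ a : K4, m = a • e) : Inj A (π e) := by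
  intro y hy y' hy' k
  obtain ⟨u, hu, q, rfl⟩ := h.aoU he hy
  obtain ⟨v, hv, q', rfl⟩ := h.aoU he hy'
  have q1 : Φ.B u e = 1 := by rw [h.sym, q, map_one]
  have q2 : Φ.B v e = 1 := by rw [h.sym, q', map_one]
  obtain ⟨a, ha⟩ := H (v + u) fun p a b => by
    by_cases n : p + Φ.B u p • e = 0
    · rw [mv4.1 n]; simp only [bx, q1, q2]; grind
    have m : p + Φ.B u p • e ∈ PU Φ := ⟨n, by simp [a, b, h.sym e p, he.2]⟩
    have o : Φ.B u (p + Φ.B u p • e) = 0 := by simp only [bx, q1]; grind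
    have := (h.cmU hv m).1 ((k _ ⟨h.mem m, ne_of ((h.cmU hu m).2 o) hy.2, (h.cmU he m).2 (by simp [b, he.2])⟩).1
      ((h.cmU hu m).2 o))
    simp only [bx, q2] at this ⊢; grind
  obtain rfl := mv4.1 ha
  have := hv.2
  simp only [h.nadd, bx, he.2, hu.2, q, mul_zero, mul_one, zero_add, k4_c] at this
  rcases k4_01 a (by grind) with rfl | rfl
  · exact Or.inl (by simp)
  · exact Or.inr (by simp [(h.cjU he hu q).2, add_comm])
variable (q : Φ.B e f = 1)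
include q
theorem rp1 (r : Rp Φ π e f y m) : ∃ v ∈ PU Φ, Φ.B e v = 1 ∧ y = π v ∧ ∃ s : K4, v = f + m + s • e := by
  obtain ⟨a, s, b, c⟩ := r
  have : Φ.B e (f + m + s • e) = 1 := by simp [q, a, he.2]
  exact ⟨_, ⟨fun k => by simp [k] at this, b⟩, this, c, s, rfl⟩
theorem rp2 (hy : y ∈ Ao A (π e)) : ∃ m, Rp Φ π e f y m := by
  obtain ⟨v, hv, a, rfl⟩ := h.aoU he hy
  exact ⟨f + v, by simp only [bx, q, a]; decide, 0, by simpa [← add_assoc, two4] using hv.2⟩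
theorem rp3 (o : Φ.B e m = 0) : ∃ y ∈ Ao A (π e), Rp Φ π e f y m := by
  have r : Rp Φ π e f (π (f + m + (om * Φ.B (f + m) (f + m)) • e)) m := ⟨o, _, by
    simp only [h.nadd (f + m), Φ.B_smul_right, Φ.B_smul_left, he.2, mul_zero, h.sym e (f + m), map_add (Φ.B e), q, o]
    rcases h.n01 (f + m) with k | k <;> rw [k] <;> decide, rfl⟩
  obtain ⟨v, hv, a, b, -⟩ := h.rp1 he q r
  exact ⟨_, b ▸ ⟨h.mem hv, fun c => by simp [(h.cmU he hv).1 c.symm] at a⟩, r⟩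
theorem rp4 (r : Rp Φ π e f y m) (r' : Rp Φ π e f y' m') : Ad (π e) y y' ↔ Φ.B (m + m') (m + m') = 0 := by
  obtain ⟨u, hu, a, rfl, s, rfl⟩ := h.rp1 he q r
  obtain ⟨v, hv, b, rfl, t, rfl⟩ := h.rp1 he q r'
  rw [h.adU he hu hv a b, show f + m + s • e + (f + m' + t • e) = (f + f) + (m + m' + (s + t) • e) by module, two4, zero_add,
    h.nadd (m + m')]
  simp [he.2, h.sym e, r.1, r'.1]
include H
theorem scU (hf : Φ.B f f = 0) : SC A (π e) (π f) := by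
  have r0 : Rp Φ π e f (π f) 0 := ⟨by simp, 0, by simpa using hf⟩
  have a0 : ∀ {y m}, Rp Φ π e f y m → (Ad (π e) (π f) y ↔ Φ.B m m = 0) := fun r => by simpa using h.rp4 he q r0 r
  have a1 : ∀ {y m y' m'}, Rp Φ π e f y m → Rp Φ π e f y' m' → (Ad (π e) y y' ↔ Φ.B (m' + m) (m' + m) = 0) := fun r r' =>
    add_comm (G := V) _ _ ▸ h.rp4 he q r r'
  refine ⟨fun y hy => ?_, fun y hy n z hz z' hz' k1 k2 k3 k4 => ?_, fun y hy y' hy' n n' k => ?_⟩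
  · obtain ⟨m, r⟩ := h.rp2 he q hy
    obtain ⟨p, a, b, c⟩ := h.ua he.2 H m
    obtain ⟨z, hz, r'⟩ := h.rp3 he q a
    exact ⟨z, hz, (a0 r').2 b, (a1 r' r).2 c⟩
  · obtain ⟨m, r⟩ := h.rp2 he q hy
    obtain ⟨w, s⟩ := h.rp2 he q hz
    obtain ⟨w', s'⟩ := h.rp2 he q hz'
    rw [a0 s] at k1
    rw [a0 s'] at k3
    obtain ⟨a, b, c1, c2, c3⟩ := h.uc ((h.n01 m).resolve_left (mt (a0 r).2 n)) k1 k3 ((a1 s r).1 k2) ((a1 s' r).1 k4)
    obtain ⟨p, hp, t⟩ := h.rp3 he q (m := a • w) (by simp [s.1])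
    obtain ⟨p', hp', t'⟩ := h.rp3 he q (m := b • w') (by simp [s'.1])
    exact ⟨p, hp, p', hp', (a0 t).2 (by simp [k1]), (a1 t r).2 c1, (a0 t').2 (by simp [k3]), (a1 t' r).2 c2,
      (a1 s t).2 (by simp [k1]), (h.rp4 he q t t').2 c3, (a1 t' s').2 (by simp [k3])⟩
  · obtain ⟨m, r⟩ := h.rp2 he q hy
    obtain ⟨m', r'⟩ := h.rp2 he q hy'
    obtain ⟨p, a, b, c, d⟩ := h.ub he.2 H r.1 r'.1 ((h.n01 m).resolve_left (mt (a0 r).2 n))
      ((h.n01 m').resolve_left (mt (a0 r').2 n')) ((h.rp4 he q r r').1 k)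
    obtain ⟨z, hz, s⟩ := h.rp3 he q a
    exact ⟨z, hz, (a0 s).2 b, (a1 s r).2 c, (a1 s r').2 d⟩
end LM

end H1.Fi
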