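import Cfsg.Agent.H1.FrobCons

/-!
Frobenius complements containing a quaternion group; dicyclic groups as complements.
-/

set_option autoImplicit false

namespace H1

open Subgroup

universe u

theorem isSquare_card_of_anticomm_zmod {p : ℕ} [Fact p.Prime] (hp : p ≠ 2) {M : Type*}
    [AddCommGroup M] [Finite M] [Module (ZMod p) M] (X Y : M →+ M) (hX : Function.Injective X)
    (hY : Function.Injective Y) (h : ∀ v, X (Y v) = -Y (X v)) : IsSquare (Nat.card M) := by
  let X' := X.toZModLinearMap p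
  let Y' := Y.toZModLinearMap p
  have h1 : X' * Y' = (-1 : ZMod p) • (Y' * X') := by
    ext v; simpa [X', Y'] using h v
  have h2 := congrArg LinearMap.det h1
  rw [LinearMap.det_smul, map_mul, map_mul, mul_comm (LinearMap.det Y')] at h2
  have hX' : IsUnit (LinearMap.det X') :=
    LinearMap.isUnit_det _ ((LinearMap.isUnit_iff_ker_eq_bot _).2 (LinearMap.ker_eq_bot.2 hX))
  have hY' : IsUnit (LinearMap.det Y') :=
    LinearMap.isUnit_det _ ((LinearMap.isUnit_iff_ker_eq_bot _).2 (LinearMap.ker_eq_bot.2 hY))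
  have h3 : (-1 : ZMod p) ^ Module.finrank (ZMod p) M = 1 := by
    have := (hX'.mul hY').ne_zero
    exact mul_right_cancel₀ this (by rw [← h2, one_mul])
  have h4 : Even (Module.finrank (ZMod p) M) := by
    by_contra h5
    rw [(Nat.not_even_iff_odd.1 h5).neg_one_pow] at h3
    have : Fact (2 < p) := ⟨lt_of_le_of_ne (Fact.out : p.Prime).two_le hp.symm⟩
    exact ZMod.neg_one_ne_one h3
  rw [Module.natCard_eq_pow_finrank (K := ZMod p)]
  exact h4.isSquare_pow _

theorem isSquare_card_of_anticomm (n : ℕ) : ∀ (M : Type u) [AddCommGroup M] [Finite M],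
    Nat.card M = n → Odd n → ∀ X Y : M →+ M, Function.Injective X → Function.Injective Y →
      (∀ v, X (Y v) = -Y (X v)) → IsSquare n := by
  induction n using Nat.strong_induction_on with
  | _ n ih =>
  intro M _ _ hM hodd X Y hX hY h
  by_cases hn : n = 1
  · rw [hn]; exact IsSquare.one
  obtain ⟨p, hp, hpn⟩ := Nat.exists_prime_and_dvd hn
  have : Fact p.Prime := ⟨hp⟩
  have hp2 : p ≠ 2 := by
    rintro rfl
    exact (Nat.not_even_iff_odd.2 hodd) (even_iff_two_dvd.2 hpn)
  let f : M →+ M := nsmulAddMonoidHom p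
  have hker : ∀ Z : M →+ M, ∀ v ∈ f.ker, Z v ∈ f.ker := fun Z v hv => by
    have : p • v = 0 := hv
    change p • Z v = 0
    rw [← map_nsmul, this, map_zero]
  have hran : ∀ Z : M →+ M, ∀ v ∈ f.range, Z v ∈ f.range := by
    rintro Z _ ⟨v, rfl⟩
    exact ⟨Z v, by simp [f]⟩
  have hres : ∀ (S : AddSubgroup M), (∀ Z : M →+ M, ∀ v ∈ S, Z v ∈ S) →
      ∃ X' Y' : S →+ S, Function.Injective X' ∧ Function.Injective Y' ∧
        ∀ v, X' (Y' v) = -Y' (X' v) := fun S hS =>
    ⟨(X.comp S.subtype).codRestrict S fun v => hS X v v.2,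
      (Y.comp S.subtype).codRestrict S fun v => hS Y v v.2,
      fun a b hab => Subtype.ext (hX (congrArg Subtype.val hab)),
      fun a b hab => Subtype.ext (hY (congrArg Subtype.val hab)),
      fun v => Subtype.ext (h v)⟩
  have hcard : n = Nat.card f.range * Nat.card f.ker := by
    rw [← hM, AddSubgroup.card_eq_card_quotient_mul_card_addSubgroup f.ker,
      Nat.card_congr (QuotientAddGroup.quotientKerEquivRange f).toEquiv]
  have h1 : IsSquare (Nat.card f.ker) := by
    obtain ⟨X', Y', a, b, c⟩ := hres _ hker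
    let _ : Module (ZMod p) f.ker := AddCommGroup.zmodModule fun x => Subtype.ext x.2
    exact isSquare_card_of_anticomm_zmod hp2 X' Y' a b c
  have h2 : 1 < Nat.card f.ker := by
    obtain ⟨x, hx⟩ := exists_prime_addOrderOf_dvd_card' (G := M) p (hM ▸ hpn)
    rw [Finite.one_lt_card_iff_nontrivial]
    refine ⟨⟨⟨x, ?_⟩, 0, fun h0 => ?_⟩⟩
    · change p • x = 0
      rw [← hx, addOrderOf_nsmul_eq_zero]
    · have : x = 0 := congrArg Subtype.val h0
      rw [this, addOrderOf_zero] at hx
      exact hp.one_lt.ne hx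
  have h3 : IsSquare (Nat.card f.range) := by
    obtain ⟨X', Y', a, b, c⟩ := hres _ hran
    have hpos : 0 < Nat.card f.range := Nat.card_pos
    refine ih _ (by rw [hcard]; nlinarith) f.range rfl ?_ X' Y' a b c
    rw [hcard] at hodd
    exact (Nat.odd_mul.1 hodd).1
  rw [hcard]
  exact h3.mul h1

variable {H : Type*} [Group H]

theorem FPF.odd_isSquare {m : ℕ} (h : FPF H m) {x y z : H} (hz : z ≠ 1) (hz2 : z * z = 1)
    (hxy : x * y = z * y * x) : Odd m ∧ IsSquare m := by
  obtain ⟨V, _, _, φ, rfl, hφ⟩ := h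
  have hf : MonoidHom.FixedPointFree (φ z) := hφ z hz
  have hinv : Function.Involutive (φ z) := fun v => by
    rw [← MulAut.mul_apply, ← map_mul, hz2, map_one, MulAut.one_apply]
  have hodd := hf.odd_card_of_involutive hinv
  refine ⟨hodd, ?_⟩
  have hneg := hf.coe_eq_inv_of_involutive hinv
  have hcomm := hf.commute_all_of_involutive hinv
  let _ : CommGroup V := { ‹Group V› with mul_comm := fun a b => (hcomm a b).eq }
  refine isSquare_card_of_anticomm _ (Additive V) rfl hodd
    (MonoidHom.toAdditive (φ x).toMonoidHom) (MonoidHom.toAdditive (φ y).toMonoidHom)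
    (φ x).injective (φ y).injective fun v => ?_
  change φ x (φ y v.toMul) = (φ y (φ x v.toMul))⁻¹
  rw [← MulAut.mul_apply, ← map_mul, hxy, map_mul, map_mul, MulAut.mul_apply, MulAut.mul_apply, hneg]

theorem exists_quat_rep {R M : Type*} [CommRing R] [AddCommGroup M] [Module R M] {n : ℕ}
    (hn : n ≠ 0) (a b : Module.End R M) (ha : a ^ n = -1) (hb : b * b = -1) (hab : a * b * a = b)
    (h2 : ∀ v : M, -v = v → v = 0) (hk : ∀ k, 0 < k → k < 2 * n → ∀ v : M, (a ^ k) v = v → v = 0) :
    ∃ ρ : Representation R (QuaternionGroup n) M, ∀ h, h ≠ 1 → ∀ v, ρ h v = v → v = 0 := by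
  have ha2 : a ^ (2 * n) = 1 := by rw [mul_comm, pow_mul, ha]; simp
  have hb4 : b ^ 4 = 1 := by
    rw [show b ^ 4 = (b * b) * (b * b) by simp only [pow_succ, pow_zero, one_mul, mul_assoc], hb]; simp
  let ua : (Module.End R M)ˣ := Units.ofPowEqOne a (2 * n) ha2 (by omega)
  let ub : (Module.End R M)ˣ := Units.ofPowEqOne b 4 hb4 (by omega)
  have h1 : ua ^ (2 * n) = 1 := Units.ext (by simp [ua])
  have h3 : ub * ub = ua ^ n := Units.ext (by simp [ua, ub, ha, hb])
  have h4 : ub * ua * ub⁻¹ = ua⁻¹ := by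
    rw [mul_inv_eq_iff_eq_mul, eq_inv_mul_iff_mul_eq, ← mul_assoc]
    exact Units.ext (by simpa [ua, ub] using hab)
  let f := H6.quatHom ua ub h1 h3 h4
  have : NeZero (2 * n) := ⟨by omega⟩
  have hfa : ∀ i : ZMod (2 * n), (f (.a i) : Module.End R M) = a ^ i.val := fun i => by
    have : f (.a i) = ua ^ i.val := by
      change H6.zp ua i = _
      conv_lhs => rw [← ZMod.natCast_zmod_val i, ← Int.cast_natCast, H6.zp_intCast h1, zpow_natCast]
    rw [this]; simp [ua]
  refine ⟨(Units.coeHom _).comp f, ?_⟩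
  rintro (i | i) hi v hv
  · refine hk i.val (Nat.pos_of_ne_zero fun h0 => hi ?_) (ZMod.val_lt i) v (by rw [← hfa]; exact hv)
    rw [(ZMod.val_eq_zero i).1 h0]; rfl
  · have h5 : ((Units.coeHom _).comp f) (.xa i * .xa i) v = v := by
      rw [map_mul, Module.End.mul_apply, hv, hv]
    rw [QuaternionGroup.xa_mul_xa, add_sub_cancel_right] at h5
    have h6 : (f (.a n) : Module.End R M) v = v := h5
    rw [hfa, ZMod.val_natCast_of_lt (by omega), ha] at h6
    exact h2 v h6

theorem fpf_quaternion_two {p : ℕ} (hp : p.Prime) (hp2 : p ≠ 2) :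
    FPF (QuaternionGroup 2) (p * p) := by
  have : Fact p.Prime := ⟨hp⟩
  obtain ⟨α, β, h⟩ := ZMod.sq_add_sq p (-1)
  have h20 : (2 : ZMod p) ≠ 0 := by
    intro h0
    exact hp2 ((Nat.prime_dvd_prime_iff_eq hp Nat.prime_two).1
      ((ZMod.natCast_eq_zero_iff 2 p).1 (by exact_mod_cast h0)))
  let a : Module.End (ZMod p) (ZMod p × ZMod p) :=
    LinearMap.prod (-LinearMap.snd _ _ _) (LinearMap.fst _ _ _)
  let b : Module.End (ZMod p) (ZMod p × ZMod p) :=
    LinearMap.prod (α • LinearMap.fst _ _ _ + β • LinearMap.snd _ _ _)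
      (β • LinearMap.fst _ _ _ - α • LinearMap.snd _ _ _)
  have h2 : ∀ v : ZMod p × ZMod p, -v = v → v = 0 := fun v hv => by
    have : (2 : ZMod p) • v = 0 := by rw [two_smul]; nth_rewrite 1 [← hv]; simp
    exact (smul_eq_zero.1 this).resolve_left h20
  have ha : a ^ 2 = -1 := by
    apply LinearMap.ext; rintro ⟨u, v⟩; simp [a, pow_succ]
  obtain ⟨ρ, hρ⟩ := exists_quat_rep (n := 2) (by omega) a b ha
    (by
      apply LinearMap.ext; rintro ⟨u, v⟩; simp [b]
      constructor
      · linear_combination u * h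
      · linear_combination v * h)
    (by apply LinearMap.ext; rintro ⟨u, v⟩; simp [a, b]; ring)
    h2 (by
      intro k hk0 hk v hv
      have h3 : (a ^ (2 * k)) v = v := by rw [two_mul, pow_add, Module.End.mul_apply, hv, hv]
      rw [pow_mul, ha] at h3
      interval_cases k
      · exact h2 v (by simpa using h3)
      · rw [ha] at hv; exact h2 v hv
      · exact h2 v (by simpa [pow_succ] using h3))
  have := FPF.of_rep ρ hρ
  simpa using this

theorem fpf_quaternion_two_sq (k : ℕ) (hk : Odd k) : FPF (QuaternionGroup 2) (k * k) := by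
  induction k using Nat.recOnMul with
  | zero => simp at hk
  | one => exact FPF.one
  | prime p hp =>
    exact fpf_quaternion_two hp (by rintro rfl; exact absurd hk (by decide))
  | mul a b iha ihb =>
    rw [Nat.odd_mul] at hk
    rw [mul_mul_mul_comm]
    exact (iha hk.1).mul (ihb hk.2)

theorem exists_fpf_quaternion {n : ℕ} (hn : n ≠ 0) : ∃ m, 1 < m ∧ FPF (QuaternionGroup n) m := by
  have : NeZero n := ⟨hn⟩
  have hζ := Complex.isPrimitiveRoot_exp (2 * n) (by omega)
  generalize Complex.exp (2 * Real.pi * Complex.I / (2 * n : ℕ)) = ζ at hζ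
  have hζ0 : ζ ≠ 0 := hζ.ne_zero (by omega)
  have hζn : ζ ^ n = -1 :=
    (hζ.pow (by omega) (mul_comm 2 n)).eq_neg_one_of_two_right
  let a : Module.End ℤ (ℂ × ℂ) := LinearMap.prodMap (LinearMap.mulLeft ℤ ζ) (LinearMap.mulLeft ℤ ζ⁻¹)
  let b : Module.End ℤ (ℂ × ℂ) := LinearMap.prod (-LinearMap.snd _ _ _) (LinearMap.fst _ _ _)
  have hak : ∀ (k : ℕ) (u v : ℂ), (a ^ k) (u, v) = (ζ ^ k * u, ζ⁻¹ ^ k * v) := fun k => by
    induction k with
    | zero => simp
    | succ k ih => intro u v; rw [pow_succ', Module.End.mul_apply, ih]; simp [a, pow_succ', mul_assoc]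
  obtain ⟨ρ, hρ⟩ := exists_quat_rep hn a b
    (by apply LinearMap.ext; rintro ⟨u, v⟩; rw [hak, inv_pow, hζn]; simp)
    (by apply LinearMap.ext; rintro ⟨u, v⟩; simp [b])
    (by apply LinearMap.ext; rintro ⟨u, v⟩; simp [a, b, hζ0])
    (fun v hv => by
      have : (2 : ℂ) • v = 0 := by rw [two_smul]; nth_rewrite 1 [← hv]; simp
      exact (smul_eq_zero.1 this).resolve_left two_ne_zero)
    (by
      rintro k hk0 hk ⟨u, v⟩ hv
      rw [hak] at hv
      have h1 : ζ ^ k ≠ 1 := hζ.pow_ne_one_of_pos_of_lt hk0.ne' hk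
      have h2 : ζ⁻¹ ^ k ≠ 1 := by rw [inv_pow]; exact fun h => h1 (inv_eq_one.1 h)
      obtain ⟨h3, h4⟩ := Prod.mk.inj hv
      have h5 : u = 0 := by
        by_contra h0; exact h1 (mul_right_cancel₀ h0 (by rw [h3, one_mul]))
      have h6 : v = 0 := by
        by_contra h0; exact h2 (mul_right_cancel₀ h0 (by rw [h4, one_mul]))
      rw [h5, h6]; rfl)
  exact exists_fpf_of_rep ρ hρ

end H1
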