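import Cfsg.Agent.H1.Fl
import Cfsg.Agent.H1.Fg

/-! Fischer's theorem: spaces of symplectic type. -/

set_option autoImplicit false
set_option linter.unusedSectionVars false

namespace H1.Fi
open Cfsg H18 H28 H23 Subgroup Module

variable {G : Type*} [Group G] {D : Set G} {a b c d p q r w x : G}

/-- no affine planes -/
def Sy (A : Set G) : Prop := ∀ a ∈ A, ∀ b ∈ A, ∀ x ∈ A, ¬ Commute a b → ¬ Commute x a → ¬ Commute x b → Commute x (a ⊳ b)

open Classical in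
/-- the form of a space of symplectic type -/
noncomputable def f2 (D : Set G) (a b : G) : ZMod 2 := if a ∈ D ∧ b ∈ D ∧ ¬ Commute a b then 1 else 0
theorem f2_0 (h : Commute a b) : f2 D a b = 0 := if_neg fun k => k.2.2 h
theorem f2_1 (ha : a ∈ D) (hb : b ∈ D) (h : ¬ Commute a b) : f2 D a b = 1 := if_pos ⟨ha, hb, h⟩
theorem f2_s (D : Set G) (a b : G) : f2 D b a = f2 D a b := by
  classical exact if_congr (by rw [Commute.symm_iff]; tauto) rfl rfl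
theorem f2_add (h : FS D) (s : Sy D) (hp : p ∈ D) (hq : q ∈ D) (n : ¬ Commute p q) (hw : w ∈ D) :
    f2 D w (p ⊳ q) = f2 D w p + f2 D w q := by
  have m := h.clo p hp q hq
  by_cases c1 : Commute w p <;> by_cases c2 : Commute w q
  · rw [f2_0 c1, f2_0 c2, f2_0 (cm3 c1 c2), add_zero]
  · rw [f2_0 c1, f2_1 hw hq c2, f2_1 hw m (nc3 c1 c2), zero_add]
  · rw [f2_0 c2, f2_1 hw hp c1, f2_1 hw m (nc3' h.tt hp hq n c2 c1), add_zero]
  · rw [f2_1 hw hp c1, f2_1 hw hq c2, f2_0 (s p hp q hq w hw n c1 c2)]; rfl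
theorem f2_cj (h : TT D) (g a b : G) : f2 D (g ⊳ a) (g ⊳ b) = f2 D a b := by
  have : ∀ a, g ⊳ a ∈ D ↔ a ∈ D := fun a => ⟨fun m => by simpa [mul_assoc] using h.cj g⁻¹ _ m, h.cj g a⟩
  classical exact if_congr (by rw [this, this, cmi]) rfl rfl

theorem z2 (t : ZMod 2) : t = 0 ∨ t = 1 := by revert t; decide

/-- the embedding of a space of symplectic type -/
structure E2 (D : Set G) {V : Type} [AddCommGroup V] [Module (ZMod 2) V] (Φ : Form (RingHom.id (ZMod 2)) V) (ι : G → V) :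
    Prop where
  nd : Φ.Nondeg
  eps : Φ.ε = 1
  b : ∀ a b, Φ.B (ι a) (ι b) = f2 D a b
  ext : ∀ v, (∀ a ∈ D, Φ.B (ι a) v = 0) → v = 0

theorem ex_e2 [Finite G] (D : Set G) : ∃ (n : ℕ) (Φ : Form (RingHom.id (ZMod 2)) (Fin n → ZMod 2)) (ι : G → _), E2 D Φ ι := by
  obtain ⟨n, Φ, ι, h1, h2, h3, h4⟩ := gram (σ := RingHom.id (ZMod 2)) (f2 D) (fun _ => rfl) (fun a b => f2_s D a b)
    fun a => ⟨0, by rw [f2_0 (Commute.refl a)]; rfl⟩
  refine ⟨n, Φ, ι, h1, h2, h4, fun v hv => ext_span h1 h3 ?_⟩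
  rintro _ ⟨a, rfl⟩
  by_cases m : a ∈ D
  · exact hv a m
  rw [ext_span h1 h3 (v := ι a) (by rintro _ ⟨b, rfl⟩; rw [h4, f2, if_neg fun k => m k.2.1]), map_zero, LinearMap.zero_apply]

namespace E2
variable {V : Type} [AddCommGroup V] [Module (ZMod 2) V] [Finite V] {Φ : Form (RingHom.id (ZMod 2)) V} {ι : G → V}
  (e : E2 D Φ ι)
include e
theorem two (v : V) : v + v = 0 := by rw [← two_smul (ZMod 2) v, show (2 : ZMod 2) = 0 from rfl, zero_smul]
theorem eq {u v : V} (h : ∀ a ∈ D, Φ.B (ι a) u = Φ.B (ι a) v) : u = v :=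
  sub_eq_zero.1 (e.ext _ fun a ha => by rw [map_sub, h a ha, sub_self])
theorem sym (u v : V) : Φ.B u v = Φ.B v u := by rw [Φ.symm, e.eps, one_mul]; rfl
theorem ind {s : V → Prop} (h0 : s 0) (h1 : ∀ a ∈ D, ∀ v, s v → s (ι a + v)) (v : V) : s v := by
  have : v ∈ Submodule.span (ZMod 2) (ι '' D) := by
    rw [← e.nd.perp_perp (Submodule.span _ _)]
    exact fun w hw => by rw [e.ext w fun a ha => Φ.mem_perp_span.1 hw _ ⟨a, ha, rfl⟩]; simp
  suffices ∀ u, s u → s (v + u) by simpa using this 0 h0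
  induction this using Submodule.span_induction with
  | mem x hx => obtain ⟨a, ha, rfl⟩ := hx; exact h1 a ha
  | zero => simp
  | add x y _ _ hx hy => exact fun u hu => add_assoc x y u ▸ hx _ (hy u hu)
  | smul c x _ hx => rcases z2 c with rfl | rfl; exacts [by simp, by simpa using hx]
variable [Finite G] (h : TP D) (s : Sy D)
include h
theorem inj (ha : a ∈ D) (hb : b ∈ D) (q : ι a = ι b) : a = b := by
  by_contra n
  obtain ⟨w, hw, c1, c2⟩ := tp_vt h ha hb n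
  have := e.b w a
  rw [q, e.b, f2_0 c1, f2_1 hw ha c2] at this
  exact zero_ne_one this
theorem ne (ha : a ∈ D) : ι a ≠ 0 := fun q => by
  obtain ⟨c, hc, n⟩ := h.nc ha
  have := e.b a c
  rw [q, f2_1 ha hc n] at this
  simp at this
theorem tr (g : G) (hp : ι p = ι q + ι r) : ι (g ⊳ p) = ι (g ⊳ q) + ι (g ⊳ r) := e.eq fun w hw => by
  obtain ⟨w, rfl⟩ : ∃ z, g ⊳ z = w := ⟨g⁻¹ ⊳ w, by group⟩
  have := congrArg (Φ.B (ι w)) hp
  simpa only [map_add, e.b, f2_cj h.toTT] using this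
include s
theorem cj (hp : p ∈ D) (hq : q ∈ D) (n : ¬ Commute p q) : ι (p ⊳ q) = ι p + ι q := e.eq fun w hw => by
  simp only [map_add, e.b, f2_add (FS.of h.toTT) s hp hq n hw]
theorem cj' (hp : p ∈ D) (hq : q ∈ D) : ι (p ⊳ q) = ι q + Φ.B (ι p) (ι q) • ι p := by
  by_cases c : Commute p q
  · rw [fx c, e.b, f2_0 c, zero_smul, add_zero]
  rw [e.cj h s hp hq c, e.b, f2_1 hp hq c, one_smul, add_comm]
theorem lm : LM Φ (ι '' D) D (Function.invFunOn ι D) := by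
  have i : Set.InjOn ι D := fun _ ha _ hb => e.inj h ha hb
  have l : ∀ a ∈ D, Function.invFunOn ι D (ι a) = a := fun a ha => i.leftInvOn_invFunOn ha
  refine ⟨⟨e.nd, e.eps, by decide, ?_, ?_, ?_, fun v hv t ht => by rwa [(z2 t).resolve_left ht, one_smul]⟩,
    i.invFunOn_image subset_rfl, ?_, ?_⟩
  · rintro _ ⟨a, ha, rfl⟩; exact e.ne h ha
  · rintro _ ⟨a, ha, rfl⟩; rw [e.b, f2_0 (Commute.refl a)]; rfl
  · rintro _ ⟨a, ha, rfl⟩ _ ⟨b, hb, rfl⟩; exact ⟨_, h.cj b a ha, e.cj' h s hb ha⟩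
  · rintro _ ⟨a, ha, rfl⟩ _ ⟨b, hb, rfl⟩
    rw [l a ha, l b hb]
    refine ⟨fun q => ⟨1, by rw [q, one_smul]⟩, fun ⟨t, q⟩ => ?_⟩
    rcases z2 t with rfl | rfl
    exacts [(e.ne h hb (by simpa using q)).elim, i ha hb (by simpa using q.symm)]
  · rintro _ ⟨a, ha, rfl⟩ _ ⟨b, hb, rfl⟩
    rw [l a ha, l b hb, ← e.cj' h s hb ha, l _ (h.cj b a ha)]
theorem vr (hd : d ∈ D) (ha : a ∈ dd D d) (hb : b ∈ dd D d) (n : a ≠ b) (v : Vr (dd D d) a b) : ι b = ι d + ι a := by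
  have k0 : ∀ w ∈ D, Commute w d → Φ.B (ι w) (ι a + ι b) = 0 := fun w hw c => by
    by_cases q : w = d
    · rw [map_add, e.b, e.b, q, f2_0 ha.2.2, f2_0 hb.2.2, add_zero]
    have := v w ⟨hw, q, c.symm⟩
    by_cases c' : Commute a w
    · rw [map_add, e.b, e.b, f2_0 c'.symm, f2_0 (this.1 c').symm, add_zero]
    rw [map_add, e.b, e.b, f2_1 hw ha.1 (ncs c'), f2_1 hw hb.1 (ncs (mt this.2 c'))]; rfl
  obtain ⟨x, hx, k⟩ : ∃ x ∈ D, Φ.B (ι x) (ι a + ι b) ≠ 0 := by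
    by_contra! k
    exact n (e.inj h ha.1 hb.1 (by rw [← add_zero (ι b), ← e.ext _ k, add_left_comm, e.two, add_zero]))
  have k1 : ∀ w ∈ D, ¬ Commute w d → Φ.B (ι w) (ι a + ι b) ≠ 0 := fun w hw c =>
    tp_ind h hd hx (mt (k0 x hx) k) (p := fun w => Φ.B (ι w) (ι a + ι b) ≠ 0) k (fun y hy _ r => by
      rwa [e.cj' h s hd hy, map_add Φ.B, LinearMap.add_apply, Φ.B_smul_left, k0 d hd (Commute.refl d),
        mul_zero, add_zero]) (fun y hy _ r c hc => by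
      rwa [e.cj' h s hc.1 hy, map_add Φ.B, LinearMap.add_apply, Φ.B_smul_left, k0 c hc.1 hc.2.2.symm,
        mul_zero, add_zero]) hw c
  have : ι a + ι b = ι d := e.eq fun w hw => by
    by_cases c : Commute w d
    · rw [k0 w hw c, e.b, f2_0 c]
    rw [(z2 _).resolve_left (k1 w hw c), e.b, f2_1 hw hd c]
  rw [← this, add_right_comm, e.two, zero_add]
theorem z4 (t : St D x a b c) : ι (z4 x a b c) = ι a + ι b + ι c := by
  have m1 := h.cj c x t.mx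
  have m2 := h.cj b _ m1
  have := congrArg ι t.act
  rw [e.cj h s t.mem t.mx t.nx, e.cj h s t.ma m2 (nc3 t.ab (nc3 t.ac t.ax)), e.cj h s t.mb m1 (nc3 t.bc t.bx),
    e.cj h s t.mc t.mx t.cx, ← add_assoc, ← add_assoc] at this
  exact add_right_cancel this
end E2

theorem li2 {V : Type*} [AddCommGroup V] [Module (ZMod 2) V] {k : ℕ} {f : Fin k → V}
    (h : ∀ g : Fin k → ZMod 2, ∑ i, g i • f i = 0 → ∀ i, g i = 0) : LinearIndependent (ZMod 2) f :=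
  Fintype.linearIndependent_iff.2 h

/-- the symplectic case -/
theorem sy_b [Finite G] (h : TP D) (s : Sy D) (hd : d ∈ D) (ha : a ∈ dd D d) (hb : b ∈ dd D d) (n : a ≠ b)
    (v : Vr (dd D d) a b) : ∃ n, 4 ≤ n ∧ IsSp D n := by
  obtain ⟨m, Φ, ι, e⟩ := ex_e2 D
  have k := e.vr h s hd ha hb n v
  have : ι '' D = {v | v ≠ 0} := Set.ext fun u => ⟨by rintro ⟨a, ha, rfl⟩; exact e.ne h ha, fun hu => by
    refine (e.ind (s := fun u => u = 0 ∨ u ∈ ι '' D) (Or.inl rfl) (fun p hp u hu => ?_) u).resolve_left hu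
    rcases hu with rfl | ⟨q, hq, rfl⟩
    · exact Or.inr ⟨p, hp, (add_zero _).symm⟩
    by_cases c : Commute p q
    · by_cases n : q = p
      · exact Or.inl (n ▸ e.two _)
      obtain ⟨g, rfl, rfl⟩ := h.pe_edge hd hp ha ⟨hq, n, c⟩
      exact Or.inr ⟨_, h.cj g b hb.1, e.tr h g k⟩
    exact Or.inr ⟨_, h.cj p q hq, e.cj h s hp hq c⟩⟩
  refine ⟨_, ?_, _, _, _, inferInstance, Φ, _, rfl, this ▸ e.lm h s⟩
  refine dim_ge e.nd (k := 2) (f := ![ι d, ι a]) (li2 fun g q => ?_) fun i j => ?_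
  · have n1 := e.ne h hd
    have n2 := e.ne h ha.1
    have n3 := k ▸ e.ne h hb.1
    rw [Fin.forall_fin_two]
    rcases z2 (g 0) with a | a <;> rcases z2 (g 1) with b | b <;> simp_all
  · fin_cases i <;> fin_cases j <;> simp [e.b, f2_0, ha.2.2, ha.2.2.symm]

theorem tp_tri [Finite G] (h : TP D) (hd : d ∈ D) (t : TP (sub (dd D d))) (ha : a ∈ dd D d) (hb : b ∈ dd (dd D d) a)
    (hp : p ∈ D) (hq : q ∈ dd D p) (hr : r ∈ dd (dd D p) q) : ∃ g, g ⊳ d = p ∧ g ⊳ a = q ∧ g ⊳ b = r := by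
  obtain ⟨g, rfl⟩ := h.cls d hd p hp
  obtain ⟨q, rfl⟩ : ∃ z, g ⊳ z = q := ⟨g⁻¹ ⊳ q, by group⟩
  obtain ⟨r, rfl⟩ : ∃ z, g ⊳ z = r := ⟨g⁻¹ ⊳ r, by group⟩
  rw [h.mem_dd_conj] at hq
  have hr' : r ∈ dd D d := (h.mem_dd_conj g).1 hr.1
  obtain ⟨k, e1, e2⟩ := t.pe_edge (a := ⟨a, subset_closure ha⟩) (b := ⟨q, subset_closure hq⟩)
    (x := ⟨b, subset_closure hb.1⟩) (y := ⟨r, subset_closure hr'⟩) ha hq
    ⟨hb.1, fun e => hb.2.1 (congrArg Subtype.val e), sub_cm.2 hb.2.2⟩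
    ⟨hr', fun e => hr.2.1 (by rw [show r = q from congrArg Subtype.val e]), sub_cm.2 (cmi.1 hr.2.2)⟩
  exact ⟨g * k, by rw [cjm, fx (H6.mem_cent_iff_commute.1 (closure_dd_le D d k.2))],
    by rw [cjm]; exact congrArg (g ⊳ ·) (congrArg Subtype.val e1),
    by rw [cjm]; exact congrArg (g ⊳ ·) (congrArg Subtype.val e2)⟩

/-- the orthogonal case -/
theorem sy_c [Finite G] (h : TP D) (s : Sy D) (t : TP (sub (dd D d))) (st : St D x d a b) : ∃ n, 6 ≤ n ∧ IsO2 D n := by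
  classical
  obtain ⟨m, Φ, ι, e⟩ := ex_e2 D
  have hd := st.ma
  have ha : a ∈ dd D d := ⟨st.mb, st.nab.symm, st.ab⟩
  have k := e.z4 h s st
  have T : ∀ p ∈ D, ∀ q ∈ dd D p, ∀ r ∈ dd (dd D p) q, ι p + ι q + ι r ∈ ι '' D := fun p hp q hq r hr => by
    obtain ⟨g, rfl, rfl, rfl⟩ := tp_tri h hd t ha ⟨⟨st.mc, st.nac.symm, st.ac⟩, st.nbc.symm, st.bc⟩ hp hq hr
    refine ⟨_, h.cj g _ st.mem, e.eq fun w hw => ?_⟩
    obtain ⟨w, rfl⟩ : ∃ z, g ⊳ z = w := ⟨g⁻¹ ⊳ w, by group⟩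
    simpa only [map_add, e.b, f2_cj h.toTT] using congrArg (Φ.B (ι w)) k
  have N : ∀ p ∈ D, ∀ q ∈ D, Commute p q → ι p + ι q ∉ ι '' D := by
    rintro p hp q hq c ⟨r, hr, k⟩
    by_cases n : q = p
    · exact e.ne h hr (by rw [k, n, e.two])
    obtain ⟨g, rfl, rfl⟩ := h.pe_edge hd hp ha ⟨hq, n, c⟩
    obtain ⟨r, rfl⟩ : ∃ z, g ⊳ z = r := ⟨g⁻¹ ⊳ r, by group⟩
    replace hr : r ∈ D := by simpa [mul_assoc] using h.cj g⁻¹ _ hr
    replace k : ι r = ι d + ι a := by simpa [mul_assoc] using e.tr h g⁻¹ k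
    have c1 : ∀ w ∈ D, Commute w d → (Commute a w ↔ Commute r w) := fun w hw c => by
      have := congrArg (Φ.B (ι w)) k
      rw [map_add, e.b, e.b, e.b, f2_0 c, zero_add] at this
      refine ⟨fun q => by_contra fun q' => ?_, fun q => by_contra fun q' => ?_⟩
      · rw [f2_0 q.symm, f2_1 hw hr (ncs q')] at this; exact one_ne_zero this
      · rw [f2_0 q.symm, f2_1 hw ha.1 (ncs q')] at this; exact zero_ne_one this
    have m : r ∈ dd D d := ⟨hr, fun q => e.ne h ha.1 (by rwa [q, left_eq_add] at k),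
      ((c1 d hd (Commute.refl d)).1 ha.2.2.symm).symm⟩
    have := t.vr_eq (a := ⟨a, subset_closure ha⟩) (b := ⟨r, subset_closure m⟩) ha m fun w hw => by
      simpa only [sub_cm] using c1 w hw.1 hw.2.2.symm
    exact e.ne h hd (by rwa [← show a = r from congrArg Subtype.val this, right_eq_add] at k)
  let L : Set (Fin m → ZMod 2) := {v | ∃ p ∈ D, ∃ q ∈ D, Commute p q ∧ v = ι p + ι q}
  have S1 : ∀ c ∈ D, ∀ v ∈ ι '' D, (Φ.B (ι c) v = 0 → ι c + v ∈ L) ∧ (Φ.B (ι c) v = 1 → ι c + v ∈ ι '' D) := by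
    rintro c hc _ ⟨p, hp, rfl⟩
    by_cases q : Commute c p
    · exact ⟨fun _ => ⟨c, hc, p, hp, q, rfl⟩, fun k => by rw [e.b, f2_0 q] at k; exact absurd k zero_ne_one⟩
    exact ⟨fun k => by rw [e.b, f2_1 hc hp q] at k; exact absurd k one_ne_zero, fun _ => ⟨_, h.cj c p hp, e.cj h s hc hp q⟩⟩
  have S2 : ∀ c ∈ D, ∀ v ∈ L, (Φ.B (ι c) v = 1 → ι c + v ∈ L) ∧ (Φ.B (ι c) v = 0 → ι c + v ∈ ι '' D) := by
    rintro c hc _ ⟨p, hp, q, hq, k, rfl⟩
    rw [map_add, e.b, e.b]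
    by_cases c1 : Commute c p <;> by_cases c2 : Commute c q
    · refine ⟨by rw [f2_0 c1, f2_0 c2]; exact fun k => absurd k (by decide), fun _ => ?_⟩
      by_cases n1 : p = c
      · exact ⟨q, hq, by rw [n1, ← add_assoc, e.two, zero_add]⟩
      by_cases n2 : q = c
      · exact ⟨p, hp, by rw [n2, add_left_comm, e.two, add_zero]⟩
      by_cases n3 : q = p
      · exact ⟨c, hc, by rw [n3, e.two, add_zero]⟩
      exact add_assoc (ι c) _ _ ▸ T c hc p ⟨hp, n1, c1⟩ q ⟨⟨hq, n2, c2⟩, n3, k⟩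
    · refine ⟨fun _ => ⟨p, hp, _, h.cj c q hq, cm3 c1.symm k, by rw [e.cj h s hc hq c2, add_left_comm]⟩, ?_⟩
      rw [f2_0 c1, f2_1 hc hq c2]; exact fun k => absurd k (by decide)
    · refine ⟨fun _ => ⟨_, h.cj c p hp, q, hq, (cm3 c2.symm k.symm).symm, by rw [e.cj h s hc hp c1, add_assoc]⟩, ?_⟩
      rw [f2_0 c2, f2_1 hc hp c1]; exact fun k => absurd k (by decide)
    · refine ⟨by rw [f2_1 hc hp c1, f2_1 hc hq c2]; exact fun k => absurd k (by decide), fun _ => ?_⟩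
      have := nc3' h.tt hc hp c1 k.symm (ncs c2)
      exact ⟨_, h.cj q _ (h.cj c p hp), by rw [e.cj h s hq (h.cj c p hp) this, e.cj h s hc hp c1]; abel⟩
  have l0 : (0 : Fin m → ZMod 2) ∈ L := ⟨d, hd, d, hd, Commute.refl d, (e.two _).symm⟩
  have A : ∀ v, v ∈ ι '' D ∨ v ∈ L := e.ind (Or.inr l0) fun c hc v hv => by
    rcases hv with hv | hv <;> rcases z2 (Φ.B (ι c) v) with k | k
    exacts [Or.inr ((S1 c hc v hv).1 k), Or.inl ((S1 c hc v hv).2 k), Or.inl ((S2 c hc v hv).2 k),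
      Or.inr ((S2 c hc v hv).1 k)]
  let Q0 : (Fin m → ZMod 2) → ZMod 2 := fun v => if v ∈ ι '' D then 1 else 0
  have q1 : ∀ v ∈ ι '' D, Q0 v = 1 := fun v hv => if_pos hv
  have q0 : ∀ v ∈ L, Q0 v = 0 := fun v ⟨p, hp, q, hq, c, k⟩ => if_neg (k ▸ N p hp q hq c)
  have B1 : ∀ c ∈ D, ∀ v, Q0 (ι c + v) = 1 + Q0 v + Φ.B (ι c) v := fun c hc v => by
    rcases A v with hv | hv <;> rcases z2 (Φ.B (ι c) v) with k | k
    · rw [q0 _ ((S1 c hc v hv).1 k), q1 v hv, k]; rfl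
    · rw [q1 _ ((S1 c hc v hv).2 k), q1 v hv, k]; rfl
    · rw [q1 _ ((S2 c hc v hv).2 k), q0 v hv, k]; rfl
    · rw [q0 _ ((S2 c hc v hv).1 k), q0 v hv, k]; rfl
  have B2 : ∀ u v, Q0 (u + v) = Q0 u + Q0 v + Φ.B u v := e.ind (fun v => by simp [q0 0 l0]) fun c hc u ih v => by
    rw [add_assoc, B1 c hc, B1 c hc, ih, map_add, map_add, LinearMap.add_apply]; ring
  let Q : QuadraticForm (ZMod 2) (Fin m → ZMod 2) := ⟨Q0, fun t v => by
    rcases z2 t with rfl | rfl <;> simp [q0 0 l0], Φ.B, B2⟩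
  have : ι '' D = {v | Q v = 1} := Set.ext fun v => ⟨q1 v, fun k => (A v).resolve_right fun l =>
    zero_ne_one ((q0 v l).symm.trans k)⟩
  refine ⟨_, ?_, _, _, _, inferInstance, Q, _, rfl, this ▸ (e.lm h s).congr (fun u v => ?_) rfl⟩
  · refine dim_ge e.nd (k := 3) (f := ![ι d, ι a, ι b]) (li2 fun g q => ?_) fun i j => ?_
    · have n1 := e.ne h hd
      have n2 := e.ne h st.mb
      have n3 := e.ne h st.mc
      have n4 := k ▸ e.ne h st.mem
      have n : ∀ p ∈ D, ∀ q ∈ D, p ≠ q → ι p + ι q ≠ 0 := fun p hp q hq n k =>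
        n (e.inj h hp hq (by rw [← add_zero (ι q), ← k, add_left_comm, e.two, add_zero]))
      have n5 := n _ hd _ st.mb st.nab
      have n6 := n _ hd _ st.mc st.nac
      have n7 := n _ st.mb _ st.mc st.nbc
      rw [Fin.sum_univ_three] at q
      intro i
      rcases z2 (g 0) with a | a <;> rcases z2 (g 1) with b | b <;> rcases z2 (g 2) with c | c <;>
        simp only [a, b, c, zero_smul, one_smul, zero_add, add_zero] at q <;> first | contradiction | fin_cases i <;> assumption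
    · fin_cases i <;> fin_cases j <;> simp [e.b, f2_0, st.ab, st.ac, st.bc, st.ab.symm, st.ac.symm, st.bc.symm]
  · change Q0 (u + v) - Q0 u - Q0 v = _
    rw [B2]; ring

end H1.Fi
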