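import Cfsg.Agent.H1.Ft
import Cfsg.Agent.H1.Fsy

/-! Fischer's theorem: residues of symplectic type. -/

set_option autoImplicit false
set_option linter.unusedSectionVars false
set_option linter.unusedSimpArgs false

namespace H1.Fi
open Cfsg H18 H28 H23 Module Subgroup Equiv

variable {G M : Type*} [Group G] [Group M] {D A : Set G} {B : Set M} {σ : G → M} {a b c d x y : G} {n : ℕ}

theorem Sy.fiso (h : Sy A) (f : FIso A B σ) : Sy B := fun a ha b hb x hx => by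
  obtain ⟨a, ha', rfl⟩ := f.surj ha
  obtain ⟨b, hb', rfl⟩ := f.surj hb
  obtain ⟨x, hx', rfl⟩ := f.surj hx
  rw [← f.cj a ha' b hb', f.comm ha' hb', f.comm hx' ha', f.comm hx' hb', f.comm hx' (f.clo a ha' b hb')]
  exact h a ha' b hb' x hx'
theorem sw_iff {α : Type*} [DecidableEq α] {i j k l : α} (h1 : i ≠ j) (h2 : k ≠ l) : Commute (swap i j) (swap k l) ↔
    (k ≠ i ∧ k ≠ j ∧ l ≠ i ∧ l ≠ j) ∨ (i = k ∧ j = l) ∨ (i = l ∧ j = k) := by
  refine ⟨fun c => ?_, ?_⟩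
  · have := sw_eq h2 ((fx c).symm.trans (swap_apply_apply _ k l).symm)
    simp only [swap_apply_def] at this
    grind
  rintro (⟨a, b, c, d⟩ | ⟨rfl, rfl⟩ | ⟨rfl, rfl⟩)
  exacts [sw_c a b c d, Commute.refl _, swap_comm i j ▸ Commute.refl _]
theorem IsSym.sy (h : IsSym A n) : Sy A := by
  obtain ⟨_, h⟩ := h
  refine Sy.fiso ?_ h
  rintro _ ⟨i, j, a, rfl⟩ _ ⟨k, l, b, rfl⟩ _ ⟨p, q, c, rfl⟩
  rw [← swap_apply_apply, sw_iff a b, sw_iff c a, sw_iff c b, sw_iff c ((swap i j).injective.ne b)]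
  simp only [swap_apply_def]
  grind
theorem IsSym.nst (h : IsSym A n) (s : St A x a b c) : False := by
  obtain ⟨τ, h⟩ := h
  obtain ⟨_, hx, rfl⟩ := h.surj s.mx
  obtain ⟨_, ha, rfl⟩ := h.surj s.ma
  obtain ⟨_, hb, rfl⟩ := h.surj s.mb
  obtain ⟨_, hc, rfl⟩ := h.surj s.mc
  have k1 := (h.comm ha hb).1 s.ab
  have k2 := (h.comm ha hc).1 s.ac
  have k3 := (h.comm hb hc).1 s.bc
  have k4 := mt (h.comm ha hx).2 s.ax
  have k5 := mt (h.comm hb hx).2 s.bx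
  have k6 := mt (h.comm hc hx).2 s.cx
  have k7 := mt (congrArg τ) s.nab
  have k8 := mt (congrArg τ) s.nac
  have k9 := mt (congrArg τ) s.nbc
  obtain ⟨i, j, a, rfl⟩ := hx
  obtain ⟨k, l, b, rfl⟩ := ha
  obtain ⟨p, q, c, rfl⟩ := hb
  obtain ⟨r, t, e, rfl⟩ := hc
  have : ∀ {i j k l : Fin n}, i ≠ j → k ≠ l → Commute (swap i j) (swap k l) → swap i j ≠ swap k l →
      k ≠ i ∧ k ≠ j ∧ l ≠ i ∧ l ≠ j := fun a b c d => ((sw_iff a b).1 c).resolve_right (by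
    rintro (⟨rfl, rfl⟩ | ⟨rfl, rfl⟩)
    exacts [d rfl, d (swap_comm _ _)])
  have m1 := this b c k1 k7
  have m2 := this b e k2 k8
  have m3 := this c e k3 k9
  rw [sw_iff b a] at k4
  rw [sw_iff c a] at k5
  rw [sw_iff e a] at k6
  grind

section
variable {V : Type} [AddCommGroup V] [Module (ZMod 2) V] {Φ : Form (RingHom.id (ZMod 2)) V} {P : Set V} {π : V → G} {u v : V}
theorem LM.cm2 (h : LM Φ P A π) (hu : u ∈ P) (hv : v ∈ P) : Commute (π u) (π v) ↔ Φ.B u v = 0 :=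
  (h.com hu hv).trans (or_iff_right_of_imp fun q => by
    obtain ⟨t, rfl⟩ := (h.eq u hu v hv).1 q
    rw [Φ.B_smul_right, h.nm u hu]; exact mul_zero t)
theorem LM.nc2 (h : LM Φ P A π) (hu : u ∈ P) (hv : v ∈ P) (n : ¬ Commute (π u) (π v)) : Φ.B u v = 1 :=
  (z2 _).resolve_left (h.nc0 hu hv n)
theorem LM.cj2 (h : LM Φ P A π) (hu : u ∈ P) (hv : v ∈ P) (n : Φ.B u v = 1) : v + u ∈ P ∧ π u ⊳ π v = π (v + u) := by
  simpa [n] using And.intro (h.cl v hv u hu) (h.cj v hv u hu)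
theorem LM.sy2 (h : LM Φ P A π) : Sy A := fun a ha b hb x hx n1 n2 n3 => by
  obtain ⟨a, ha', rfl⟩ := h.sur ha
  obtain ⟨b, hb', rfl⟩ := h.sur hb
  obtain ⟨x, hx', rfl⟩ := h.sur hx
  have := h.cj2 ha' hb' (h.nc2 ha' hb' n1)
  rw [this.2, h.cm2 hx' this.1, map_add, h.nc2 hx' ha' n2, h.nc2 hx' hb' n3]; rfl
end

variable [Finite G]
theorem vt_sub (t : TP (sub A)) (ha : a ∈ A) (hb : b ∈ A) (n : a ≠ b) : ∃ w ∈ A, Commute w b ∧ ¬ Commute w a :=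
  let ⟨w, m, c1, c2⟩ := tp_vt t (d := ⟨a, subset_closure ha⟩) (b := ⟨b, subset_closure hb⟩) ha hb
    fun e => n (congrArg Subtype.val e)
  ⟨w, m, sub_cm.1 c1, fun q => c2 (sub_cm.2 q)⟩
theorem vr_sy (t : TP (sub A)) (s : Sy A) (hd : d ∈ A) (ha : a ∈ dd A d) (hy : y ∈ dd A d) (hx : x ∈ A) (n : a ≠ y)
    (v : ∀ w ∈ A, Commute d w → (Commute a w ↔ Commute y w)) (n1 : ¬ Commute x d) (n2 : ¬ Commute x a) : Commute x y := by
  obtain ⟨m, Φ, ι, e⟩ := ex_e2 (sub A)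
  have m : ∀ {a} (ha : a ∈ dd A d), (⟨a, subset_closure ha.1⟩ : closure A) ∈ dd (sub A) ⟨d, subset_closure hd⟩ := fun ha =>
    ⟨ha.1, fun e => ha.2.1 (congrArg Subtype.val e), sub_cm.2 ha.2.2⟩
  have := congrArg (Φ.B (ι ⟨x, subset_closure hx⟩)) (e.vr t (fun a ha b hb x hx => by
    simpa only [sub_cm, Subgroup.coe_mul, Subgroup.coe_inv] using s a ha b hb x hx) hd (m ha) (m hy) (fun e => n (congrArg Subtype.val e)) fun w hw => by
      simpa only [sub_cm] using v w hw.1 (sub_cm.1 hw.2.2))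
  have f : ∀ {a b} (ha : a ∈ A) (hb : b ∈ A), ¬ Commute a b →
      f2 (sub A) ⟨a, subset_closure ha⟩ ⟨b, subset_closure hb⟩ = 1 := fun ha hb n => f2_1 ha hb (mt sub_cm.1 n)
  rw [map_add, e.b, e.b, e.b, f hx hd n1, f hx ha.1 n2] at this
  by_contra q
  rw [f hx hy.1 q] at this
  exact absurd this (by decide)

/-- the configuration in a space which is locally of symplectic type -/
structure Lc (D : Set G) (d x a b s : G) : Prop where
  md : d ∈ D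
  mx : x ∈ D
  n : ¬ Commute x d
  ma : a ∈ dd D d
  mb : b ∈ dd D d
  ms : s ∈ dd D d
  ab : ¬ Commute a b
  xa : ¬ Commute x a
  xb : ¬ Commute x b
  xc : ¬ Commute x (a ⊳ b)
  xs : Commute x s
  sa : Commute s a
  sb : ¬ Commute s b
  l : ∀ s ∈ dd D d, Commute x s → ∀ u ∈ dd D d, ∀ v ∈ dd D d, Commute s u → Commute s v → ¬ Commute u v →
    ¬ Commute x u → ¬ Commute x v → Commute x (u ⊳ v)
theorem Lc.ny {s : G} (k : Lc D d x a b s) (hy : y ∈ dd D d) (c1 : Commute y a) (c2 : Commute y b) : ¬ Commute x y :=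
  fun c => k.xc (k.l y hy c a k.ma b k.mb c1 c2 k.ab k.xa k.xb)

variable (h : TP D)
include h
theorem ex_lc (sy : ∀ b ∈ D, Sy (dd D b)) (ns : ¬ Sy D) : ∃ d x a b s, Lc D d x a b s := by
  have t := h.tt
  simp only [Sy, not_forall] at ns
  obtain ⟨a, ha, b, hb, x, hx, n, n1, n2, n3⟩ := ns
  obtain ⟨d, hd, c1, c2⟩ := h.cc2_ne ha hb n
  have ma : a ∈ dd D d := ⟨ha, ne_of c2 (ncs n) |>.symm, c1.symm⟩
  have mb : b ∈ dd D d := ⟨hb, ne_of c1 n |>.symm, c2.symm⟩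
  have c : ¬ Commute x d := fun c => n3 (sy d hd a ma b mb x ⟨hx, ne_of c1 (ncs n1) |>.symm, c.symm⟩ n n1 n2)
  have l : ∀ s ∈ dd D d, Commute x s → ∀ u ∈ dd D d, ∀ v ∈ dd D d, Commute s u → Commute s v → ¬ Commute u v →
      ¬ Commute x u → ¬ Commute x v → Commute x (u ⊳ v) := fun s hs k u hu v hv c1 c2 n n1 n2 =>
    sy s hs.1 u ⟨hu.1, ne_of k n1 |>.symm, c1⟩ v ⟨hv.1, ne_of k n2 |>.symm, c2⟩ x ⟨hx, ne_of hs.2.2 (ncs c) |>.symm, k.symm⟩ n n1 n2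
  obtain ⟨s, hs, k⟩ := tp_cn h hd hx c
  by_cases q1 : Commute s a
  · exact ⟨d, x, a, b, s, hd, hx, c, ma, mb, hs, n, n1, n2, n3, k.symm, q1, fun q =>
      n3 (l s hs k.symm a ma b mb q1 q n n1 n2), l⟩
  by_cases q2 : Commute s b
  · exact ⟨d, x, b, a, s, hd, hx, c, mb, ma, hs, ncs n, n2, n1, br t ha hb n ▸ n3, k.symm, q2, q1, l⟩
  exact ⟨d, x, _, b, s, hd, hx, c, ((FS.of h.toTT).dd d).clo a ma b mb, mb, hs, ncs (ncr t ha hb n), n3, n2,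
    (cb4 t ha hb n).symm ▸ n1, k.symm, sy d hd a ma b mb s hs n q1 q2, q2, l⟩
variable {s : G} (k : Lc D d x a b s)
include k
theorem Lc.sym (t' : TP (sub (dd D d))) (sy : Sy (dd D d)) (ns : ∀ x a b c, ¬ St (dd D d) x a b c) : False := by
  have t := h.tt
  have fs := FS.of h.toTT
  have fd := fs.dd d
  obtain ⟨v, hv, v1, v2, v3⟩ : ∃ v ∈ dd D d, Commute v a ∧ Commute v b ∧ ¬ Commute v s := by
    obtain ⟨w, hw, c1, c2⟩ := vt_sub t' k.ms k.ma (ne_of k.xs k.xa)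
    by_cases c : Commute w b
    · exact ⟨w, hw, c1, c, c2⟩
    exact ⟨_, fd.clo s k.ms w hw, (cm3 k.sa.symm c1.symm).symm, (sy s k.ms w hw b k.mb (ncs c2) (ncs k.sb) (ncs c)).symm,
      ncs (ncl (ncs c2))⟩
  have key : ∀ u ∈ dd D d, Commute u v → ¬ Commute x u → ¬ Commute u s → ¬ Commute u a → Commute x (u ⊳ v ⊳ s) :=
    fun u hu c n1 n2 n3 => by
      have ne : u ≠ v := (ne_of v1.symm (ncs n3)).symm
      have st : St D x d u v := ⟨fs, k.mx, k.md, hu.1, hv.1, hu.2.2, hv.2.2, c, hu.2.1.symm, hv.2.1.symm, ne, ncs k.n, ncs n1,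
        ncs (k.ny hv v1 v2)⟩
      refine (st.key k.ms.2.2.symm k.xs.symm).1 (by_contra fun q => ns s u v _ ⟨fd, k.ms, hu, hv, ⟨st.mem, st.na, st.ca⟩, c,
        st.cb, st.cc', ne, st.nb.symm, st.nc.symm, n2, v3, ncs q⟩)
  have m := fd.clo a k.ma b k.mb
  have m' := fd.clo v hv s k.ms
  have n1 := ncs (nc3 k.sa k.sb)
  have := cm3 (key b k.mb v2.symm k.xb (ncs k.sb) (ncs k.ab)) (key _ m (cm3 v1 v2).symm k.xc n1 (ncs (ncl k.ab)))
  rw [br t k.mb.1 m'.1 (nc3 v2.symm (ncs k.sb)), br t m.1 m'.1 (nc3 (cm3 v1 v2).symm n1), ← cjj, cb5 t k.ma.1 k.mb.1 k.ab,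
    fx (cm3 v1.symm k.sa.symm).symm] at this
  exact k.xa this
theorem Lc.sp (t' : TP (sub (dd D s))) (sy : Sy (dd D s)) (q : IsSp (dd D d) n) : False := by
  obtain ⟨V, _, _, _, Φ, π, -, l⟩ := q
  obtain ⟨a, ha, rfl⟩ := l.sur k.ma
  obtain ⟨b, hb, rfl⟩ := l.sur k.mb
  obtain ⟨s, hs, rfl⟩ := l.sur k.ms
  have ne : π s ≠ π a := ne_of k.xs k.xa
  have two : ∀ v : V, v + v = 0 := fun v => by rw [← two_smul (ZMod 2) v, show (2 : ZMod 2) = 0 from rfl, zero_smul]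
  have hy : s + a ≠ 0 := fun e => ne (by rw [← add_zero s, ← two a, ← add_assoc, e, zero_add])
  have b1 := (l.cm2 hs ha).1 k.sa
  have y1 : Commute (π (s + a)) (π a) := l.cm0 hy ha (by simp only [bx, b1, l.nm a ha]; rfl)
  have y2 : Commute (π (s + a)) (π b) := l.cm0 hy hb (by simp only [bx, l.nc2 hs hb k.sb, l.nc2 ha hb k.ab]; rfl)
  have y3 := k.ny (l.mem hy) y1 y2
  have m : ∀ {u}, u ∈ dd D d → Commute (π s) u → ¬ Commute x u → u ∈ dd (dd D (π s)) d := fun hu c n =>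
    ⟨⟨hu.1, (ne_of k.xs n).symm, c⟩, hu.2⟩
  refine y3 (vr_sy t' sy (dd_symm k.md k.ms) (m k.ma k.sa k.xa) (m (l.mem hy) (l.cm0 hs hy (by
    simp only [bx, b1, l.nm s hs]; rfl)) y3) ⟨k.mx, ne_of k.ms.2.2 (ncs k.n) |>.symm, k.xs.symm⟩
    (ne_of y2.symm (ncs k.ab)).symm (fun w hw c => ?_) k.n k.xa)
  by_cases e : w = d
  · exact iff_of_true (e ▸ k.ma.2.2.symm) (e ▸ (l.mem hy).2.2.symm)
  obtain ⟨w, hw', rfl⟩ := l.sur ⟨hw.1, e, c⟩
  rw [l.cm2 ha hw', l.cm2 hy hw', map_add, LinearMap.add_apply, (l.cm2 hs hw').1 hw.2.2, zero_add]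
omit h k in
theorem ex_du {F V : Type} [Field F] {σ : F →+* F} [AddCommGroup V] [Module F V] [FiniteDimensional F V] {Φ : Form σ V}
    (nd : Φ.Nondeg) {k : ℕ} {f : Fin k → V} (g : Gr Φ f) {v : V} (n : v ≠ 0) (hv : ∀ i, Φ.B (f i) v = 0) :
    ∃ y, (∀ i, Φ.B (f i) y = 0) ∧ Φ.B v y = 1 := by
  have m : v ∈ Φ.perp (Submodule.span F (Set.range f)) := Φ.mem_perp_span.2 (by rintro _ ⟨i, rfl⟩; exact hv i)
  obtain ⟨y, hy⟩ := (Φ.nondeg_restrict_iff.2 (g.dis' nd)).exists_ne (x := ⟨v, m⟩) fun e => n (congrArg Subtype.val e)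
  exact ⟨y, fun i => Φ.mem_perp_span.1 y.2 _ ⟨i, rfl⟩, hy⟩
theorem Lc.o2 (hn : 6 ≤ n) (q : IsO2 (dd D d) n) : IsO3 (dd D d) 5 := by
  obtain ⟨V, _, _, _, Q, π, rfl, l⟩ := q
  obtain ⟨a, ha, rfl⟩ := l.sur k.ma
  obtain ⟨b, hb, rfl⟩ := l.sur k.mb
  obtain ⟨s, hs, rfl⟩ := l.sur k.ms
  set Φ := Form.ofQuad Q
  have qa : ∀ u v, Q (u + v) = Q u + Q v + Φ.B u v := QuadraticMap.map_add Q
  have sy : ∀ u v, Φ.B u v = Φ.B v u := fun u v => l.sym v u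
  have al : ∀ u, Φ.B u u = 0 := fun u => by
    rw [Form.ofQuad_B, QuadraticMap.polar_self, two_smul]; exact CharTwo.add_self_eq_zero _
  have b1 := (l.cm2 hs ha).1 k.sa
  have b2 := l.nc2 hs hb k.sb
  have b3 := l.nc2 ha hb k.ab
  obtain ⟨y, rfl⟩ : ∃ y, s = a + y := ⟨s - a, by abel⟩
  have y0 : y ≠ 0 := fun e => ne_of k.xs k.xa (by rw [e, add_zero])
  have y1 : Φ.B a y = 0 := by simpa [al, sy y a] using b1
  have y2 : Φ.B b y = 0 := by simpa [b3, sy y b] using b2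
  have y3 : Q y = 0 := by simpa [qa, show Q a = 1 from ha, y1] using show Q (a + y) = 1 from hs
  have H : ∀ p q, Q p = 1 → Q q = 1 → Φ.B p q = 1 → Φ.B a p = 0 → Φ.B b p = 0 → Φ.B y p = 0 → Φ.B a q = 0 → Φ.B b q = 0 →
      Φ.B y q = 0 → False := fun p q hp hq o p1 p2 p3 q1 q2 q3 => by
    have T : ∀ p, Q p = 1 → Φ.B a p = 0 → Φ.B b p = 0 → ¬ Commute x (π p) := fun p hp p1 p2 =>
      k.ny (l.mem hp) (l.cm0 ha hp p1).symm (l.cm0 hb hp p2).symm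
    have c := l.cj2 hp hq o
    refine T _ c.1 (by simp [p1, q1]) (by simp [p2, q2]) (c.2 ▸ k.l _ k.ms k.xs _ (l.mem hp) _ (l.mem hq)
      (l.cm0 hs hp (by simp [p1, p3])) (l.cm0 hs hq (by simp [q1, q3])) (by rw [l.cm2 hp hq, o]; decide)
      (T p hp p1 p2) (T q hq q1 q2))
  have hyp : ∀ {m} (f : Fin m → V), Gr Φ f → ∀ v ≠ 0, (∀ i, Φ.B (f i) v = 0) → (∀ u, (∀ i, Φ.B (f i) u = 0) →
      Φ.B a u = 0 ∧ Φ.B b u = 0 ∧ Φ.B y u = 0) → ∃ u w, (∀ i, Φ.B (f i) u = 0) ∧ (∀ i, Φ.B (f i) w = 0) ∧ Φ.B u w = 1 ∧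
        Q u = 0 ∧ Q w = 0 := fun f g v n o r => by
    obtain ⟨w, o', e⟩ := ex_du l.nd g n o
    have o2 : ∀ i, Φ.B (f i) (v + w) = 0 := fun i => by rw [map_add, o, o', add_zero]
    rcases z2 (Q v) with c | c <;> rcases z2 (Q w) with c' | c'
    · exact ⟨v, w, o, o', e, c, c'⟩
    · exact ⟨v, v + w, o, o2, by simp [al, e], c, by rw [qa, c, c', e]; rfl⟩
    · exact ⟨v + w, w, o2, o', by simp [al, e], by rw [qa, c, c', e]; rfl, c'⟩
    · exact (H v w c c' e (r v o).1 (r v o).2.1 (r v o).2.2 (r w o').1 (r w o').2.1 (r w o').2.2).elim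
  obtain ⟨z, z1, z2', z3, z4⟩ : ∃ z, Φ.B a z = 0 ∧ Φ.B b z = 0 ∧ Φ.B y z = 1 ∧ Q z = 0 := by
    obtain ⟨z, o, e⟩ := ex_du l.nd (f := ![a, b]) (fun c q => by
      simpa [Fin.forall_fin_two, al, b3, sy b a, and_comm] using q) y0 (by simp [y1, y2])
    rcases z2 (Q z) with c | c
    · exact ⟨z, o 0, o 1, e, c⟩
    exact ⟨y + z, by simpa [y1] using o 0, by simpa [y2] using o 1, by simp [al, e], by rw [qa, c, y3, e]; rfl⟩
  obtain ⟨v, v0, v1⟩ := ex_ne l.nd ![a, b, y, z] (by omega)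
  obtain ⟨u, w, u1, w1, e, u2, w2⟩ := hyp ![a, b, y, z] (fun c q => by
    simp only [Fin.forall_fin_succ, Fin.sum_univ_four] at q ⊢
    simp [al, b3, y1, y2, z1, z2', z3, sy b a, sy y a, sy y b, sy z a, sy z b, sy z y] at q ⊢
    tauto) v v0 v1 fun u o => ⟨o 0, o 1, o 2⟩
  have c0 : Φ.B a u = 0 := u1 0
  have c1 : Φ.B b u = 0 := u1 1
  have c2 : Φ.B y u = 0 := u1 2
  have c3 : Φ.B z u = 0 := u1 3
  have d0 : Φ.B a w = 0 := w1 0
  have d1 : Φ.B b w = 0 := w1 1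
  have d2 : Φ.B y w = 0 := w1 2
  have d3 : Φ.B z w = 0 := w1 3
  let κ := Fintype.linearCombination (ZMod 2) ![a, b, y, z, u, w]
  have e1 : ∀ p q, Φ.B (κ p) (κ q) = b6 p q := fun p q => by
    simp only [κ, Fintype.linearCombination_apply, Fin.sum_univ_six, Matrix.cons_val, bx, RingHom.id_apply, al, b3, y1, y2, z1,
      z2', z3, sy b a, sy y a, sy y b, sy z a, sy z b, sy z y, sy u a, sy u b, sy u y, sy u z, sy w a, sy w b, sy w y, sy w z,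
      sy w u, c0, c1, c2, c3, d0, d1, d2, d3, e, b6]
    ring
  have e2 : ∀ p, Q (κ p) = q6 p := fun p => by
    simp only [κ, Fintype.linearCombination_apply, Fin.sum_univ_six, Matrix.cons_val, qa, QuadraticMap.map_smul, bx,
      RingHom.id_apply, b3, y1, y2, z1, z2', z3, c0, c1, c2, c3, d0, d1, d2, d3, e, q6, show Q a = 1 from ha,
      show Q b = 1 from hb, y3, z4, u2, w2, smul_eq_mul, (by decide : ∀ t : ZMod 2, t * t = t)]
    ring
  have nd : ∀ g, (∀ i : Fin 6, b6 (Pi.single i 1) g = 0) → ∀ j, g j = 0 := all6 (by decide)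
  have sj : Function.Surjective κ := sur_comb l.nd _ fun v hv => by
    by_contra nv
    obtain ⟨r, r', r1, r2, r3, r4, r5⟩ := hyp ![a, b, y, z, u, w] (fun g q0 => nd g fun i => by
      rw [← e1, ← q0 i]
      simp only [κ, Fintype.linearCombination_apply_single, one_smul]
      simp only [Fintype.linearCombination_apply, map_sum, bx]) v nv hv fun u o => ⟨o 0, o 1, o 2⟩
    have f4 : Φ.B u r = 0 := r1 4
    have f5 : Φ.B w r = 0 := r1 5
    have g4 : Φ.B u r' = 0 := r2 4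
    have g5 : Φ.B w r' = 0 := r2 5
    exact H (u + w) (u + (r + r')) (by simp [qa, u2, w2, e]) (by simp [qa, u2, r3, r4, r5, f4, g4])
      (by simp [al, sy w u, e, f4, f5, g4, g5]) (by simp [c0, d0]) (by simp [c1, d1]) (by simp [c2, d2])
      (by simpa [c0] using congrArg₂ (· + ·) (r1 0) (r2 0)) (by simpa [c1] using congrArg₂ (· + ·) (r1 1) (r2 1))
      (by simpa [c2] using congrArg₂ (· + ·) (r1 2) (r2 2))
  have l' := l.comap κ sj fun p q => funext (nd p fun i => by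
    rw [← e1, sy]; exact q _)
  rw [show κ ⁻¹' {v | Q v = 1} = {v | q6 v = 1} from Set.ext fun p => by simp [e2]] at l'
  exact o3_of_o6 l' e1

end H1.Fi
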