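import Cfsg.Agent.H1.Fx

/-! Fischer's theorem: residues of unitary type. -/

set_option autoImplicit false
set_option linter.unusedSectionVars false
set_option linter.unusedSimpArgs false

namespace H1.Fi
open Cfsg H18 H28 H23 Module Subgroup

variable {G : Type*} [Group G] [Finite G] {D A : Set G} {d x : G} {n : ℕ}

theorem l2_sub (t : TP (sub A)) (hd : d ∈ A) (hx : x ∈ A) (n : ¬ Commute x d) (p : K4 → G) (i : Function.Injective p)
    (m : ∀ c, p c ∈ dd A d) (v : ∀ c c', ∀ w ∈ A, Commute d w → Commute (p c) w → Commute (p c') w) :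
    ∃ c, ∀ c', Commute (p c') x ↔ c' = c := by
  let q : K4 → closure A := fun c => ⟨p c, subset_closure (m c).1⟩
  have i' : Function.Injective q := fun a b e => i (congrArg Subtype.val e)
  have m' : ∀ c, q c ∈ dd (sub A) ⟨d, subset_closure hd⟩ := fun c =>
    ⟨(m c).1, fun e => (m c).2.1 (congrArg Subtype.val e), sub_cm.2 (m c).2.2⟩
  have l : ∀ c, q c ∈ pl (sub A) ⟨d, subset_closure hd⟩ (q 0) := fun c =>
    ⟨(m c).1, fun w hw a b => sub_cm.2 (v 0 c w hw (sub_cm.1 a) (sub_cm.1 b))⟩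
  have th := th_of t hd (m' 0) (m' 1) (i'.ne zero_ne_one) fun w hw =>
    ⟨fun c => sub_cm.2 (v 0 1 w hw.1 (sub_cm.1 hw.2.2) (sub_cm.1 c)), fun c => sub_cm.2 (v 1 0 w hw.1 (sub_cm.1 hw.2.2) (sub_cm.1 c))⟩
  have e := Set.eq_of_subset_of_ncard_le (s := Set.range q) (by rintro _ ⟨c, rfl⟩; exact ⟨l c, (m' c).2.1⟩)
    ((pl_five t th hd (m' 0) (l 1) (l om) (m' 1).2.1 (i'.ne one_ne_zero) (m' om).2.1 (i'.ne (by decide))
      (i'.ne (by decide))).trans (by rw [Set.ncard_range_of_injective i', Nat.card_eq_fintype_card, card_K4]; rfl)).le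
  obtain ⟨z, hz, c⟩ := pl_one t th hd (m' 0) (x := ⟨x, subset_closure hx⟩) hx
  obtain ⟨a, rfl⟩ : z ∈ Set.range q := e ▸ ⟨hz, ne_of c.symm (mt sub_cm.1 n)⟩
  exact ⟨a, fun b => ⟨fun k => i' (pl_un t hd (m' 0) (l b) hz hx (sub_cm.2 k) c (pl_l hd) (mt sub_cm.1 (ncs n))),
    fun k => k ▸ sub_cm.1 c⟩⟩

variable {V : Type} [AddCommGroup V] [Module K4 V] [Finite V] {Φ : Form c4 V} {π : V → G} {r s s' w : V}
theorem ex_on (h : PM Φ (PU Φ)) (hr : r ∈ PU Φ) {m : ℕ} (hm : m + 2 ≤ finrank K4 V) : ∃ o : Fin m → V,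
    (∀ j, Φ.B r (o j) = 0) ∧ ∀ i j, Φ.B (o i) (o j) = if i = j then 1 else 0 := by
  obtain ⟨r', e⟩ := h.nd.exists_ne hr.1
  have := rk_perp h.nd ![r, r']
  obtain ⟨o, ho⟩ := exists_orthonormal_family_herm (conj_ne_id card_K4) (Φ := Φ.restrict _) h.eps
    (Φ.nondeg_restrict_iff.2 (Gr.dis' (f := ![r, r']) h.nd fun c q => by
      simp only [Fin.forall_fin_two, Fin.sum_univ_two, Matrix.cons_val, hr.2, e, h.sym r r', map_one] at q ⊢
      grind)) (k := m) (by omega)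
  exact ⟨fun j => o j, fun j => Φ.mem_perp_span.1 (o j).2 _ ⟨0, rfl⟩, ho⟩
theorem LM.li (l : LM Φ (PU Φ) A π) (hr : r ∈ PU Φ) (hs : s ∈ PU Φ) (n : π s ≠ π r) : LinearIndependent K4 ![r, s] :=
  LinearIndependent.pair_iff' hr.1 |>.2 fun t e => n ((l.eq r hr s hs).2 ⟨t, e.symm⟩).symm

/-- the configuration in a locally unitary space -/
structure Lu (D : Set G) (d x : G) (Φ : Form c4 V) (π : V → G) : Prop extends LM Φ (PU Φ) (dd D d) π where
  tp : TP D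
  md : d ∈ D
  mx : x ∈ D
  n : ¬ Commute x d
  t : ∀ b ∈ D, TP (sub (dd D b))

namespace Lu
variable (k : Lu D d x Φ π)
include k
theorem pu (hr : r ∈ PU Φ) (hs : s ∈ PU Φ) (o : Φ.B s r = 0) (n : π s ≠ π r) {a c : K4} (h : a ≠ 0 ∨ c ≠ 0) :
    a • r + c • s ∈ PU Φ := ⟨fun q => by simpa [LinearIndependent.pair_iff.1 (k.li hr hs n) a c q] using h, by
      simp [hr.2, hs.2, o, k.sym s r]⟩
theorem l2 (hr : r ∈ PU Φ) (hs : s ∈ PU Φ) (o : Φ.B s r = 0) (n : π s ≠ π r) (q : Commute (π s) x) :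
    ∃ c : K4, ∀ c', Commute (π (r + c' • s)) x ↔ c' = c := by
  have i := LinearIndependent.pair_iff.1 (k.li hr hs n)
  have m : ∀ c : K4, r + c • s ∈ PU Φ := fun c => by simpa using k.pu hr hs o n (a := 1) (c := c) (Or.inl one_ne_zero)
  have ms := k.mem hs
  refine l2_sub (k.t _ ms.1) (dd_symm k.md ms) ⟨k.mx, ne_of ms.2.2 (ncs k.n) |>.symm, q⟩ k.n _ (fun c c' e => ?_)
    (fun c => ⟨⟨(k.mem (m c)).1, fun e => ?_, k.cm0 hs (m c) (by simp [o, hs.2])⟩, (k.mem (m c)).2⟩) fun c c' w hw a => ?_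
  · obtain ⟨t, e⟩ := (k.eq _ (m c) _ (m c')).1 e
    have := i (1 - t) (c' - t * c) (by linear_combination (norm := module) e)
    grind
  · obtain ⟨t, e⟩ := (k.eq _ hs _ (m c)).1 e.symm
    exact one_ne_zero (i 1 (c - t) (by linear_combination (norm := module) e)).1
  by_cases e : w = d
  · exact fun _ => e ▸ (k.mem (m c')).2.2.symm
  obtain ⟨w, hw', rfl⟩ := k.sur ⟨hw.1, e, a⟩
  simp [k.cmU (m _) hw', (k.cmU hs hw').1 hw.2.2]
variable (hr : r ∈ PU Φ) (nr : ¬ Commute (π r) x)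
include hr nr
theorem l3 (hs : s ∈ PU Φ) (o : Φ.B s r = 0) (q : Commute (π s) x) :
    ∃ t : K4, t ≠ 0 ∧ (∀ u : K4, s + u • r ∈ PU Φ) ∧ ∀ u, Commute (π (s + u • r)) x ↔ u = 0 ∨ u = t := by
  have n := ne_of q.symm (ncs nr)
  obtain ⟨c, e⟩ := k.l2 hr hs o n q
  have m : ∀ u : K4, s + u • r ∈ PU Φ := fun u => by
    simpa [add_comm] using k.pu hr hs o n (a := u) (c := 1) (Or.inr one_ne_zero)
  refine ⟨c⁻¹, inv_ne_zero fun z => nr (by simpa using (e 0).2 z.symm), m, fun u => ?_⟩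
  by_cases z : u = 0
  · simpa [z] using q
  rw [← k.smul (m u) (inv_ne_zero z), smul_add, inv_smul_smul₀ z, add_comm, e, inv_eq_iff_eq_inv, or_iff_right z]
theorem g2 (hs : s ∈ PU Φ) (o : Φ.B s r = 0) (q : Commute (π s) x) (hs' : s' ∈ PU Φ) (o' : Φ.B s' r = 0)
    (q' : Commute (π s') x) (g : Φ.B s s' ≠ 0) {t t' : K4} (ht : t ≠ 0) (ht' : t' ≠ 0) (m : s + t • r ∈ PU Φ)
    (m' : s' + t' • r ∈ PU Φ) (c : Commute (π (s + t • r)) x) (c' : Commute (π (s' + t' • r)) x) : t' = Φ.B s s' * t := by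
  obtain ⟨u, -, -, e⟩ := k.l3 hr nr (k.cl _ hs' _ hs) (by simp [o, o']) (k.cj _ hs' _ hs ▸ (cm3 q.symm q'.symm).symm)
  have h1 := (cm3 c.symm q'.symm).symm
  have h2 := (cm3 q.symm c'.symm).symm
  rw [k.cj _ hs' _ m] at h1
  rw [k.cj _ m' _ hs] at h2
  simp only [bx, k.sym s' r, o, o', map_zero, mul_zero, add_zero, smul_add, smul_smul, ← add_assoc] at h1 h2
  rw [add_right_comm, e] at h2
  rw [h2.resolve_left ht', ((e _).1 h1).resolve_left (mul_ne_zero g ht)]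
theorem g3 (o : Fin 3 → V) (ho : ∀ i j, Φ.B (o i) (o j) = if i = j then 1 else 0) (o1 : ∀ j, Φ.B r (o j) = 0) (hs : s ∈ PU Φ)
    (o2 : ∀ j, Φ.B s (o j) = 0) (o3 : Φ.B s r = 0) (H : ∀ w ∈ PU Φ, Φ.B r w = 0 → Φ.B s w = 0 → π s ≠ π w →
      ∃ c : K4, Commute (π (w + c • s)) x) : False := by
  have key : ∀ w, Φ.B w w = 0 → Φ.B r w = 0 → Φ.B s w = 0 → (∃ j, Φ.B w (o j) ≠ 0) → ∃ c : K4, w + c • s ∈ PU Φ ∧
      Φ.B (w + c • s) r = 0 ∧ Commute (π (w + c • s)) x ∧ ∃ t : K4, t ≠ 0 ∧ w + c • s + t • r ∈ PU Φ ∧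
        Commute (π (w + c • s + t • r)) x := fun w a b c ⟨j, e⟩ => by
    have hw : w ∈ PU Φ := ⟨fun z => e (by simp [z]), a⟩
    have n : π s ≠ π w := fun z => by
      obtain ⟨t, rfl⟩ := (k.eq _ hs _ hw).1 z
      simp [o2] at e
    obtain ⟨u, q⟩ := H w hw b c n
    have m : w + u • s ∈ PU Φ := by simpa using k.pu hw hs c n (a := 1) (c := u) (Or.inl one_ne_zero)
    have p : Φ.B (w + u • s) r = 0 := by simp [o3, k.sym r w, b]
    obtain ⟨t, t0, t1, t2⟩ := k.l3 hr nr m p q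
    exact ⟨u, m, p, q, t, t0, t1 t, (t2 t).2 (Or.inr rfl)⟩
  have o4 : ∀ j, Φ.B (o j) s = 0 := fun j => by rw [k.sym, o2, map_zero]
  obtain ⟨c1, a1, b1, d1, t1, e1, f1, g1⟩ := key (o 0 + o 1) (by simp only [bx, ho]; decide) (by simp [o1]) (by simp [o2])
    ⟨0, by simp [ho]⟩
  obtain ⟨c2, a2, b2, d2, t2, e2, f2, g2⟩ := key (o 1 + o 2) (by simp only [bx, ho]; decide) (by simp [o1]) (by simp [o2])
    ⟨1, by simp [ho]⟩
  obtain ⟨c3, a3, b3, d3, t3, e3, f3, g3⟩ := key (o 0 + om • o 2) (by simp only [bx, ho]; decide) (by simp [o1]) (by simp [o2])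
    ⟨0, by simp [ho]⟩
  have h1 := k.g2 hr nr a1 b1 d1 a2 b2 d2 (by simp [ho, o2, o4, hs.2]) e1 e2 f1 f2 g1 g2
  have h2 := k.g2 hr nr a1 b1 d1 a3 b3 d3 (by simp [ho, o2, o4, hs.2]) e1 e3 f1 f3 g1 g3
  have h3 := k.g2 hr nr a2 b2 d2 a3 b3 d3 (by simp [ho, o2, o4, hs.2]; decide) e2 e3 f2 f3 g2 g3
  simp [ho, o2, o4, hs.2] at h1 h2 h3
  rw [h1, h2] at h3
  exact absurd (mul_right_cancel₀ e1 ((one_mul t1).trans h3)) (by decide)
omit hr nr
theorem seven : finrank K4 V < 7 := by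
  by_contra! hn
  obtain ⟨_, hb, c⟩ := tp_cn k.tp k.md k.mx k.n
  obtain ⟨s, hs, rfl⟩ := k.sur hb
  obtain ⟨o, o1, ho⟩ := ex_on k.toPM hs (m := 5) hn
  have hr : o 3 + o 4 ∈ PU Φ := ⟨fun z => by simpa [ho] using congrArg (Φ.B (o 3)) z, by simp only [bx, ho]; decide⟩
  have n : π s ≠ π (o 3 + o 4) := fun z => by
    obtain ⟨t, e⟩ := (k.eq _ hs _ hr).1 z
    simpa [ho, k.sym s, o1] using congrArg (Φ.B (o 3)) e
  obtain ⟨u, e⟩ := k.l2 hr hs (by simp [o1]) n c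
  refine k.g3 (by simpa using k.pu hr hs (by simp [o1]) n (a := 1) (c := u + 1) (Or.inl one_ne_zero))
    (mt (e (u + 1)).1 (by simp)) ![o 0, o 1, o 2] (fun i j => ?_) (fun j => ?_) hs (fun j => ?_) (by simp [o1, hs.2])
    fun w hw _ b n => let ⟨a, e⟩ := k.l2 hw hs b n c; ⟨a, (e a).2 rfl⟩
  · fin_cases i <;> fin_cases j <;> simp [ho]
  · fin_cases j <;> simp [ho, o1]
  · fin_cases j <;> simp [o1]
theorem five : finrank K4 V ≠ 5 := fun hn => by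
  obtain ⟨_, hb, c⟩ := tp_ex k.tp k.md k.mx k.n
  obtain ⟨r, hr, rfl⟩ := k.sur hb
  obtain ⟨o, o1, ho⟩ := ex_on k.toPM hr (m := 3) hn.ge
  refine k.g3 hr c o ho o1 hr o1 hr.2 fun w hw b _ n => ?_
  by_contra! q
  let α : Fin 5 → K4 := ![0, 1, 1, 1, 1]
  let γ : Fin 5 → K4 := ![1, 0, 1, om, om + 1]
  have i := k.li hw hr n
  have m : ∀ i, α i • w + γ i • r ∈ PU Φ := fun i => k.pu hw hr b n (by revert i; decide)
  have nc : ∀ i, ¬ Commute (π (α i • w + γ i • r)) x := fun i => by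
    fin_cases i
    exacts [by simpa [α, γ] using c, by simpa [α, γ] using q 0, by simpa [α, γ] using q 1, by simpa [α, γ] using q om,
      by simpa [α, γ] using q (om + 1)]
  have inj : Function.Injective fun i => π (α i • w + γ i • r) := fun a b e => by
    obtain ⟨t, e⟩ := (k.eq _ (m a) _ (m b)).1 e
    exact (by decide +kernel : ∀ a b t, α b - t * α a = 0 ∧ γ b - t * γ a = 0 → a = b) a b t
      (LinearIndependent.pair_iff.1 i _ _ (by linear_combination (norm := module) e))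
  have cm : ∀ i j, Commute (π (α i • w + γ i • r)) (π (α j • w + γ j • r)) := fun i j =>
    k.cm0 (m i) (m j) (by simp [hw.2, hr.2, b, k.sym r w])
  refine sts5 (FS.of k.tp.toTT) k.mx k.md (ncs k.n) _ (fun i => k.mem (m i)) cm inj nc fun a a' ne => ?_
  have st : St D x d _ _ := ⟨FS.of k.tp.toTT, k.mx, k.md, (k.mem (m a)).1, (k.mem (m a')).1, (k.mem (m a)).2.2,
    (k.mem (m a')).2.2, cm a a', (k.mem (m a)).2.1.symm, (k.mem (m a')).2.1.symm, inj.ne ne, ncs k.n, nc a, nc a'⟩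
  obtain ⟨z, hz, e⟩ := k.sur ⟨st.mem, st.na, st.ca⟩
  have h1 := (k.cmU (m a) hz).1 (e ▸ st.cb)
  have h2 := (k.cmU (m a') hz).1 (e ▸ st.cc')
  simp only [bx] at h1 h2
  obtain ⟨h1, h2⟩ := (by decide +kernel : ∀ a a', a ≠ a' → ∀ p q : K4, c4 (α a) * p + c4 (γ a) * q = 0 →
    c4 (α a') * p + c4 (γ a') * q = 0 → p = 0 ∧ q = 0) a a' ne _ _ h1 h2
  have : z ∈ Submodule.span K4 (Set.range ![w, r]) := by
    by_contra nz
    have := dim_ge k.nd (linearIndependent_finCons.2 ⟨i, nz⟩) fun i j => by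
      fin_cases i <;> fin_cases j <;> simp [hw.2, hr.2, hz.2, b, h1, h2, k.sym r w, k.sym r z, k.sym w z]
    omega
  obtain ⟨g, rfl⟩ := (Submodule.mem_span_range_iff_exists_fun K4).1 this
  obtain ⟨l, t, t1, t2⟩ := (by decide +kernel : ∀ a c : K4, ∃ l t, a = t * α l ∧ c = t * γ l) (g 0) (g 1)
  exact ⟨l, e.symm.trans ((k.eq _ (m l) _ hz).2 ⟨t, by simp [t1, t2, mul_smul]⟩).symm⟩
end Lu

theorem loc_u (h : TP D) (hd : d ∈ D) (t : ∀ b ∈ D, TP (sub (dd D b))) (hn : 4 ≤ n) (q : IsU (dd D d) n) : n = 4 ∨ n = 6 := by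
  obtain ⟨V, _, _, _, Φ, π, rfl, l⟩ := q
  obtain ⟨x, hx, c⟩ := h.nc hd
  have k : Lu D d x Φ π := ⟨l, h, hd, hx, ncs c, t⟩
  have := k.seven
  have := k.five
  omega

end H1.Fi
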