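import Cfsg.Agent.H1.Fy
import Cfsg.Agent.H1.Fe
import Cfsg.Agent.H1.Fty

/-! Fischer's theorem: the sporadic steps. -/

set_option autoImplicit false
set_option linter.unusedSectionVars false
set_option linter.unusedSimpArgs false
set_option maxRecDepth 100000

namespace H1.Fi
open Cfsg H18 H27 H28 H23 H12 Module Subgroup Matrix

universe u
variable {G M : Type*} [Group G] [Group M] {D A T : Set G} {B : Set M} {σ : G → M} {d : G} {n k m : ℕ}

/-- the double perpendicular -/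
def bb (A T : Set G) : Set G := {y | y ∈ A ∧ ∀ z ∈ A, (∀ t ∈ T, Commute t z) → Commute y z}
/-- a clique -/
def Cq (A T : Set G) : Prop := T ⊆ A ∧ ∀ a ∈ T, ∀ b ∈ T, Commute a b
/-- the design on a maximal clique -/
structure Dz (k m : ℕ) (A : Set G) : Prop where
  mx : ∃ L, Cq A L ∧ L.ncard = m + 1 ∧ ∀ y ∈ A, (∀ x ∈ L, Commute x y) → y ∈ L
  bl : ∀ T, Cq A T → T.ncard = k + 2 → (bb A T).ncard = k + 5
theorem Cq.img (h : Cq A T) (f : FIso A B σ) : Cq B (σ '' T) :=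
  ⟨by rintro _ ⟨x, hx, rfl⟩; exact f.mem (h.1 hx), by
    rintro _ ⟨x, hx, rfl⟩ _ ⟨y, hy, rfl⟩; exact (f.comm (h.1 hx) (h.1 hy)).2 (h.2 x hx y hy)⟩
theorem bb_img (f : FIso A B σ) (h : T ⊆ A) : σ '' bb A T = bb B (σ '' T) := Set.ext fun y => by
  constructor
  · rintro ⟨y, hy, rfl⟩
    refine ⟨f.mem hy.1, fun z hz q => ?_⟩
    obtain ⟨z, hz', rfl⟩ := f.surj hz
    exact (f.comm hy.1 hz').2 (hy.2 z hz' fun t ht => (f.comm (h ht) hz').1 (q _ ⟨t, ht, rfl⟩))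
  · intro hy
    obtain ⟨y, hy', rfl⟩ := f.surj hy.1
    exact ⟨y, ⟨hy', fun z hz q => (f.comm hy' hz).1 (hy.2 _ (f.mem hz) (by
      rintro _ ⟨t, ht, rfl⟩; exact (f.comm (h ht) hz).2 (q t ht)))⟩, rfl⟩
theorem Dz.fiso (h : Dz k m A) (f : FIso A B σ) : Dz k m B := by
  obtain ⟨⟨L, c, e, q⟩, b⟩ := h
  refine ⟨⟨_, c.img f, ((f.bij.injOn.mono c.1).ncard_image).trans e, fun y hy r => ?_⟩, fun T t e => ?_⟩
  · obtain ⟨y, hy', rfl⟩ := f.surj hy
    exact ⟨y, q y hy' fun x hx => (f.comm (c.1 hx) hy').1 (r _ ⟨x, hx, rfl⟩), rfl⟩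
  obtain ⟨τ, g, -⟩ := f.symm
  rw [← b _ (t.img g) (((g.bij.injOn.mono t.1).ncard_image).trans e), ← bb_img g t.1,
    (g.bij.injOn.mono fun _ h => h.1).ncard_image]
theorem Dz.loc (h : Dz k m B) (l : Loc D B) (hd : d ∈ D) : Dz (k + 1) (m + 1) D := by
  have r : ∀ d ∈ D, Dz k m (dd D d) := fun d hd => let ⟨_, t⟩ := l d hd; nbd D d ▸ h.fiso t
  refine ⟨?_, fun T t e => ?_⟩
  · obtain ⟨L, c, e, q⟩ := (r d hd).mx
    refine ⟨insert d L, ⟨Set.insert_subset hd fun x hx => (c.1 hx).1, ?_⟩, ?_, fun y hy s => ?_⟩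
    · rintro a (rfl | ha) b (rfl | hb)
      exacts [Commute.refl _, (c.1 hb).2.2, (c.1 ha).2.2.symm, c.2 a ha b hb]
    · rw [Set.ncard_insert_of_notMem (fun m => (c.1 m).2.1 rfl) (Set.finite_of_ncard_ne_zero (by omega)), e]
    exact or_iff_not_imp_left.2 fun n => q y ⟨hy, n, s d (Or.inl rfl)⟩ fun x hx => s x (Or.inr hx)
  obtain ⟨p, hp⟩ := Set.nonempty_of_ncard_ne_zero (s := T) (by omega)
  have := (r p (t.1 hp)).bl (T \ {p}) ⟨fun x hx => ⟨t.1 hx.1, hx.2, t.2 p hp x hx.1⟩, fun a ha b hb => t.2 a ha.1 b hb.1⟩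
    (by rw [Set.ncard_diff_singleton_of_mem hp, e]; rfl)
  rw [show bb D T = insert p (bb (dd D p) (T \ {p})) from Set.ext fun y => ⟨fun hy => or_iff_not_imp_left.2 fun n =>
    ⟨⟨hy.1, n, (hy.2 p (t.1 hp) fun x hx => t.2 x hx p hp).symm⟩, fun z hz q => hy.2 z hz.1 fun x hx => by
      by_cases e : x = p
      exacts [e ▸ hz.2.2, q x ⟨hx, e⟩]⟩, by
      rintro (rfl | hy)
      · exact ⟨t.1 hp, fun z _ q => q _ hp⟩
      refine ⟨hy.1.1, fun z hz q => ?_⟩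
      by_cases e : z = p
      exacts [e ▸ hy.1.2.2.symm, hy.2 z ⟨hz, e, q p hp⟩ fun x hx => q x hx.1]⟩,
    Set.ncard_insert_of_notMem (fun m => m.1.2.1 rfl) (Set.finite_of_ncard_ne_zero (by omega)), this]
theorem Dz.no (h : Dz 4 24 D) : False := by
  classical
  obtain ⟨⟨L, c, e, q⟩, b⟩ := h
  obtain ⟨L, rfl⟩ := (Set.finite_of_ncard_ne_zero (s := L) (by omega)).exists_finset_coe
  rw [Set.ncard_coe_finset] at e
  have b' : ∀ T : Finset G, T ⊆ L → T.card = 6 → (bb D T).ncard = 9 := fun T s t =>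
    b T ⟨fun x hx => c.1 (s hx), fun x hx y hy => c.2 x (s hx) y (s hy)⟩ (by rw [Set.ncard_coe_finset, t])
  have : 84 ∣ (L.powersetCard 6).card := by
    rw [Finset.card_eq_sum_card_image fun T : Finset G => bb D T]
    refine Finset.dvd_sum fun S hS => ?_
    obtain ⟨T, hT, rfl⟩ := Finset.mem_image.1 hS
    obtain ⟨t1, t2⟩ := Finset.mem_powersetCard.1 hT
    have f := Set.finite_of_ncard_ne_zero (s := bb D T) (by rw [b' T t1 t2]; omega)
    have s : bb D T ⊆ L := fun y hy => q y hy.1 fun x hx => (hy.2 x (c.1 hx) fun t ht => c.2 t (t1 ht) x hx).symm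
    rw [show Finset.filter _ _ = f.toFinset.powersetCard 6 from Finset.ext fun U => ?_, Finset.card_powersetCard,
      ← Set.ncard_eq_toFinset_card _ f, b' T t1 t2]
    · rfl
    rw [Finset.mem_filter, Finset.mem_powersetCard, Finset.mem_powersetCard, Set.Finite.subset_toFinset]
    refine ⟨fun ⟨⟨a, b⟩, r⟩ => ⟨r ▸ fun y hy => ⟨c.1 (a hy), fun z _ k => k y hy⟩, b⟩, fun ⟨a, b⟩ => ?_⟩
    have a' : U ⊆ L := fun y hy => s (a hy)
    exact ⟨⟨a', b⟩, Set.eq_of_subset_of_ncard_le (fun y hy => ⟨hy.1, fun z hz k => hy.2 z hz fun t ht => (a ht).2 z hz k⟩)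
      (by rw [b' T t1 t2, b' U a' b]) f⟩
  rw [Finset.card_powersetCard, e] at this
  exact absurd this (by decide)

section
variable {V : Type} [AddCommGroup V] [Module K4 V] [Finite V] {Φ : Form c4 V} {π : V → G} {w : V}
theorem ex_iso (h : PM Φ (PU Φ)) (hw : Φ.B w w = 0) {z : V} (c : Φ.B w z ≠ 0) : ∃ t : K4, z + t • w ∈ PU Φ := by
  obtain ⟨t, e⟩ := (by decide +kernel : ∀ a c : K4, a = 0 ∨ a = 1 → c ≠ 0 → ∃ t, a + c4 t * c + t * c4 c = 0) _ _ (h.n01 z) c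
  exact ⟨t, fun q => c (by simpa [hw] using congrArg (Φ.B w) q), by
    simp only [bx, hw, h.sym w z]; linear_combination e⟩
theorem LM.dz (l : LM Φ (PU Φ) A π) (hn : finrank K4 V = 6) : Dz 0 20 A := by
  classical
  refine ⟨?_, fun T t e => ?_⟩
  · obtain ⟨o, ho⟩ := exists_orthonormal_family_herm (conj_ne_id card_K4) l.eps l.nd hn.ge
    let f : Fin 3 → V := ![o 0 + o 1, o 2 + o 3, o 4 + o 5]
    have i : LinearIndependent K4 f := Form.linearIndependent_of_dual (Φ := Φ) (w := ![o 0, o 2, o 4])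
      (fun i j => by fin_cases i <;> fin_cases j <;> simp [f, ho]) fun i => by fin_cases i <;> simp [f, ho]
    have z : ∀ i j, Φ.B (f i) (f j) = 0 := fun i j => by
      fin_cases i <;> fin_cases j <;> simp only [f, Matrix.cons_val, Fin.zero_eta, Fin.mk_one, Fin.reduceFinMk, bx, ho] <;> decide
    let κ : K4 × K4 × K4 → V := fun p => p.1 • f 0 + p.2.1 • f 1 + p.2.2 • f 2
    have j : ∀ p q t, κ q = t • κ p → q = t • p := fun p q t e => by
      have := Fintype.linearIndependent_iff.1 i ![q.1 - t * p.1, q.2.1 - t * p.2.1, q.2.2 - t * p.2.2] (by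
        simp only [κ] at e; simp only [Fin.sum_univ_three, Matrix.cons_val]; linear_combination (norm := module) e)
      exact Prod.ext (sub_eq_zero.1 (this 0)) (Prod.ext (sub_eq_zero.1 (this 1)) (sub_eq_zero.1 (this 2)))
    let S : Finset (K4 × K4 × K4) := Finset.univ.filter fun p => p.1 = 1 ∨ p.1 = 0 ∧ (p.2.1 = 1 ∨ p.2.1 = 0 ∧ p.2.2 = 1)
    have m : ∀ p ∈ S, κ p ∈ PU Φ := fun p hp => ⟨fun e => (by decide +kernel : ∀ p ∈ S, p ≠ (0 : K4) • p) p hp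
      (j p p 0 (by rw [e, smul_zero])), by simp [κ, z]⟩
    refine ⟨(fun p => π (κ p)) '' S, ⟨by rintro _ ⟨p, hp, rfl⟩; exact l.mem (m p hp), ?_⟩, ?_, fun y hy s => ?_⟩
    · rintro _ ⟨p, hp, rfl⟩ _ ⟨q, hq, rfl⟩
      exact l.cm0 (m p hp) (m q hq) (by simp [κ, z])
    · rw [Set.InjOn.ncard_image fun p hp q hq e => ?_, Set.ncard_coe_finset]
      · decide +kernel
      obtain ⟨t, e⟩ := (l.eq _ (m p hp) _ (m q hq)).1 e
      obtain rfl := j p q t e
      exact (by decide +kernel : ∀ p ∈ S, ∀ t : K4, t • p ∈ S → p = t • p) p hp t hq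
    obtain ⟨y, hy', rfl⟩ := l.sur hy
    have s' : ∀ p ∈ S, Φ.B (κ p) y = 0 := fun p hp => (l.cmU (m p hp) hy').1 (s _ ⟨p, hp, rfl⟩)
    have r : ∀ i, Φ.B (f i) y = 0 := fun i => by
      fin_cases i
      exacts [by simpa [κ] using s' (1, 0, 0) (by decide), by simpa [κ] using s' (0, 1, 0) (by decide),
        by simpa [κ] using s' (0, 0, 1) (by decide)]
    have : y ∈ Submodule.span K4 (Set.range f) := by
      by_contra nz
      have := dim_ge l.nd (linearIndependent_finCons.2 ⟨i, nz⟩) fun a b => by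
        refine Fin.cases ?_ (fun a => ?_) a <;> refine Fin.cases ?_ (fun b => ?_) b <;> simp [hy'.2, z, r, l.sym _ y]
      omega
    obtain ⟨g, rfl⟩ := (Submodule.mem_span_range_iff_exists_fun K4).1 this
    obtain ⟨p, hp, t, e⟩ := (by decide +kernel : ∀ q : K4 × K4 × K4, ∃ p ∈ S, ∃ t : K4, q = t • p) (g 0, g 1, g 2)
    simp only [Prod.ext_iff, Prod.smul_fst, Prod.smul_snd, smul_eq_mul] at e
    exact ⟨p, hp, (l.eq _ (m p hp) _ hy').2 ⟨t, by simp [κ, Fin.sum_univ_three, e, mul_smul]⟩⟩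
  obtain ⟨a, b, n, rfl⟩ := Set.ncard_eq_two.1 e
  obtain ⟨w, hw, rfl⟩ := l.sur (t.1 (Or.inl rfl))
  obtain ⟨r, hr, rfl⟩ := l.sur (t.1 (Or.inr rfl))
  have b := (l.cmU hr hw).1 (t.2 _ (Or.inr rfl) _ (Or.inl rfl))
  let α : Fin 5 → K4 := ![0, 1, 1, 1, 1]
  let γ : Fin 5 → K4 := ![1, 0, 1, om, om + 1]
  have i : LinearIndependent K4 ![w, r] := LinearIndependent.pair_iff' hw.1 |>.2 fun t e => n ((l.eq w hw r hr).2 ⟨t, e.symm⟩)
  have m : ∀ j, α j • w + γ j • r ∈ PU Φ := fun j => ⟨fun q => (by decide : ∀ j, ¬ (α j = 0 ∧ γ j = 0)) j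
    (LinearIndependent.pair_iff.1 i _ _ q), by simp [hr.2, hw.2, b, l.sym r w]⟩
  have inj : Function.Injective fun i => π (α i • w + γ i • r) := fun a b e => by
    obtain ⟨t, e⟩ := (l.eq _ (m a) _ (m b)).1 e
    exact (by decide +kernel : ∀ a b t, α b - t * α a = 0 ∧ γ b - t * γ a = 0 → a = b) a b t
      (LinearIndependent.pair_iff.1 i _ _ (by linear_combination (norm := module) e))
  suffices bb A {π w, π r} = Set.range fun i => π (α i • w + γ i • r) by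
    rw [this, Set.ncard_range_of_injective inj, Nat.card_fin]
  refine Set.Subset.antisymm (fun y hy => ?_) ?_
  · obtain ⟨y, hy', rfl⟩ := l.sur hy.1
    have q : ∀ z ∈ PU Φ, Φ.B w z = 0 → Φ.B r z = 0 → Φ.B y z = 0 := fun z hz c1 c2 => (l.cmU hy' hz).1 (hy.2 _ (l.mem hz) (by
      rintro _ (rfl | rfl); exacts [l.cm0 hw hz c1, l.cm0 hr hz c2]))
    have : y ∈ Submodule.span K4 (Set.range ![w, r]) := by
      rw [← l.nd.perp_perp (Submodule.span _ _)]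
      refine fun z hz => Form.B_eq_zero_symm _ (by_contra fun c => ?_)
      obtain ⟨t, e⟩ := ex_iso l.toPM hy'.2 c
      have c1 : Φ.B w z = 0 := Φ.mem_perp_span.1 hz _ ⟨0, rfl⟩
      have c2 : Φ.B r z = 0 := Φ.mem_perp_span.1 hz _ ⟨1, rfl⟩
      exact c (by simpa [hy'.2] using q _ e (by simp [c1, l.sym y w, q w hw hw.2 b]) (by
        simp [c2, l.sym y r, q r hr (by rw [l.sym, b, map_zero]) hr.2]))
    obtain ⟨g, rfl⟩ := (Submodule.mem_span_range_iff_exists_fun K4).1 this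
    obtain ⟨j, t, t1, t2⟩ := (by decide +kernel : ∀ a c : K4, ∃ l t, a = t * α l ∧ c = t * γ l) (g 0) (g 1)
    exact ⟨j, (l.eq _ (m j) _ hy').2 ⟨t, by simp [t1, t2, mul_smul]⟩⟩
  rintro _ ⟨j, rfl⟩
  refine ⟨l.mem (m j), fun z hz q => ?_⟩
  obtain ⟨z, hz', rfl⟩ := l.sur hz
  exact l.cm0 (m j) hz' (by simp [(l.cmU hw hz').1 (q _ (Or.inl rfl)), (l.cmU hr hz').1 (q _ (Or.inr rfl))])
theorem LM.ncU (l : LM Φ (PU Φ) A π) : NC A := fun p hp => by
  obtain ⟨w, hw, rfl⟩ := l.sur hp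
  obtain ⟨z, e⟩ := l.nd.exists_ne hw.1
  obtain ⟨t, m⟩ := ex_iso l.toPM hw.2 (e ▸ one_ne_zero : Φ.B w z ≠ 0)
  exact ⟨_, l.mem m, by simp [l.cmU hw m, e, hw.2]⟩
end

theorem IsU.mat (k : IsU D n) : ∃ τ, FIso D {g : SU n K4 2 | (g.1.1 - 1).rank = 1} τ := by
  obtain ⟨V, _, _, _, Φ, π, rfl, k⟩ := k
  obtain ⟨e, he, -⟩ := exists_equiv_huForm card_K4 k.nd k.eps rfl
  have l := k.equiv e he rfl
  exact l.mat ((slToMat _ K4).comp (Subgroup.subtype _))
    (fun a b e => Subtype.ext (Subtype.ext e)) (fun g hg => by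
      obtain ⟨d, hd, c, hc, q⟩ := rank_one_form l.nd (M := g.1.1) (fun x y => g.2 y x) hg
      have h1 : LinearMap.det (LinearMap.transvection (c • (huForm card_K4 _).B d) d) = 1 := by
        rw [← g.1.2, ← LinearMap.det_toLin']
        exact congrArg _ (LinearMap.ext fun x => (q x).symm)
      rw [LinearMap.transvection.det, add_eq_left] at h1
      have h3 : (huForm card_K4 _).B d d = 0 := (mul_eq_zero.1 h1).resolve_left hc
      obtain ⟨y, hy⟩ := l.nd.exists_ne hd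
      have h4 : (huForm card_K4 _).B (g.1.1 *ᵥ y) (g.1.1 *ᵥ y) = (huForm card_K4 _).B y y := g.2 y y
      simp only [q, hy, bx, h3, l.sym d y, map_one, mul_one, mul_zero, add_zero] at h4
      obtain rfl := (k4_01 c (by grind)).resolve_left hc
      exact ⟨d, ⟨by simpa using hd, (he d d).trans h3⟩, fun x => (q x).trans (by rw [one_mul])⟩) fun v hv => by
      have q : (huForm card_K4 _).B v v = 0 := (he v v).symm.trans hv.2
      have hB := (huForm card_K4 _).qrefl_B (d := v) (c := 1) (by rw [q]; simp; decide)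
      obtain ⟨A, hA⟩ := exists_SU_eq card_K4 (g := Form.equivOfIsometry l.nd _ hB)
        ((Form.mem_O _).2 ⟨hB, fun _ => rfl⟩) (by
          show LinearMap.det ((huForm card_K4 _).qrefl _ _) = 1
          rw [Form.qrefl_eq_transvection, LinearMap.transvection.det]
          simp only [one_smul, q, add_zero])
      have := fun x => (DFunLike.congr_fun hA x).trans ((Form.equivOfIsometry_apply l.nd _ hB x).trans
        (Form.qrefl_apply _ _ _ _))
      exact ⟨A, rank_of_form l.nd (l.ne v hv) one_ne_zero this, fun x => (this x).trans (by rw [one_mul])⟩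
theorem fiso_mk (h : IsThreeTranspositionClass D) (c : NC D) : FIso D (QuotientGroup.mk '' D : Set (G ⧸ center G)) QuotientGroup.mk :=
  ⟨fun x _ y hy => class_conj_mem h x y hy, ⟨Set.mapsTo_image _ _, fun x hx y hy e => by
    obtain ⟨w, hw, n⟩ := c x hx
    have z := mem_center_iff.1 (QuotientGroup.eq.1 e)
    exact (tt_eq_of_central h.1 hx hy hw (mul_inv_cancel_left _ _).symm (z x).symm (z w).symm (ncs n)).symm,
    Set.surjOn_image _ _⟩, fun _ _ _ _ => rfl⟩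
theorem IsU.u22 (k : IsU A 6) : ∃ τ, FIso U22 A τ := by
  obtain ⟨τ, t⟩ := k.mat
  obtain ⟨ρ, r, -⟩ := t.symm
  have c := Agent.S1631.result K4 card_K4 6 (by norm_num)
  have nc := r.nc (let ⟨_, _, _, _, _, _, _, l⟩ := k; l.ncU)
  have f := fiso_mk c nc
  obtain ⟨-, a, ⟨σ, s⟩, ha⟩ := u6_main (F := K4) card_K4
  have sub : ∀ x ∈ {g : SU 6 K4 2 | (g.1.1 - 1).rank = 1}, (x : PSU 6 K4 2) ∈ conjugatesOf a := fun x hx => ha _
    (orderOf_eq_prime (by rw [← QuotientGroup.mk_pow, sq, tt_sq c.1 hx]; rfl) fun e => by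
      obtain ⟨w, hw, n⟩ := nc x hx
      exact n (mem_center_iff.1 ((QuotientGroup.eq_one_iff x).1 e) w).symm) fun g => by
      obtain ⟨g, rfl⟩ := QuotientGroup.mk_surjective g
      exact congrArg QuotientGroup.mk ((TT.of_class c).pow_six hx (class_conj_mem c g x hx))
  have e : QuotientGroup.mk '' {g : SU 6 K4 2 | (g.1.1 - 1).rank = 1} = conjugatesOf a :=
    Set.Subset.antisymm (by rintro _ ⟨x, hx, rfl⟩; exact sub x hx) fun y hy => by
      obtain ⟨x, hx, -⟩ := c.2.1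
      obtain ⟨g, rfl⟩ := isConj_iff.1 ((sub x hx).symm.trans hy)
      obtain ⟨g, rfl⟩ := QuotientGroup.mk_surjective g
      exact ⟨_, class_conj_mem c g x hx, rfl⟩
  obtain ⟨_, f', -⟩ := (e ▸ f).symm
  exact ⟨_, (s.trans f').trans r⟩
theorem dz22 : Dz 0 20 U22 := by
  have l := (pmU (huForm_nondeg card_K4 6) rfl).lm.1
  obtain ⟨τ, t⟩ := IsU.u22 ⟨_, _, _, inferInstance, _, _, finrank_fin_fun K4, l⟩
  obtain ⟨_, s, -⟩ := t.symm
  exact (l.dz (finrank_fin_fun K4)).fiso s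
theorem no_loc24 (l : Loc D E24) (hd : d ∈ D) : False :=
  ((((dz22.loc loc22 (IsConj.refl _)).loc loc23 (IsConj.refl _)).loc loc24 (IsConj.refl _)).loc l hd).no

/-- the test excluding a trace -/
noncomputable def stChk (T : TD) (X : Nat) (P : List Pt) (p q : Pt) : Bool := force X fun X =>
  and' (and' (and' (T.ok (p :: q :: P)) (Nat.beq (T.pp P (ones T.n)) 0)) (and' (not' (tb X (T.pi p))) (not' (tb X (T.pi q)))))
    (and' (and' (tb (T.pn p) (T.pi q)) (not' (Nat.beq (T.pi p) (T.pi q))))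
      (allL P fun r => and' (tb X (T.pi r)) (tb X (T.pi (r.1, cat (ptW p) (cat (ptW q) r.2))))))
theorem no_st {T : TD} {ε : Nat → M} {xs : List M} {E : Set M} (h : TM T ε xs E) {X : Nat} {P : List Pt} {p q : Pt}
    (ck : stChk T X P p q = true) (f : FS D) (hd : d ∈ D) {c : G} (hc : c ∈ D) (n : ¬ Commute d c) {τ : M → G}
    (t : FIso E (Nb D [d]) τ) (k : ∀ p ∈ E, Commute c (τ p) ↔ p ∈ mset T.n ε X) : False := by
  have k' : ∀ p : Pt, p.1 < T.m → (Commute c (τ (pv xs p)) ↔ tb X (T.pi p) = true) := fun p o => by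
    rw [k _ (h.pv_mem o), ← h.pi_eq o, tb_eq]
    exact mem_mset h.bij.injOn (h.pi_lt o)
  simp only [stChk, force_eq, and'_eq, not'_eq, Bool.and_eq_true, Bool.not_eq_true', Bool.eq_false_iff, allL_iff, TD.ok_iff,
    List.forall_mem_cons, beq_iff, Ne] at ck
  obtain ⟨⟨⟨⟨o1, o2, o⟩, c0⟩, c1, c2⟩, ⟨c4, c5⟩, c3⟩ := ck
  have p1 := h.pv_mem o1
  have p2 := h.pv_mem o2
  have m1 := mem_nb1.1 (t.mem p1)
  have m2 := mem_nb1.1 (t.mem p2)
  have st : St D c d (τ (pv xs p)) (τ (pv xs q)) := ⟨f, hc, hd, m1.1, m2.1, m1.2.2, m2.2.2,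
    (t.comm p1 p2).2 ((h.comm_iff o1 o2).1 c4), m1.2.1.symm, m2.2.1.symm,
    fun e => c5 ((h.eq_iff o2 (h.pi_lt o1)).1 ((h.pi_eq o1).trans (t.inj p1 p2 e))), n, ncs (mt (k' _ o1).1 c1),
    ncs (mt (k' _ o2).1 c2)⟩
  obtain ⟨z, hz, e⟩ := t.surj (mem_nb1.2 ⟨st.mem, st.na, st.ca⟩)
  obtain ⟨j, hj, rfl⟩ := h.rep.1 z hz
  have := ((h.rep_pp o h.rep).2 j).2 ⟨hj, hz, fun r hr => by
    have pm := h.pv_mem (o r hr)
    rw [← t.comm pm hz, e, st.key (mem_nb1.1 (t.mem pm)).2.2.symm ((k' r (o r hr)).2 (c3 r hr).1).symm,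
      ← t.cj _ p2 _ pm, ← t.cj _ p1 _ (t.clo _ p2 _ pm)]
    have := (k' (r.1, cat (ptW p) (cat (ptW q) r.2)) (o r hr)).2 (c3 r hr).2
    rw [pv, ptW, ev_cjW h.sq, cat_eq, cat_eq, ev_append, ev_append, cjm, cjm, ← ev_cjW h.sq r.2] at this
    exact this⟩
  rw [c0] at this
  simp at this
/-- a word for a transposition of the second class -/
def w24 : List Nat := [1, 2, 3, 4, 9, 10, 5, 4, 9, 6, 7, 5, 6, 3, 4, 5, 2, 3, 4, 9, 10, 6, 4, 5, 2, 3, 4, 9, 8, 7, 6, 5, 4, 3, 2]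
theorem chk24 : stChk t23 (t23.clo s24P1 6) s24P1 (1, w24) (1, 2 :: 4 :: w24) = true := by decide +kernel
theorem fiso24' {G : Type u} [Group G] [Finite G] {D : Set G} (tp : TP D) (h : Loc D E23) : ∃ σ, FIso D E24 σ := by
  obtain ⟨d, hd⟩ := tp.ne
  obtain ⟨c, hc, n⟩ := tp.nc hd
  have hD : IsThreeTranspositionGroup D := ⟨tp.tt, tp.cj, tp.gen⟩
  have hA := h.locA locA23
  obtain ⟨y1, a1, b1⟩ : (Nb D [d] ∩ Nb D [c]).Nonempty :=
    let ⟨y, a, b⟩ := tp_cn tp hd hc (ncs n); ⟨y, mem_nb1.2 a, mem_nb1.2 ⟨a.1, ne_of a.2.2 n, b.symm⟩⟩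
  have sw : ∀ {A : Set G} {x y : G}, x ∈ A → y ∈ Nb A [x] → x ∈ Nb A [y] := fun hx hy =>
    mem_nb1.2 ⟨hx, (mem_nb1.1 hy).2.1.symm, (mem_nb1.1 hy).2.2.symm⟩
  obtain ⟨y2, m2, a2, b2⟩ := (h.pg e23_pg a1.1).cn.step (sw hd a1) (sw hc b1) n
  obtain ⟨_, t0⟩ := h y1 a1.1
  obtain ⟨_, s0, -⟩ := t0.symm
  obtain ⟨y3, m3, a3, b3⟩ := ((loc23.fiso s0).pg e22_pg m2).cn.step a2 b2 n
  obtain ⟨τ, t⟩ := h d hd
  obtain ⟨σ, s, -⟩ := t.symm
  have q : Clq (Nb D [d]) [y1, y2, y3] := by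
    refine ⟨?_, ?_⟩
    · simp only [List.forall_mem_cons]
      exact ⟨a1, sw hd (mem_nb1.2 ⟨m2.1, (mem_nb1.1 (sw m2 a2)).2⟩) |> sw m2.1,
        mem_nb1.2 ⟨m3.1.1, (mem_nb1.1 (sw m3 a3)).2⟩, by simp⟩
    · simp only [List.pairwise_cons, List.forall_mem_cons]
      exact ⟨⟨⟨(mem_nb1.1 m2).2.1.symm, (mem_nb1.1 m2).2.2⟩, ⟨(mem_nb1.1 m3.1).2.1.symm, (mem_nb1.1 m3.1).2.2⟩, by simp⟩,
        ⟨⟨(mem_nb1.1 m3).2.1.symm, (mem_nb1.1 m3).2.2⟩, by simp⟩, by simp⟩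
  obtain ⟨ρ, r, hr⟩ := s24_t2 _ (s.clq q) rfl
  obtain ⟨τ₁, t₁, u1, -⟩ := (s.trans r).symm
  obtain ⟨τ', t', X, hX, k⟩ := s24_top.step (fun x _ => hD.2.1 x) hA hd hc n t₁ (by
    rw [← hr, List.map_map]
    refine List.forall_mem_map.2 fun y hy => ⟨(s.trans r).mem (q.1 y hy), ?_⟩
    rw [show τ₁ ((ρ ∘ σ) y) = y from u1 y (q.1 y hy)]
    revert y
    simp only [List.forall_mem_cons]
    exact ⟨(mem_nb1.1 b1).2.2, (mem_nb1.1 b2).2.2.symm, (mem_nb1.1 b3).2.2.symm, by simp⟩)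
  rw [s24X_eq, List.mem_cons, List.mem_singleton] at hX
  rcases hX with rfl | rfl
  · have z := t23M.cf e23R hD.1 hd hc n t' k s24_f0
    have y := cf24 hD.1 hD.2.1 h hd t' z ((k _ (t23M.pv_mem (by decide))).2 (by
      rw [← t23M.pi_eq (by decide)]
      exact (mem_mset t23M.bij.injOn (t23M.pi_lt (by decide))).2 (by decide +kernel)))
    obtain ⟨τ₀, t₀⟩ := loc24 _ (IsConj.refl (ev x24 [0]))
    obtain ⟨σ, f, -⟩ := top_step hD hd (fun y hy => isConj_iff.2 (tp.cls d hd y hy)) f24_gen (x24_len ▸ rfl) z.mem y (j := 1)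
      (fun N hN e => by
        rw [show [0, 1] = [0] ++ [1] from rfl, ev_append]
        exact f24_normal hN e (t24M.pv_mem (p := (1, [])) (by decide))) (z.nc (0, 1) (by decide)) e24_pg
      (t.ncard.symm.trans t₀.ncard).le (Or.inl (tp.prim_of_rel tp.prim))
    exact ⟨σ, f⟩
  exact (no_st t23M chk24 (FS.of tp.toTT) hd hc n t' k).elim

end H1.Fi
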