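import Cfsg.Agent.H13.F6g
import Cfsg.Agent.H13.FM

/-! The stabiliser of a short vector in the triple cover of the unitary group: reflections and isotropic planes. -/

set_option autoImplicit false

namespace H1.Lf
noncomputable section
open H13 H27 H22 MulAction Subgroup

def pb (a b i j : Nat) : Bool := (tb a i && tb b j) ^^ (tb a j && tb b i)
def polN (a b : Nat) : Bool := pb a b 0 1 ^^ pb a b 2 3 ^^ pb a b 4 5 ^^ pb a b 6 7 ^^ pb a b 8 9 ^^ pb a b 10 11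
theorem pl_v6 (a b : Nat) (i : Fin 6) : pl4 (v6 a i) (v6 b i) = bz (pb a b (2 * i) (2 * i + 1)) :=
  (by decide : ∀ p q r s : Bool, bz p * bz s + bz q * bz r = bz ((p && s) ^^ (q && r))) _ _ _ _
theorem pol_v6 (a b : Nat) : pol q6 (v6 a) (v6 b) = bz (polN a b) := by
  rw [pol_q6, Fin.sum_univ_six]; simp only [pl_v6, polN, bz_xor]; rfl
theorem pol0 {a b : Nat} : pol q6 (v6 a) (v6 b) = 0 ↔ polN a b = false := by
  rw [pol_v6]; cases polN a b <;> decide
def tvN (u a : Nat) : Nat := force u fun u => force a fun a => cond (polN a u) (Nat.xor a u) a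
theorem tv_v6 (u a : Nat) : tv (v6 u) (v6 a) = v6 (tvN u a) := by
  rw [tv_apply, pol_v6, tvN, force_eq, force_eq]
  cases polN a u
  · exact (congrArg _ (zero_smul _ _)).trans (add_zero _)
  · exact (congrArg _ (one_smul _ _)).trans (v6_xor _ _).symm
theorem tvN_lt {u a : Nat} (hu : u < 4096) (ha : a < 4096) : tvN u a < 4096 := by
  rw [tvN, force_eq, force_eq]; cases polN a u
  exacts [ha, Nat.xor_lt_two_pow (n := 12) ha hu]
theorem xs_lt {l : List Nat} (h : ∀ b ∈ l, b < 4096) (a : Nat) : xsum l a < 4096 :=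
  xsum_ind (· < 4096) (by norm_num) (fun _ _ => Nat.xor_lt_two_pow (n := 12)) l h a
def thN : Nat → Nat := xsum [0x2, 0x3, 0x8, 0xc, 0x20, 0x30, 0x80, 0xc0, 0x200, 0x300, 0x800, 0xc00]
theorem th_v6 {a : Nat} (h : a < 4096) : thL (v6 a) = v6 (thN a) := thL_c a h
theorem thN_lt (a : Nat) : thN a < 4096 := xs_lt (by decide) a
theorem v6_eq {a b : Nat} (ha : a < 4096) (hb : b < 4096) : v6 a = v6 b ↔ a = b := E6.eq_iff ha hb
/-- unitary transvections -/
def rf (u : V6) : AL V6 := tv u * tv (thL u) * tv (thL (thL u))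
def rfN (u a : Nat) : Nat := tvN u (tvN (thN u) (tvN (thN (thN u)) a))
theorem rf_v6 {u : Nat} (hu : u < 4096) (a : Nat) : rf (v6 u) (v6 a) = v6 (rfN u a) := by
  rw [rf, th_v6 hu, th_v6 (thN_lt u), LinearEquiv.mul_apply, LinearEquiv.mul_apply, tv_v6, tv_v6, tv_v6, rfN]
theorem rfN_lt {u a : Nat} (hu : u < 4096) (ha : a < 4096) : rfN u a < 4096 :=
  tvN_lt hu (tvN_lt (thN_lt _) (tvN_lt (thN_lt _) ha))
def tt (u : V6) : AL V6 := rf (v6 5) * rf u
def ttN (u a : Nat) : Nat := force (rfN u a) (rfN 5)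
theorem tt_v6 {u : Nat} (hu : u < 4096) (a : Nat) : tt (v6 u) (v6 a) = v6 (ttN u a) := by
  rw [tt, LinearEquiv.mul_apply, rf_v6 hu, rf_v6 (by norm_num), ttN, force_eq]
theorem ttN_lt {u a : Nat} (hu : u < 4096) (ha : a < 4096) : ttN u a < 4096 := by
  rw [ttN, force_eq]; exact rfN_lt (by norm_num) (rfN_lt hu ha)
/-- the stabiliser -/
def SS : Subgroup (AL V6) := M0 ⊓ stabilizer (AL V6) (v6 5)
theorem M0_O6 : M0 ≤ O6 := M0_L0.trans (L0_LS.trans LS_O6)
theorem th5 : thL (v6 5) = v6 10 := th_v6 (by norm_num)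
theorem th80 : thL (v6 80) = v6 160 := th_v6 (by norm_num)
theorem th1280 : thL (v6 1280) = v6 2560 := th_v6 (by norm_num)
theorem th15 : thL (v6 15) = v6 5 := th_v6 (by norm_num)
theorem v0 : v6 0 = 0 := E6.zero
theorem opol {g : AL V6} (h : g ∈ O6) (u w : V6) : pol q6 (g u) (g w) = pol q6 u w := pol_smul (q := q6) (g := g) h u w
section
variable {g : AL V6} (h : g ∈ SS)
include h
theorem s5 : g (v6 5) = v6 5 := h.2
theorem s10 : g (v6 10) = v6 10 := by rw [← th5, M0_th h.1, s5 h]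
theorem spol (u w : V6) : pol q6 (g u) (g w) = pol q6 u w := opol (M0_O6 h.1) u w
theorem rf_conj (u : V6) : g * rf u * g⁻¹ = rf (g u) := by
  have o := M0_O6 h.1
  rw [rf, rf, ← M0_th h.1, ← M0_th h.1, ← tv_conj o, ← tv_conj o, ← tv_conj o]; group
theorem tt_conj (u : V6) : g * tt u * g⁻¹ = tt (g u) := by
  rw [tt, tt, ← rf_conj h u]; conv_rhs => rw [← s5 h, ← rf_conj h]
  group
end
theorem card_SS : Nat.card SS = 25920 := (card_st le_rfl (M0_L0.trans L0_LS)).1 card_M0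
/-- the vectors perpendicular to the short vector -/
def Vp (w : V6) : Prop := pol q6 w (v6 5) = 0 ∧ pol q6 w (v6 10) = 0
def vpN (a : Nat) : Bool := !polN a 5 && !polN a 10
theorem vp_v6 {a : Nat} : Vp (v6 a) ↔ vpN a = true := by simp [Vp, vpN, pol0]
theorem Vp.img {g : AL V6} (h : g ∈ SS) {w : V6} (a : Vp w) : Vp (g w) :=
  ⟨by rw [← s5 h, spol h, a.1], by rw [← s10 h, spol h, a.2]⟩
theorem Vp.add {u w : V6} (a : Vp u) (b : Vp w) : Vp (u + w) :=
  ⟨by rw [qf6.add, a.1, b.1, add_zero], by rw [qf6.add, a.2, b.2, add_zero]⟩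
theorem v15 : v6 15 = v6 5 + v6 10 := v6_xor 5 10
theorem Vp.pol {w : V6} (a : Vp w) {c : Nat} (hc : c ∈ [0, 5, 10, 15]) : pol q6 w (v6 c) = 0 := by
  simp only [List.mem_cons, List.not_mem_nil, or_false] at hc
  rcases hc with rfl | rfl | rfl | rfl
  exacts [v0 ▸ qf6.zero' w, a.1, a.2, by rw [v15, qf6.add', a.1, a.2, add_zero]]
theorem pol_th (u w : V6) : pol q6 (thL u) (thL w) = pol q6 u w := opol (M0_O6 thL_M0) u w
theorem Vp.th {w : V6} (a : Vp w) : Vp (thL w) := by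
  refine ⟨?_, by rw [← th5, pol_th, a.1]⟩
  rw [← th15, pol_th, a.pol (by simp)]
/-- the short vectors perpendicular to the given one -/
def SP : Set V6 := {u | u ∈ S61 ∧ Vp u ∧ u ≠ v6 5 ∧ u ≠ v6 10 ∧ u ≠ v6 15}
def spN (a : Nat) : Bool := tb X61 a && vpN a && decide (16 ≤ a)
theorem sp_v6 {a : Nat} (ha : a < 4096) : v6 a ∈ SP ↔ spN a = true := by
  have := (allN_iff _ _).1 (by decide +kernel : (allN 4096 fun a => decide (tb X61 a = true → vpN a = true →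
    ((a ≠ 5 ∧ a ≠ 10 ∧ a ≠ 15) ↔ 16 ≤ a))) = true) a ha
  rw [decide_eq_true_iff] at this
  simp only [SP, Set.mem_setOf_eq, mem_mset inj6 ha, vp_v6, Ne, v6_eq ha (by norm_num : 5 < 4096), v6_eq ha (by norm_num : 10 < 4096),
    v6_eq ha (by norm_num : 15 < 4096), spN, Bool.and_eq_true, decide_eq_true_iff, ← tb_eq]
  tauto
theorem sp_img {g : AL V6} (h : g ∈ SS) {u : V6} (a : u ∈ SP) : g u ∈ SP :=
  ⟨inv61 (L0_LS (M0_L0 h.1)) a.1, a.2.1.img h, fun e => a.2.2.1 (g.injective (e.trans (s5 h).symm)),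
    fun e => a.2.2.2.1 (g.injective (e.trans (s10 h).symm)),
    fun e => a.2.2.2.2 (g.injective (e.trans (by rw [v15, map_add, s5 h, s10 h])))⟩
theorem sp_all {P : V6 → Prop} (h : ∀ a < 4096, spN a = true → P (v6 a)) : ∀ u ∈ SP, P u :=
  all6 (P := fun u => u ∈ SP → P u) fun a ha b => h a ha ((sp_v6 ha).1 b)

def grow (f : Nat → Nat → Nat) (z : Nat) (c : List (Nat × Nat)) : List Nat → List Nat :=
  List.rec (motive := fun _ => List Nat → List Nat) id
    (fun p _ ih L => force (f p.1 (nth z L p.2)) fun y => ih (y :: L)) c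
theorem grow_ind {f : Nat → Nat → Nat} {z : Nat} (P : Nat → Prop) (h : ∀ k a, P a → P (f k a)) (hz : P z)
    (c : List (Nat × Nat)) : ∀ L, (∀ a ∈ L, P a) → ∀ a ∈ grow f z c L, P a := by
  induction c with
  | nil => exact fun _ h => h
  | cons p c ih =>
    intro L hL
    change ∀ a ∈ force _ fun y => grow f z c (y :: L), _
    rw [force_eq]
    refine ih _ (List.forall_mem_cons.2 ⟨h _ _ ?_, hL⟩)
    rw [nth_eq, List.getD_eq_getElem?_getD]
    cases e : L[p.2]? with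
    | none => exact hz
    | some y => exact hL y (List.mem_of_getElem? e)
def wd (w : List Nat) : AL V6 := (w.map fun i => nth 1 gM0 i).prod
def wdN (w : List Nat) (a : Nat) : Nat := w.foldr (fun i => xsum (nth [] cM0 i)) a
theorem wd_v6 {w : List Nat} (h : ∀ i ∈ w, i < 4) {a : Nat} (ha : a < 4096) :
    wd w ∈ M0 ∧ wd w (v6 a) = v6 (wdN w a) ∧ wdN w a < 4096 := by
  induction w with
  | nil => exact ⟨one_mem _, rfl, ha⟩
  | cons i w ih =>
    obtain ⟨b, c, d⟩ := ih fun j hj => h j (List.mem_cons_of_mem _ hj)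
    have hi := h i List.mem_cons_self
    have k := gM0_cols
    simp only [gM0, cM0, List.forall₂_cons] at k
    refine ⟨mul_mem (mem_cl (by interval_cases i <;> simp [gM0, nth_eq])) b, ?_, xs_lt (by interval_cases i <;> decide) _⟩
    change nth 1 gM0 i (wd w (v6 a)) = _
    rw [c]
    interval_cases i
    exacts [k.1 _ d, k.2.1 _ d, k.2.2.1 _ d, k.2.2.2.1 _ d]
theorem bb4_eq : bb4 = tt (v6 80) := ext6 fun i => by
  rw [tt_v6 (by norm_num)]; exact (bb4_c _ (by revert i; decide)).trans (congrArg v6 (by revert i; decide +kernel))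
theorem B_SS : B06 ≤ SS := fun _ hg => ⟨T16_M0 (B06_T hg), B06_fix hg (by decide +kernel)⟩
theorem tt_SS {u : V6} (h : u ∈ orbit SS (v6 80)) : tt u ∈ SS := by
  obtain ⟨g, rfl⟩ := h
  exact tt_conj g.2 _ ▸ mul_mem (mul_mem g.2 (bb4_eq ▸ B_SS (mem_cl (by simp [gB6])))) (inv_mem g.2)
/-- the subgroup generated by the transvections -/
def N0 : Subgroup (AL V6) := closure (tt '' orbit SS (v6 80))
theorem N0_le : N0 ≤ SS := (closure_le _).2 (by rintro _ ⟨u, a, rfl⟩; exact tt_SS a)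
def sd1 : List Nat := [80, 2799, 4026, 1040, 144]
theorem sd1_mem (k : Nat) : nth 80 sd1 k < 4096 ∧ v6 (nth 80 sd1 k) ∈ orbit SS (v6 80) := by
  have a : ∀ w : List Nat, (∀ i ∈ w, i < 4) → wdN w 5 = 5 → v6 (wdN w 80) ∈ orbit SS (v6 80) := fun w b c =>
    ⟨⟨wd w, (wd_v6 b (a := 5) (by norm_num)).1, (wd_v6 b (by norm_num)).2.1.trans (congrArg v6 c)⟩,
      (wd_v6 b (by norm_num)).2.1⟩
  match k with
  | 0 => exact ⟨by decide, mem_orbit_self _⟩
  | 1 => exact ⟨by decide, a [3] (by decide) (by decide +kernel)⟩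
  | 2 => exact ⟨by decide, a [3, 3] (by decide) (by decide +kernel)⟩
  | 3 => exact ⟨by decide, a [0, 1, 1, 1] (by decide) (by decide +kernel)⟩
  | 4 => exact ⟨by decide, a [0, 0, 0, 2, 0, 0] (by decide) (by decide +kernel)⟩
  | k + 5 => exact ⟨(by decide : 80 < 4096), mem_orbit_self _⟩
def L135 : List Nat := grow (fun k => ttN (nth 80 sd1 k)) 80 [(1, 0), (2, 1), (3, 2), (4, 3), (0, 3), (3, 4), (4, 5), (0, 5), (3, 6), (0, 6), (4, 7), (0, 7), (3, 8), (2, 8), (4, 8), (2, 8), (3, 9), (4, 9), (4, 9), (4, 9), (0, 9), (2, 10), (3, 11), (3, 11), (0, 11), (4, 11), (0, 11), (2, 12), (3, 13), (3, 13), (0, 13), (3, 13), (0, 13), (2, 14), (0, 14), (2, 15), (3, 16), (1, 16), (3, 17), (1, 17), (3, 18), (0, 18), (0, 18), (4, 19), (1, 19), (2, 20), (4, 21), (3, 21), (1, 21), (1, 21), (3, 22), (0, 21), (4, 22), (1, 22), (2, 23), (0, 23), (1, 23), (3, 24), (1, 24), (1, 24), (3, 25), (1, 25), (3, 26), (0, 26), (2, 26),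 (3, 27), (0, 27), (4, 28), (0, 28), (3, 29), (0, 29), (2, 29), (4, 30), (1, 30), (2, 31), (4, 32), (0, 32), (2, 32), (4, 33), (1, 33), (4, 34), (2, 34), (3, 35), (0, 35), (3, 34), (0, 34), (4, 35), (4, 32), (1, 32), (2, 33), (2, 33), (3, 34), (0, 33), (3, 33), (3, 32), (4, 32), (1, 32), (3, 32), (4, 33), (4, 33), (2, 33), (2, 33), (4, 33), (1, 31), (2, 30), (4, 31), (1, 31), (1, 30), (2, 31), (3, 30), (3, 28), (4, 27), (4, 27), (3, 25), (3, 23), (4, 24), (0, 24), (3, 24), (4, 25), (0, 25), (0, 25), (4, 26), (0, 24), (0, 23), (4, 23), (3, 22), (4, 21), (0, 21), (2, 22), (0, 19), (4, 13), (4, 8), (2, 5), (3, 2)] [80]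
theorem orb_step {H : Subgroup (AL V6)} {x : V6} {u a : Nat} (hu : u < 4096) (m : tt (v6 u) ∈ H)
    (b : a < 4096 ∧ v6 a ∈ orbit H x) : ttN u a < 4096 ∧ v6 (ttN u a) ∈ orbit H x :=
  ⟨ttN_lt hu b.1, tt_v6 hu a ▸ let ⟨g, e⟩ := b.2; ⟨⟨_, m⟩ * g, by rw [← e]; rfl⟩⟩
theorem L135_mem : ∀ a ∈ L135, a < 4096 ∧ v6 a ∈ orbit N0 (v6 80) := by
  unfold L135
  exact grow_ind (fun a => a < 4096 ∧ v6 a ∈ orbit N0 (v6 80)) (fun k _ => orb_step (sd1_mem k).1 (Subgroup.subset_closure ⟨_, (sd1_mem k).2, rfl⟩)) ⟨by norm_num, mem_orbit_self _⟩ _ _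
    (List.forall_mem_singleton.2 ⟨by norm_num, mem_orbit_self _⟩)
theorem sp_lst {P : V6 → Prop} (h : ∀ a ∈ L135, a < 4096 → P (v6 a)) : ∀ u ∈ SP, P u := sp_all fun a ha b => h a (by
  have := (by decide +kernel : (forceL L135 fun L => allN 4096 fun a => !spN a || L.elem a) = true)
  rw [forceL_eq] at this
  have := (allN_iff _ _).1 this a ha
  rw [b] at this
  exact List.mem_of_elem_eq_true this) ha
theorem sp_orb : ∀ u ∈ SP, u ∈ orbit N0 (v6 80) := sp_lst fun a b _ => (L135_mem a b).2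
theorem sp_S {u : V6} (h : u ∈ SP) : ∃ g ∈ SS, g (v6 80) = u := let ⟨g, e⟩ := sp_orb u h; ⟨g, N0_le g.2, e⟩
theorem tt_N0 {u : V6} (h : u ∈ SP) : tt u ∈ N0 := let ⟨g, a, e⟩ := sp_S h; Subgroup.subset_closure ⟨u, ⟨⟨g, a⟩, e⟩, rfl⟩
theorem sp80 : v6 80 ∈ SP := (sp_v6 (by norm_num)).2 (by decide +kernel)
theorem N0_ind {H : Subgroup (AL V6)} (h : ∀ u ∈ SP, tt u ∈ H) : N0 ≤ H :=
  (closure_le _).2 (by rintro _ ⟨_, ⟨g, rfl⟩, rfl⟩; exact h _ (sp_img g.2 sp80))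
def sd2 : List Nat := [1280, 1365, 1455, 1536]
def L12 : List Nat := grow (fun k => ttN (nth 80 sd2 k)) 1280
  [(3, 0), (0, 0), (1, 1), (2, 2), (1, 2), (2, 3), (2, 3), (2, 2), (3, 3), (3, 3), (3, 3)] [1280]
theorem L12_mem : ∀ a ∈ L12, a < 4096 ∧ v6 a ∈ orbit ↥(N0 ⊓ stabilizer (AL V6) (v6 80)) (v6 1280) := by
  have k : ∀ u, (u < 4096 ∧ spN u = true ∧ ttN u 80 = 80) → u < 4096 ∧ tt (v6 u) ∈ N0 ⊓ stabilizer (AL V6) (v6 80) :=
    fun u ⟨a, b, c⟩ => ⟨a, tt_N0 ((sp_v6 a).2 b), (tt_v6 a 80).trans (congrArg v6 c)⟩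
  have l : ∀ i, nth 80 sd2 i < 4096 ∧ tt (v6 (nth 80 sd2 i)) ∈ N0 ⊓ stabilizer (AL V6) (v6 80) := fun i =>
    match i with
    | 0 | 1 | 2 | 3 => k _ (by decide +kernel)
    | _ + 4 => k 80 (by decide +kernel)
  unfold L12
  exact grow_ind (fun a => a < 4096 ∧ v6 a ∈ orbit ↥(N0 ⊓ stabilizer (AL V6) (v6 80)) (v6 1280))
    (fun i _ => orb_step (l i).1 (l i).2) ⟨by norm_num, mem_orbit_self _⟩ _ _
    (List.forall_mem_singleton.2 ⟨by norm_num, mem_orbit_self _⟩)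
theorem le_orb {H : Subgroup (AL V6)} {x : V6} {L : List Nat} (h : ∀ a ∈ L, a < 4096 ∧ v6 a ∈ orbit H x) (n : L.Nodup) :
    L.length * Nat.card ↥(H ⊓ stabilizer (AL V6) x) ≤ Nat.card H := by
  rw [card_eq_orbit_mul H x]
  refine Nat.mul_le_mul_right _ ?_
  rw [← List.toFinset_card_of_nodup n, ← Set.ncard_coe_finset, ← Set.InjOn.ncard_image (f := v6)
    fun a b c d => (v6_eq (h a (by simpa using b)).1 (h c (by simpa using d)).1).1]
  exact Set.ncard_le_ncard (by rintro _ ⟨a, b, rfl⟩; exact (h a (by simpa using b)).2)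

def bN (j : Nat) : AL V6 := cond (j.testBit 0) bb1 1 * cond (j.testBit 1) bb2 1 * cond (j.testBit 2) bb3 1 * cond (j.testBit 3) bb4 1
def ap1 (b : Bool) (A : List Nat) (a : Nat) : Nat := cond b (xsum A a) a
def apB (j a : Nat) : Nat := ap1 (tb j 0) cbb1 (ap1 (tb j 1) cbb2 (ap1 (tb j 2) cbb3 (ap1 (tb j 3) cbb4 a)))
theorem bN_v6 (j : Nat) {a : Nat} (ha : a < 4096) : bN j (v6 a) = v6 (apB j a) ∧ apB j a < 4096 := by
  have k : ∀ (b : Bool) {g : AL V6} {A : List Nat}, E6.Cols g A → (∀ c ∈ A, c < 4096) → ∀ a < 4096,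
      cond b g 1 (v6 a) = v6 (ap1 b A a) ∧ ap1 b A a < 4096 := fun b _ _ c d a e => by
    cases b
    exacts [⟨rfl, e⟩, ⟨c a e, xs_lt d a⟩]
  obtain ⟨a4, b4⟩ := k (j.testBit 3) bb4_c (by decide) a ha
  obtain ⟨a3, b3⟩ := k (j.testBit 2) bb3_c (by decide) _ b4
  obtain ⟨a2, b2⟩ := k (j.testBit 1) bb2_c (by decide) _ b3
  obtain ⟨a1, b1⟩ := k (j.testBit 0) bb1_c (by decide) _ b2
  simp only [bN, apB, tb_eq, LinearEquiv.mul_apply, a4, a3, a2, a1, b1, and_self]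
def uj (j : Nat) : Nat := nth 80 [80, 80, 1455, 80, 80, 80, 80, 80, 80, 1280, 80, 80, 80, 1530, 1365] j
theorem bN_tt : ∀ j ∈ [2, 8, 9, 13, 14], bN j = tt (v6 (uj j)) ∧ v6 (uj j) ∈ SP ∧ v6 (uj j) ∈ U6s := fun j hj => by
  have a : uj j < 4096 := by revert j; decide
  refine ⟨ext6 fun i => ?_, (sp_v6 a).2 (by revert j; decide +kernel), (memU a).2 (by revert j; decide +kernel)⟩
  rw [tt_v6 a, (bN_v6 j (by revert i; decide)).1]
  exact congrArg v6 (by revert i j; decide +kernel)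
theorem bN_fix {j : Nat} (hj : j < 16) (n : j ∉ [0, 2, 8, 9, 13, 14]) {w : V6} : Vp w → bN j w = w → w ∈ U6s :=
  all6 (P := fun w => Vp w → bN j w = w → w ∈ U6s) (fun a ha b c => by
    rw [(bN_v6 j ha).1, v6_eq (bN_v6 j ha).2 ha] at c
    have := (allN_iff _ _).1 ((allN_iff _ _).1 (by decide +kernel : (allN 16 fun j => allN 4096 fun a =>
      [0, 2, 8, 9, 13, 14].elem j || !vpN a || tb XU a || !Nat.beq (apB j a) a) = true) j hj) a ha
    simpa [vp_v6.1 b, c, tb_eq, ← memU ha, n] using this) w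
theorem B_N0 : B06 ≤ N0 := by
  have k : ∀ j ∈ [2, 8, 9, 13, 14], bN j ∈ N0 := fun j hj => (bN_tt j hj).1 ▸ tt_N0 (bN_tt j hj).2.1
  have k2 : 1 * bb2 * 1 * 1 ∈ N0 := k 2 (by simp)
  have k4 : 1 * 1 * 1 * bb4 ∈ N0 := k 8 (by simp)
  have k1 : bb1 * 1 * 1 * bb4 ∈ N0 := k 9 (by simp)
  have k3 : bb1 * 1 * bb3 * bb4 ∈ N0 := k 13 (by simp)
  simp only [one_mul, mul_one] at k1 k2 k3 k4
  rw [mul_mem_cancel_right k4] at k1 k3
  rw [mul_mem_cancel_left k1] at k3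
  exact cl_le (by simp [gB6, k1, k2, k3, k4])
theorem N0_eq : N0 = SS := by
  refine eq_of_le_of_card_ge N0_le ?_
  have a := le_orb L135_mem (by decide +kernel)
  have b := le_orb L12_mem (by decide +kernel)
  have c := card_le_of_le (Q := N0 ⊓ stabilizer (AL V6) (v6 80) ⊓ stabilizer (AL V6) (v6 1280)) fun g hg =>
    ⟨⟨B_N0 hg, B06_fix hg (by decide +kernel)⟩, B06_fix hg (by decide +kernel)⟩
  rw [show L135.length = 135 by decide +kernel] at a
  rw [show L12.length = 12 by decide +kernel] at b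
  rw [card_B06] at c
  rw [card_SS]; omega

end
end H1.Lf
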