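import Cfsg.Agent.H1.G1

/-! Isotropic planes and transvections in the stabiliser of a short vector. -/

set_option autoImplicit false

namespace H1.Lf
noncomputable section
open H13 H27 H22 MulAction Subgroup

theorem v1_lt : ∀ c ∈ [0, 5, 10, 15], c < 2 ^ 12 := by decide
theorem q0 {a : Nat} (ha : a < 4096) (h : q6 (v6 a) = 0) : tb X63 a = false := by
  rw [tb_eq, ← Bool.not_eq_true, ← mem_mset inj6 ha, mem63, h]; decide
/-- totally isotropic sets -/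
structure Iso (X : Set V6) : Prop where
  vp : ∀ x ∈ X, Vp x
  th : ∀ x ∈ X, thL x ∈ X
  q : ∀ x ∈ X, q6 x = 0
  o : ∀ x ∈ X, ∀ y ∈ X, pol q6 x y = 0
theorem Iso.img {X : Set V6} (h : Iso X) {g : AL V6} (hg : g ∈ SS) : Iso (g '' X) where
  vp := by rintro _ ⟨x, a, rfl⟩; exact (h.vp x a).img hg
  th := by rintro _ ⟨x, a, rfl⟩; exact ⟨_, h.th x a, M0_th hg.1 x⟩
  q := by rintro _ ⟨x, a, rfl⟩; exact (M0_O6 hg.1 x).trans (h.q x a)
  o := by rintro _ ⟨x, a, rfl⟩ _ ⟨y, b, rfl⟩; exact (spol hg x y).trans (h.o x a y b)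
theorem v1_fix {g : AL V6} (hg : g ∈ SS) {c : Nat} (hc : c ∈ [0, 5, 10, 15]) : g (v6 c) = v6 c := by
  simp only [List.mem_cons, List.not_mem_nil, or_false] at hc
  rcases hc with rfl | rfl | rfl | rfl
  exacts [by rw [v0, map_zero], s5 hg, s10 hg, by rw [v15, map_add, s5 hg, s10 hg]]
theorem Iso.perp {X : Set V6} (h : Iso X) {p : V6} {c : Nat} (hc : c ∈ [0, 5, 10, 15]) (hp : p + v6 c ∈ X) {m : V6} (hm : m ∈ X) :
    pol q6 m p = 0 ∧ pol q6 m (thL p) = 0 := by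
  have a := h.o m hm _ hp
  have b := h.o _ (h.th _ (h.th m hm)) _ hp
  rw [qf6.add', (h.vp _ hm).pol hc, add_zero] at a
  rw [qf6.add', (h.vp _ hm).th.th.pol hc, add_zero, ← pol_th, th_cube] at b
  exact ⟨a, b⟩
theorem iso_mv {X : Set V6} {g : AL V6} (hg : g ∈ SS) {p n : V6} {c : Nat} (hc : c ∈ [0, 5, 10, 15]) (hn : n ∈ X)
    (e : g p = n + v6 c) : p + v6 c ∈ (g⁻¹ : AL V6) '' X :=
  ⟨n, hn, g.symm_apply_eq.2 (by rw [map_add, e, v1_fix hg hc, add_assoc, two6, add_zero])⟩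
theorem Iso.plane {X : Set V6} (h : Iso X) : ∃ g ∈ SS, ∀ x ∈ X, g x ∈ U6s := by
  by_cases a : ∀ x ∈ X, x ∈ U6s
  · exact ⟨1, one_mem _, a⟩
  push Not at a
  obtain ⟨n, hn, a⟩ := a
  obtain ⟨c, hc, b⟩ : ∃ c ∈ [0, 5, 10, 15], n + v6 c ∈ SP := all6 (P := fun n => Vp n → q6 n = 0 → n ∉ U6s →
      ∃ c ∈ [0, 5, 10, 15], n + v6 c ∈ SP) (fun a ha b c d => by
    have := (allN_iff _ _).1 (by decide +kernel : (allN 4096 fun a => !vpN a || tb X63 a || tb XU a ||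
      [0, 5, 10, 15].any fun c => spN (a ^^^ c)) = true) a ha
    rw [vp_v6.1 b, q0 ha c, tb_eq, Bool.eq_false_iff.2 (mt (memU ha).2 d)] at this
    obtain ⟨c, u, v⟩ := List.any_eq_true.1 this
    exact ⟨c, u, v6_xor a c ▸ (sp_v6 (Nat.xor_lt_two_pow (n := 12) ha (v1_lt c u))).2 v⟩) n (h.vp n hn) (h.q n hn) a
  obtain ⟨g, hg, e⟩ := sp_S b
  have h1 := h.img (inv_mem hg)
  have p1 := fun m => h1.perp (m := m) hc (iso_mv hg hc hn e)
  by_cases a : ∀ x ∈ (g⁻¹ : AL V6) '' X, x ∈ U6s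
  · exact ⟨_, inv_mem hg, fun x hx => a _ ⟨x, hx, rfl⟩⟩
  push Not at a
  obtain ⟨n, hn, a⟩ := a
  obtain ⟨n, hn, c, hc, b⟩ : ∃ n ∈ (g⁻¹ : AL V6) '' X, ∃ c ∈ [0, 5, 10, 15],
      n + v6 c ∈ orbit ↥(N0 ⊓ stabilizer (AL V6) (v6 80)) (v6 1280) := by
    have := all6 (P := fun n => Vp n → q6 n = 0 → n ∉ U6s → pol q6 n (v6 80) = 0 → pol q6 n (v6 160) = 0 →
        ∃ m ∈ [n, thL n, thL (thL n)], ∃ c ∈ [0, 5, 10, 15], m + v6 c ∈ orbit ↥(N0 ⊓ stabilizer (AL V6) (v6 80)) (v6 1280))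
      (fun a ha b c d e f => by
        have := (by decide +kernel : (forceL L12 fun L => allN 4096 fun a => !vpN a || tb X63 a || tb XU a || polN a 80 ||
          polN a 160 || [a, thN a, thN (thN a)].any fun m => [0, 5, 10, 15].any fun c => L.elem (m ^^^ c)) = true)
        rw [forceL_eq] at this
        have := (allN_iff _ _).1 this a ha
        rw [vp_v6.1 b, q0 ha c, tb_eq, Bool.eq_false_iff.2 (mt (memU ha).2 d), pol0.1 e, pol0.1 f] at this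
        obtain ⟨m, u, v⟩ := List.any_eq_true.1 this
        obtain ⟨c, s, t⟩ := List.any_eq_true.1 v
        refine ⟨v6 m, ?_, c, s, v6_xor m c ▸ (L12_mem _ (List.mem_of_elem_eq_true t)).2⟩
        rw [th_v6 ha, th_v6 (thN_lt a)]
        exact List.mem_map_of_mem (f := v6) u) n (h1.vp n hn) (h1.q n hn) a (p1 n hn).1 (th80 ▸ (p1 n hn).2)
    obtain ⟨m, u, v⟩ := this
    refine ⟨m, ?_, v⟩
    simp only [List.mem_cons, List.not_mem_nil, or_false] at u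
    rcases u with rfl | rfl | rfl
    exacts [hn, h1.th _ hn, h1.th _ (h1.th _ hn)]
  obtain ⟨⟨k, k1, k2⟩, e⟩ := b
  have hk := N0_le k1
  have h2 := h1.img (inv_mem hk)
  refine ⟨k⁻¹ * g⁻¹, mul_mem (inv_mem hk) (inv_mem hg), fun x hx => U_perp fun u hu => ?_⟩
  have m1 : g⁻¹ x ∈ (g⁻¹ : AL V6) '' X := ⟨x, hx, rfl⟩
  have m2 : (k⁻¹ * g⁻¹) x ∈ (k⁻¹ : AL V6) '' ((g⁻¹ : AL V6) '' X) := ⟨_, m1, rfl⟩
  obtain ⟨q1, q2⟩ := h2.perp hc (iso_mv hk hc hn e) m2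
  obtain ⟨q3, q4⟩ := p1 _ m1
  replace k2 : k⁻¹ (v6 80) = v6 80 := (stabilizer (AL V6) (v6 80)).inv_mem k2
  rw [← spol (inv_mem hk), k2] at q3
  rw [← spol (inv_mem hk), M0_th (inv_mem hk.1), k2, th80] at q4
  rw [th1280] at q2
  refine U_ind (K := (AddMonoidHom.mk' (pol q6 ((k⁻¹ * g⁻¹) x)) (qf6.add' _)).ker) ?_ hu
  simp only [uB, List.forall_mem_cons]
  exact ⟨(h2.vp _ m2).1, (h2.vp _ m2).2, q3, q4, q1, q2, by simp⟩
theorem vp_U {u : V6} (h : u ∈ U6s) : Vp u := ⟨U_pol h (by decide +kernel), U_pol h (by decide +kernel)⟩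
theorem vp_perp {m : V6} (h : ∀ x, Vp x → pol q6 m x = 0) : ∃ c ∈ [0, 5, 10, 15], m = v6 c := by
  revert h
  refine all6 (P := fun m => (∀ x, Vp x → pol q6 m x = 0) → ∃ c ∈ [0, 5, 10, 15], m = v6 c) (fun a ha h => ⟨a, ?_, rfl⟩) m
  have := (allN_iff _ _).1 (by decide +kernel : (allN 4096 fun a => [0, 5, 10, 15].elem a ||
    [5, 10, 16, 32, 64, 128, 256, 512, 1024, 2048].any (polN a)) = true) a ha
  rcases Bool.or_eq_true_iff.1 this with b | b
  · exact List.mem_of_elem_eq_true b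
  · obtain ⟨x, u, v⟩ := List.any_eq_true.1 b
    rw [pol0.1 (h _ (vp_v6.2 ((by decide +kernel : ∀ x ∈ [5, 10, 16, 32, 64, 128, 256, 512, 1024, 2048], vpN x = true) x u)))] at v
    cases v
theorem inv_B {s : AL V6} (hs : s ∈ SS) (s2 : s * s = 1) : ∃ g ∈ SS, g * s * g⁻¹ ∈ B06 := by
  have key : ∀ s ∈ SS, s * s = 1 → ∀ x y, pol q6 (s y + y) x = pol q6 y (s x + x) := fun s hs s2 x y => by
    rw [qf6.add, qf6.add', ← spol hs (s y), show s (s y) = y from LinearEquiv.congr_fun s2 y]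
  obtain ⟨g, hg, e⟩ := Iso.plane (X := {n | ∃ w, Vp w ∧ n = s w + w}) ⟨by rintro _ ⟨w, a, rfl⟩; exact (a.img hs).add a,
    by rintro _ ⟨w, a, rfl⟩; exact ⟨_, a.th, by rw [map_add, M0_th hs.1]⟩, by
      rintro _ ⟨w, -, rfl⟩
      have a := spol hs (s w) (thL w)
      rw [show s (s w) = w from LinearEquiv.congr_fun s2 w, M0_th hs.1, ← pol_th, ← pol_th, th_cube, pol_comm] at a
      have b := congrArg (pol q6 (s w)) (th3 w)
      rw [qf6.add', qf6.add', qf6.zero', a, add_assoc, z2_two, add_zero] at b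
      rw [q_add q6, M0_O6 hs.1, z2_two, b, add_zero], by
      rintro _ ⟨w, -, rfl⟩ _ ⟨y, -, rfl⟩
      rw [key s hs s2, map_add, show s (s y) = y from LinearEquiv.congr_fun s2 y, add_comm y, two6, qf6.zero']⟩
  have ht := mul_mem (mul_mem hg hs) (inv_mem hg)
  have t2 : g * s * g⁻¹ * (g * s * g⁻¹) = 1 := by rw [conj_mul, s2]; simp
  have e' : ∀ w, Vp w → (g * s * g⁻¹) w + w ∈ U6s := fun w a => by
    have := e _ ⟨_, a.img (inv_mem hg), rfl⟩
    rwa [map_add, show g (g⁻¹ w) = w from g.apply_symm_apply w] at this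
  refine ⟨g, hg, fixU (M0_L0 ht.1) fun u hu => ?_⟩
  generalize g * s * g⁻¹ = t at *
  refine U_ind (K := t.toAddEquiv.toAddMonoidHom.eqLocus (AddMonoidHom.id _)) (fun b hb => ?_) hu
  change t (v6 b) = v6 b
  obtain ⟨b1, b2, b3⟩ := (by decide +kernel : ∀ b ∈ uB, b < 4096 ∧ v6 b ∈ U6s ∧ X61.testBit b = true) b hb
  obtain ⟨c, hc, e⟩ := vp_perp (m := t (v6 b) + v6 b) fun x a => by rw [key t ht t2, U_pol b2 (e' x a)]
  replace e : t (v6 b) = v6 (c ^^^ b) := by rw [v6_xor, ← e, add_assoc, two6, add_zero]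
  have := inv61 (L0_LS (M0_L0 ht.1)) ((mem_mset inj6 b1).2 b3)
  rw [e, mem_mset inj6 (Nat.xor_lt_two_pow (n := 12) (v1_lt c hc) b1)] at this
  rcases (by decide +kernel : ∀ b ∈ uB, ∀ c ∈ [0, 5, 10, 15], X61.testBit (c ^^^ b) = true → b ∈ [0, 5, 10, 15] ∨ c ^^^ b = b)
    b hb c hc this with f | f
  exacts [v1_fix ht f, by rw [e, f]]
theorem vp_span {K : AddSubgroup V6} (a : v6 5 ∈ K) (b : v6 10 ∈ K) (c : ∀ u ∈ SP, u ∈ K) {w : V6} : Vp w → w ∈ K :=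
  all6 (P := fun w => Vp w → w ∈ K) (fun x hx d => by
    have := (allN_iff _ _).1 (by decide +kernel : (allN 4096 fun a => !vpN a || Nat.beq (xsum [5, 10, 80, 96, 112, 144, 272, 528,
      1040, 2064] (xsum [0, 0, 1, 2, 24, 20, 28, 56, 88, 152, 280, 536] a)) a) = true) x hx
    rw [vp_v6.1 d] at this
    rw [← Nat.eq_of_beq_eq_true this]
    refine E6.xsum_mem (List.forall_mem_cons.2 ⟨a, List.forall_mem_cons.2 ⟨b, fun u hu => c _ ((sp_v6 ?_).2 ?_)⟩⟩) _ <;>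
      revert u <;> decide +kernel) w

def cmN (u w : Nat) : Bool := allN 12 fun i => Nat.beq (ttN u (ttN w (2 ^ i))) (ttN w (ttN u (2 ^ i)))
theorem cm_v6 {u w : Nat} (hu : u < 4096) (hw : w < 4096) : Commute (tt (v6 u)) (tt (v6 w)) ↔ cmN u w = true := by
  have k : ∀ i < 12, (tt (v6 u) * tt (v6 w)) (v6 (2 ^ i)) = (tt (v6 w) * tt (v6 u)) (v6 (2 ^ i)) ↔
      ttN u (ttN w (2 ^ i)) = ttN w (ttN u (2 ^ i)) := fun i hi => by
    have : 2 ^ i < 4096 := Nat.pow_lt_pow_right (n := 12) one_lt_two hi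
    rw [LinearEquiv.mul_apply, LinearEquiv.mul_apply, tt_v6 hu, tt_v6 hw, tt_v6 hw, tt_v6 hu,
      v6_eq (ttN_lt hu (ttN_lt hw this)) (ttN_lt hw (ttN_lt hu this))]
  rw [cmN, allN_iff]
  exact ⟨fun h i hi => (beq_iff _ _).2 ((k i hi).1 (LinearEquiv.congr_fun h.eq _)), fun h => ext6 fun i => (k i i.2).2 ((beq_iff _ _).1 (h i i.2))⟩
theorem tv_cm {u w : V6} (a : pol q6 u w = 0) : tv u * tv w = tv w * tv u := LinearEquiv.ext fun x => by
  have k : ∀ (c : ZMod 2) u w, pol q6 u w = 0 → pol q6 (x + c • u) w = pol q6 x w := fun c u w a => by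
    rcases z2_cases c with rfl | rfl <;> simp [qf6.add, a]
  simp only [LinearEquiv.mul_apply, tv_apply, k _ _ _ a, k _ _ _ ((pol_comm ..).trans a)]
  abel
theorem th_th (u : V6) : thL (thL u) = u + thL u := (qf6.eq_of (th3 u)).symm
theorem tt_th {u : V6} (h : q6 u = 0) : tt (thL u) = tt u := by
  have a : pol q6 u (thL u) = 0 := by rw [pol, ← th_th, M0_O6 thL_M0, M0_O6 thL_M0, h]; rfl
  have b : pol q6 u (thL (thL u)) = 0 := by rw [th_th, qf6.add', a, qf6.self, add_zero]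
  rw [tt, tt, rf.eq_1 (thL u), rf.eq_1 u, th_cube, mul_assoc (tv (thL u)), ← tv_cm b, ← mul_assoc (tv (thL u)), ← tv_cm a]
theorem tt_S {u : V6} (h : u ∈ SP) : tt u ∈ SS := N0_le (tt_N0 h)
theorem tt_sq {u : V6} (h : u ∈ SP) : tt u * tt u = 1 := by
  obtain ⟨g, hg, rfl⟩ := sp_S h
  rw [← tt_conj hg, conj_mul, ← bb4_eq, ← pow_two, B06_sq _ (mem_cl (by simp [gB6]))]; simp
theorem six {u w : V6} (hu : u ∈ SP) (hw : w ∈ SP) : (tt u * tt w) ^ 6 = 1 := by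
  have k : ∀ w ∈ SP, (tt (v6 80) * tt w) ^ 6 = 1 := fun w hw => by
    have a := tt_conj (tt_S sp80) w
    have b := tt_conj (tt_S hw) (v6 80)
    have c := tt_sq sp80
    have d := tt_sq hw
    have : tt (v6 80) w = w ∨ tt (tt (v6 80) w) = tt (tt w (v6 80)) := sp_lst (P := fun w => w ∈ SP → (tt (v6 80) w = w ∨
        tt (tt (v6 80) w) = tt (tt w (v6 80)))) (fun a ha l m => by
      have := (by decide +kernel : ∀ a ∈ L135, ttN 80 a = a ∨ ttN 80 a = ttN a 80 ∨ ttN 80 a = thN (ttN a 80) ∨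
        ttN 80 a = thN (thN (ttN a 80))) a ha
      have q := q61 (sp_img (tt_S m) sp80).1
      have l' := ttN_lt l (show 80 < 4096 by norm_num)
      rw [tt_v6 l] at q ⊢
      rw [tt_v6 (by norm_num)]
      refine this.imp (congrArg v6) ?_
      rintro (e | e | e) <;> rw [e]
      · rw [← th_v6 l', tt_th q]
      · rw [← th_v6 (thN_lt _), ← th_v6 l', tt_th ((M0_O6 thL_M0 _).trans q), tt_th q]) w hw hw
    rw [inv_eq_of_mul_eq_one_right c] at a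
    rw [inv_eq_of_mul_eq_one_right d] at b
    rcases this with e | e
    · rw [e] at a
      generalize tt (v6 80) = x at *
      generalize tt w = y at *
      calc (x * y) ^ 6 = (x * y * x * y) ^ 3 := by simp only [pow_succ, pow_zero, one_mul, mul_assoc]
        _ = 1 := by rw [a, d, one_pow]
    · rw [← a, ← b] at e
      generalize tt (v6 80) = x at *
      generalize tt w = y at *
      calc (x * y) ^ 6 = (x * y * x * (y * x * y)) ^ 2 := by simp only [pow_succ, pow_zero, one_mul, mul_assoc]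
        _ = 1 := by rw [← e, show x * y * x * (x * y * x) = x * (y * (x * x) * y) * x by group, c, mul_one, d, mul_one, c, one_pow]
  obtain ⟨g, hg, rfl⟩ := sp_S hu
  have := k _ (sp_img (inv_mem hg) hw)
  rw [← tt_conj (inv_mem hg)] at this
  rw [← tt_conj hg, show g * tt (v6 80) * g⁻¹ * tt w = g * (tt (v6 80) * (g⁻¹ * tt w * g⁻¹⁻¹)) * g⁻¹ by group, conj_pow, this]
  simp
theorem cm_img {g : AL V6} (hg : g ∈ SS) {u w : V6} : Commute (tt (g u)) (tt (g w)) ↔ Commute (tt u) (tt w) := by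
  rw [← tt_conj hg, ← tt_conj hg]; exact ⟨fun h => by simpa [mul_assoc] using h.conj g⁻¹, fun h => h.conj g⟩
theorem sp_wlog {P : V6 → V6 → Prop} (h : ∀ g ∈ SS, ∀ u w, P u w → P (g u) (g w)) (k : ∀ w ∈ SP, P (v6 80) w) :
    ∀ u ∈ SP, ∀ w ∈ SP, P u w := fun u hu w hw => by
  obtain ⟨g, hg, rfl⟩ := sp_S hu
  have := h g hg _ _ (k _ (sp_img (inv_mem hg) hw))
  rwa [show g (g⁻¹ w) = w from g.apply_symm_apply w] at this
theorem ex_nn : ∀ u ∈ SP, ∀ w ∈ SP, ∃ y ∈ SP, ¬ Commute (tt u) (tt y) ∧ ¬ Commute (tt w) (tt y) :=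
  sp_wlog (fun g hg _ _ ⟨y, a, b, c⟩ => ⟨g y, sp_img hg a, mt (cm_img hg).1 b, mt (cm_img hg).1 c⟩) (sp_lst fun a b ha => by
    obtain ⟨y, u, v⟩ := (by decide +kernel : ∀ a ∈ L135, ∃ y ∈ [96, 112, 272], ¬ cmN a y = true) a b
    obtain ⟨y1, y2, y3⟩ := (by decide +kernel : ∀ y ∈ [96, 112, 272], y < 4096 ∧ spN y = true ∧ ¬ cmN 80 y = true) y u
    exact ⟨_, (sp_v6 y1).2 y2, mt (cm_v6 (by norm_num) y1).1 y3, mt (cm_v6 ha y1).1 v⟩)
theorem ex_cn : ∀ u ∈ SP, ∀ w ∈ SP, ¬ Commute (tt u) (tt w) →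
    ∃ y ∈ SP, tt y ≠ tt u ∧ Commute (tt u) (tt y) ∧ ¬ Commute (tt w) (tt y) :=
  sp_wlog (fun g hg _ _ k n => let ⟨y, a, b, c, d⟩ := k (mt (cm_img hg).2 n)
    ⟨g y, sp_img hg a, fun e => b (by rwa [← tt_conj hg, ← tt_conj hg, mul_left_inj, mul_right_inj] at e), (cm_img hg).2 c,
      mt (cm_img hg).1 d⟩) (sp_lst fun a b ha n => by
    obtain ⟨y, u, v⟩ := ((by decide +kernel : ∀ a ∈ L135, cmN 80 a = true ∨ ∃ y ∈ [1280, 1365], ¬ cmN a y = true) a b).resolve_left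
      (mt (cm_v6 (by norm_num) ha).2 n)
    obtain ⟨y1, y2, y3, y4⟩ := (by decide +kernel : ∀ y ∈ [1280, 1365], y < 4096 ∧ spN y = true ∧ cmN 80 y = true ∧
      ttN y 16 ≠ ttN 80 16) y u
    refine ⟨_, (sp_v6 y1).2 y2, fun e => y4 ?_, (cm_v6 (by norm_num) y1).2 y3, mt (cm_v6 ha y1).1 v⟩
    have := LinearEquiv.congr_fun e (v6 16)
    rwa [tt_v6 y1, tt_v6 (by norm_num), v6_eq (ttN_lt y1 (by norm_num)) (ttN_lt (by norm_num) (by norm_num))] at this)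
theorem ex_af : ∃ a ∈ SP, ∃ b ∈ SP, ∃ x ∈ SP, ¬ Commute (tt a) (tt b) ∧ ¬ Commute (tt x) (tt a) ∧ ¬ Commute (tt x) (tt b) ∧
    ¬ Commute (tt x) (tt a * tt b * (tt a)⁻¹) := by
  refine ⟨_, sp80, v6 144, (sp_v6 (by norm_num)).2 (by decide +kernel), v6 272, (sp_v6 (by norm_num)).2 (by decide +kernel), ?_⟩
  rw [tt_conj (N0_le (tt_N0 sp80)), tt_v6 (by norm_num), show ttN 80 144 = 96 by decide +kernel]
  simp only [cm_v6 (show 80 < 4096 by norm_num) (show 144 < 4096 by norm_num), cm_v6 (show 272 < 4096 by norm_num)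
    (show 144 < 4096 by norm_num), cm_v6 (show 272 < 4096 by norm_num) (show 80 < 4096 by norm_num),
    cm_v6 (show 272 < 4096 by norm_num) (show 96 < 4096 by norm_num)]
  decide +kernel
theorem tv_fix {u w : V6} (a : pol q6 w u = 0) : tv u w = w := by rw [tv_apply, a, zero_smul, add_zero]
theorem rf_fix {u w : V6} (a : pol q6 w u = 0) (b : pol q6 w (thL u) = 0) : rf u w = w := by
  rw [rf, LinearEquiv.mul_apply, LinearEquiv.mul_apply, tv_fix (u := thL (thL u)) (by rw [th_th, qf6.add', a, b, add_zero]), tv_fix b, tv_fix a]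
theorem tt_fix {u w : V6} (c : Vp w) (a : pol q6 w u = 0) (b : pol q6 w (thL u) = 0) : tt u w = w := by
  rw [tt, LinearEquiv.mul_apply, rf_fix a b, rf_fix c.1 (th5 ▸ c.2)]
theorem fix_tt : ∀ u ∈ SP, ∀ w, Vp w → tt u w = w → pol q6 w u = 0 ∧ pol q6 w (thL u) = 0 := fun u hu w a b => by
  obtain ⟨g, hg, rfl⟩ := sp_S hu
  have k : ∀ w, Vp w → tt (v6 80) w = w → pol q6 w (v6 80) = 0 ∧ pol q6 w (v6 160) = 0 := all6 fun a ha b c => by
    rw [tt_v6 (by norm_num), v6_eq (ttN_lt (by norm_num) ha) ha] at c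
    have := (allN_iff _ _).1 (by decide +kernel : (allN 4096 fun a => !vpN a || !Nat.beq (ttN 80 a) a ||
      (!polN a 80 && !polN a 160)) = true) a ha
    simpa [vp_v6.1 b, c, pol0] using this
  obtain ⟨w, rfl⟩ := g.surjective w
  rw [← tt_conj hg, LinearEquiv.mul_apply, LinearEquiv.mul_apply, show g⁻¹ (g w) = w from g.symm_apply_apply w] at b
  rw [← M0_th hg.1, spol hg, spol hg, th80]
  exact k w (by simpa using a.img (inv_mem hg)) (g.injective b)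
theorem tt_U {u : V6} (hu : u ∈ SP) (h : ∀ w ∈ U6s, tt u w ∈ U6s) : u ∈ U6s := by
  revert h
  refine sp_lst (P := fun u => (∀ w ∈ U6s, tt u w ∈ U6s) → u ∈ U6s) (fun a b ha h => ?_) u hu
  rcases (by decide +kernel : ∀ a ∈ L135, XU.testBit a = true ∨ ∃ w ∈ uB, ¬ XU.testBit (ttN a w) = true) a b with c | ⟨w, c, d⟩
  · exact (memU ha).2 c
  obtain ⟨w1, w2⟩ := (by decide +kernel : ∀ w ∈ uB, w < 4096 ∧ v6 w ∈ U6s) w c
  have := h _ w2
  rw [tt_v6 ha, memU (ttN_lt ha w1)] at this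
  exact absurd this d
theorem tt16 : tt (v6 80) (v6 16) + v6 16 = v6 80 := by rw [tt_v6 (by norm_num), ← v6_xor]; exact congrArg v6 (by decide +kernel)
end
end H1.Lf
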