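import Cfsg.Agent.H1.G2

/-! Groups of large Fischer type: coordinates on the Thompson subgroup. -/

set_option autoImplicit false

namespace H1.Lf
noncomputable section
open H13 MulAction Cfsg H27 Subgroup
open scoped Pointwise
universe u
variable {G : Type u} [Group G] [Finite G] {z : G} {R : Subgroup G} {π : Cz z →* AL V6} {P : V6 → G → Prop}

theorem main' (h : FT0 z R π P) {x : Cz z} (hx : π x = thL) (x3 : x ^ 3 = 1) : ∃ E : BE (Additive h.A) 11, ∃ c : Fin 4 → h.A,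
    (∀ a, E.e a = Additive.ofMul (h.eA hx c a)) ∧ (∀ j, π ⟨c j, h.A_le (c j).2⟩ = nth 1 gB6 j) ∧
    (∀ w, IsConj z (w.toMul : G) ↔ w ∈ mset 2048 E.e XZ) ∧ h.rho.range = G24 E := by
  obtain ⟨k₁, k₂, c₁, c₂, c₃, c₄, m, p, r1, r2, r3, r4⟩ := h.exc hx x3
  simp only [List.forall_mem_cons] at m
  obtain ⟨m1, m2, m3, m4, m5, m6, -⟩ := m
  simp only [gB6, List.forall₂_cons] at p
  obtain ⟨p1, p2, p3, p4, p5, p6, -⟩ := p
  obtain ⟨-, s1, s2, s3, s4⟩ := B06_rel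
  have b : ∀ {k b}, k * x = x * k → π k = b → b ∈ gB6 → k.1 ∈ h.A := fun u v w => h.mem_A hx u (v ▸ mem_cl w)
  let c : Fin 4 → h.A := ![⟨_, b m3 p3 (by simp [gB6])⟩, ⟨_, b m4 p4 (by simp [gB6])⟩, ⟨_, b m5 p5 (by simp [gB6])⟩,
    ⟨_, b m6 p6 (by simp [gB6])⟩]
  have hc : ∀ j, π ⟨c j, h.A_le (c j).2⟩ = nth 1 gB6 j := fun j => by fin_cases j <;> assumption
  obtain ⟨E, hE⟩ := h.exE hx hc
  have n1 := h.nrm_A (k := k₁) fun u => NU_U (p1 ▸ mem_cl (by simp))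
  have n2 := h.nrm_A (k := k₂) fun u => NU_U (p2 ▸ mem_cl (by simp))
  have y1 := h.mu_P hx (v6 1)
  have n3 := h.nrm_A (k := ⟨_, h.le (h.mem y1)⟩) fun u a => by rwa [(h.ker _).2 (h.mem y1)]
  have q1 := h.colsK hx hE m1 n1 (p1 ▸ nA6_c) (A := cW1) (by decide +kernel) fun j => by
    fin_cases j
    exacts [(congrArg Subtype.val r1).trans (congrArg Subtype.val (h.eA_c hx c 1)).symm,
      (congrArg Subtype.val r2).trans (congrArg Subtype.val (h.eA_c hx c 2)).symm,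
      (congrArg Subtype.val r3).trans (congrArg Subtype.val (h.eA_c hx c 3)).symm, (congrArg Subtype.val r4).trans (by
        rw [h.eA_val hx c 0 false true true true true (by decide), h.mu0 hx]; simp [c])]
  have w : ∀ {d e : Cz z} (a : ℕ) (b₀ b₁ b₂ b₃ : Bool), d * x = x * d → e * x = x * e → π e = π k₂ * π d * (π k₂)⁻¹ →
      (∀ t < 2, xsum uB ((a + t) >>> 1) = 0 ∧ (a + t).testBit 0 = decide (t = 1) ∧ (a + t).testBit 7 = b₀ ∧
        (a + t).testBit 8 = b₁ ∧ (a + t).testBit 9 = b₂ ∧ (a + t).testBit 10 = b₃) →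
      e = cond b₀ c₁ 1 * cond b₁ c₂ 1 * cond b₂ c₃ 1 * cond b₃ c₄ 1 → ∃ t < 2, k₂ * d.1 * k₂.1⁻¹ = h.eA hx c (a + t) ∧
        k₂ * d.1 * k₂.1⁻¹ = e * z ^ t := fun {d e} a b₀ b₁ b₂ b₃ u v s t r => by
    have f := fun i j => h.eA_val hx c _ _ _ _ _ _ (t i j)
    have g : (e : G) = cond b₀ (c 0).1 1 * cond b₁ (c 1).1 1 * cond b₂ (c 2).1 1 * cond b₃ (c 3).1 1 := by
      simp [r, c, Bool.apply_cond (f := Subtype.val)]
    rw [← g, h.mu0 hx] at f
    rcases h.uniq_x hx v ((Commute.mul_left m2 u).mul_left (Commute.inv_left m2)) (by simp [s]) with o | o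
    · exact ⟨0, two_pos, by rw [f 0 two_pos]; simpa using o, by simpa using o⟩
    · exact ⟨1, one_lt_two, by rw [f 1 one_lt_two]; simpa [mem_Cz.1 e.2] using o, by simpa using o⟩
  obtain ⟨t1, l1, e1, -⟩ := w 1536 false false true true m3 (Commute.mul_left m5 m6) (by simp [*]) (by decide) (by simp)
  obtain ⟨t2, l2, e2, -⟩ := w 1664 true false true true m4 ((Commute.mul_left m3 m5).mul_left m6) (by simp [*]) (by decide)
    (by simp)
  obtain ⟨t3, l3, e3, -⟩ := w 768 false true true false m5 (Commute.mul_left m4 m5) (by simp [*]) (by decide) (by simp)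
  obtain ⟨t4, l4, e4, -⟩ := w 1920 true true true true m6 (((Commute.mul_left m3 m4).mul_left m5).mul_left m6) (by simp [*])
    (by decide) (by simp)
  obtain ⟨l, l0, rfl, rfl, rfl, rfl⟩ : ∃ l < 16, l % 2 = t1 ∧ l / 2 % 2 = t2 ∧ l / 4 % 2 = t3 ∧ l / 8 % 2 = t4 :=
    ⟨t1 + 2 * t2 + 4 * t3 + 8 * t4, by omega⟩
  have q2 := h.colsK hx hE m2 n2 (p2 ▸ nB6_c) (A := cW2 l) ⟨rfl, fun j hj => by
    have := (by decide +kernel : ∀ j < 6, nth 0 uB j < 2 ^ 12 ∧ nth 0 (cW2 0) (j + 1) < 128 ∧ nth 0 (cW2 0) (j + 1) % 2 = 0 ∧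
      xsum uB (nth 0 (cW2 0) (j + 1) >>> 1) = xsum cnB6 (nth 0 uB j)) j hj
    interval_cases j <;> exact this⟩ fun j => by
    fin_cases j
    exacts [e1, e2, e3, e4]
  have cz : ∀ n : ℕ, ∀ y ∈ R, y * z ^ n = z ^ n * y := fun n y d => (Commute.pow_right (h.comm d) n).eq
  have w' : ∀ {d : Cz z} {B : List ℕ} (a u : ℕ) (t b₀ b₁ b₂ b₃ : Bool), d * x = x * d → E6.Cols (π d) B →
      (xsum B 1 ^^^ 1 = u ∧ (pol q6 (th • v6 (xsum B 1)) (v6 1) + q6 (v6 1)).val = cond t 1 0) →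
      (xsum uB (a >>> 1) = u ∧ a.testBit 0 = t ∧ a.testBit 7 = b₀ ∧ a.testBit 8 = b₁ ∧ a.testBit 9 = b₂ ∧ a.testBit 10 = b₃) →
      d.1 = cond b₀ c₁.1 1 * cond b₁ c₂.1 1 * cond b₂ c₃.1 1 * cond b₃ c₄.1 1 →
      h.mu x (v6 1) * d * (h.mu x (v6 1))⁻¹ = h.eA hx c a := fun a u t b₀ b₁ b₂ b₃ i j k l m => by
    rw [h.mu_k hx i, show π _ (v6 1) = _ from j 1 (by norm_num), h.eA_val hx c u t b₀ b₁ b₂ b₃ l, m, thL_apply]
    change z ^ (pol q6 (th • v6 _) _ + _).val * h.mu x (v6 _ + _) * _ = _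
    rw [k.2, ← v6_xor, k.1]
    cases t <;> simp [c]
  have q3 := h.cols hx hE (k := ⟨_, n3⟩) (A := cWy) (h.le (h.mem y1)) rfl (fun j hj => by
    obtain ⟨u, v, t⟩ := (by decide +kernel : ∀ j < 6, nth 0 cWy (j + 1) < 128 ∧ xsum uB (nth 0 cWy (j + 1) >>> 1) = nth 0 uB j ∧
      nth 0 cWy (j + 1) % 2 = (pol q6 (v6 1) (v6 (nth 0 uB j))).val) j hj
    rw [h.eA_mu hx c u, v, t, ← cz _ _ (h.mem (h.mu_P hx _))]
    exact h.cj_zp y1 (h.mu_P hx _)) fun j => by
    fin_cases j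
    exacts [w' 128 _ false true false false false m3 (p3 ▸ bb1_c) ⟨rfl, by decide +kernel⟩ (by decide +kernel) (by simp),
      w' 344 _ false false true false false m4 (p4 ▸ bb2_c) ⟨rfl, by decide +kernel⟩ (by decide +kernel) (by simp),
      w' 627 _ true false false true false m5 (p5 ▸ bb3_c) ⟨rfl, by decide +kernel⟩ (by decide +kernel) (by simp),
      w' 1027 _ true false false false true m6 (p6 ▸ bb4_c) ⟨rfl, by decide +kernel⟩ (by decide +kernel) (by simp)]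
  have z1 : ((E.e 1).toMul : G) = z := by rw [hE]; exact h.eA_one hx c
  have inv : ∀ g ∈ h.rho.range, ∀ w : Additive h.A, IsConj z ((g w).toMul : G) ↔ IsConj z (w.toMul : G) := by
    rintro _ ⟨k, rfl⟩ w
    have : IsConj (w.toMul : G) ((h.rho k w).toMul : G) := _root_.isConj_iff.2 ⟨k, rfl⟩
    exact ⟨fun a => a.trans this.symm, fun a => a.trans this⟩
  have tr : ∀ w : Additive h.A, IsConj z (w.toMul : G) → ∃ k, h.rho k (E.e 1) = w := fun w a => by
    obtain ⟨g, e⟩ := _root_.isConj_iff.1 a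
    obtain ⟨m, u, v⟩ := h.fus (h.sub_A (h.z_sub _)) (e ▸ w.toMul.2)
    exact ⟨⟨m, u⟩, Subtype.ext ((congrArg (m * · * m⁻¹) z1).trans (v.trans e))⟩
  have mu : ∀ a < 64, ((E.e (2 * a)).toMul : G) = h.mu x (v6 (xsum uB a)) := fun a b => by
    rw [hE]; exact (h.eA_mu hx c (by omega)).trans (by simp [Nat.shiftRight_one])
  obtain ⟨rfl, e⟩ := pin11 E (Z := {w | IsConj z (w.toMul : G)}) inv (fun w a => by
      obtain ⟨k, b⟩ := tr w a; exact ⟨_, ⟨k, rfl⟩, b⟩)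
    (by simp only [List.forall_mem_cons]; exact ⟨⟨_, rfl⟩, ⟨_, rfl⟩, ⟨_, rfl⟩, by simp⟩) l0 q1 q2 q3
    (fun a => h.z_ne (by simpa [E.zero] using a)) (z1.symm ▸ IsConj.refl z : IsConj z _)
    (fun a => by
      obtain ⟨g, e⟩ := _root_.isConj_iff.1 a
      have u := h.mu_P hx (v6 5)
      rw [← show _ = h.mu x (v6 5) from mu 1 (by norm_num), ← e] at u
      have s : v6 5 ∈ S61 := orb61 ▸ mem_orbit_self _
      exact dj6 s (h.mem62 u fun d => ne61 s ((h.iff u).1 (.inr d))))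
    (_root_.isConj_iff.2 (mu 5 (by norm_num) ▸ h.conj62 (h.mu_P hx _) (orb62 ▸ mem_orbit_self (v6 85))))
  refine ⟨E, c, hE, hc, Set.ext_iff.1 e, ?_⟩
  · have := E.finite
    have le : h.rho.range ≤ G24 E := fun g a => (mem_G24 E).2 fun w => by
      have u := inv g a w
      rw [show IsConj z _ ↔ _ from Set.ext_iff.1 e w, show IsConj z _ ↔ _ from Set.ext_iff.1 e (g w), mem_XZ, mem_XZ, Ne,
        map_eq_zero_iff _ g.injective] at u
      by_cases d : w = 0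
      · rw [d, map_zero]
      · tauto
    refine eq_of_le_of_card_ge le ((card_G24 E).trans ?_)
    let _ := MulAction.compHom (Additive h.A) h.rho
    have a1 := card_ker_mul _ h.rho.rangeRestrict_surjective
    have a2 := (stabilizer (normalizer (h.A : Set G)) (E.e 1)).index_mul_card
    rw [index_stabilizer, show orbit (normalizer (h.A : Set G)) (E.e 1) = _ from Eq.trans (Set.ext fun w => ⟨by
      rintro ⟨k, rfl⟩; exact (inv _ ⟨k, rfl⟩ _).2 (z1.symm ▸ IsConj.refl z), tr w⟩) e, card_XZ] at a2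
    rw [MonoidHom.ker_rangeRestrict, h.ker_rho, H1.card_subgroupOf_of_le le_normalizer, h.card_A] at a1
    have l1 : (NU6.comap π).map (Cz z).subtype ≤ normalizer (h.A : Set G) := by
      rintro _ ⟨k, a, rfl⟩; exact h.nrm_A fun u => NU_U a
    have a3 := h.card_im (map_subtype_le (NU6.comap π))
    rw [XQ.im, subgroupOf, comap_map_eq_self_of_injective (Cz z).subtype_injective, map_comap_eq_self (h.rng ▸ NU_L0),
      inf_eq_right.2 fun y a => ⟨⟨y, h.le a⟩, by simp [(h.ker ⟨y, h.le a⟩).2 a], rfl⟩, h.card,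
      ← H1.card_subgroupOf_of_le l1] at a3
    have a4 := card_le_of_le (Q := stabilizer (normalizer (h.A : Set G)) (E.e 1))
      (P := ((NU6.comap π).map (Cz z).subtype).subgroupOf _) fun k a => Subtype.ext (by
        change k * ((E.e 1).toMul : G) * k.1⁻¹ = ((E.e 1).toMul : G)
        rw [z1]; exact mem_Cz'.1 (map_subtype_le _ a))
    have := le_NU
    omega

def okM (M : List ℕ) : Bool := forceL M fun M => allN 2048 fun a => force (xsum M a) fun b =>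
  decide (b < 2048) && Nat.beq (xsum M b) a && (tb XD b == tb XD a)
/-- coordinates on the subgroup of order `2 ^ 11` -/
structure Fr (h : FT0 z R π P) (x : Cz z) (e : ℕ → G) : Prop where
  hx : π x = thL
  x3 : x ^ 3 = 1
  xor : ∀ a b, e (a ^^^ b) = e a * e b
  mem : ∀ a, e a ∈ h.A
  sur : ∀ y ∈ h.A, ∃ a < 2048, e a = y
  inj : ∀ a < 2048, ∀ b < 2048, e a = e b → a = b
  cz : ∀ a < 2048, IsConj z (e a) ↔ XZ.testBit a = true
  re : ∀ M, okM M = true → ∃ n ∈ normalizer (h.A : Set G), ∀ a < 2048, n * e a * n⁻¹ = e (xsum M a)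
  mu : ∀ a < 128, e a = z ^ (a % 2) * h.mu x (v6 (xsum uB (a >>> 1)))
  pi : ∀ a, π ⟨e a, h.A_le (mem a)⟩ = bN (a >>> 7)
theorem ex_fr (h : FT0 z R π P) : ∃ x e, Fr h x e := by
  obtain ⟨x, hx, x3⟩ := h.exists_x
  obtain ⟨E, c, hE, hc, cz, rg⟩ := main' h hx x3
  have j : Set.InjOn E.e {j | j < 2048} := E.injOn
  refine ⟨x, fun a => ((E.e a).toMul : G), hx, x3, fun a b => by rw [E.xor]; rfl, fun a => (E.e a).toMul.2, fun y hy => ?_,
    fun a ha b hb e => j ha hb (Subtype.ext e), fun a ha => (cz _).trans (mem_mset j ha), fun M o => ?_,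
    fun a ha => by rw [hE]; exact h.eA_mu hx c ha, fun a => ?_⟩
  · obtain ⟨a, b, d⟩ := E.surj (Additive.ofMul ⟨y, hy⟩)
    exact ⟨a, b, by rw [d]; rfl⟩
  · simp only [okM, forceL_eq, force_eq, allN_iff, Bool.and_eq_true, decide_eq_true_iff, beq_iff, beq_iff_eq, tb_eq] at o
    have cl : E.Cols (E.el M) M := BE.el_cols fun v => by
      obtain ⟨a, b, rfl⟩ := E.surj v
      exact ⟨E.e (xsum M a), by rw [E.lin_e M (o a b).1.1, (o a b).1.2]⟩
    obtain ⟨n, e⟩ := rg.ge ((mem_G24 E).2 (E.forall_iff.2 fun a b => by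
      rw [show E.el M (E.e a) = _ from cl a b, mem_mset j b, mem_mset j (o a b).1.1, (o a b).2]))
    exact ⟨n, n.2, fun a b => congrArg (fun w : Additive h.A => (w.toMul : G)) ((LinearEquiv.congr_fun e (E.e a)).trans (cl a b))⟩
  · have k : ∀ (b : Bool) (j : Fin 4), π (cond b ⟨c j, h.A_le (c j).2⟩ 1) = cond b (nth 1 gB6 j) 1 := fun b j => by
      cases b
      exacts [map_one π, hc j]
    have l : ∀ b : Bool, π (cond b ⟨z, self_mem_Cz z⟩ 1) = 1 := fun b => by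
      cases b
      exacts [map_one π, (h.ker _).2 h.zm]
    have m := (h.ker ⟨_, h.le (h.mem (h.mu_P hx (v6 (xsum uB (a >>> 1)))))⟩).2 (h.mem (h.mu_P hx _))
    rw [show (⟨_, _⟩ : Cz z) = cond (a.testBit 0) ⟨z, self_mem_Cz z⟩ 1 * ⟨_, h.le (h.mem (h.mu_P hx (v6 (xsum uB (a >>> 1)))))⟩ *
      (cond (a.testBit 7) ⟨c 0, h.A_le (c 0).2⟩ 1 * cond (a.testBit 8) ⟨c 1, h.A_le (c 1).2⟩ 1 *
        cond (a.testBit 9) ⟨c 2, h.A_le (c 2).2⟩ 1 * cond (a.testBit 10) ⟨c 3, h.A_le (c 3).2⟩ 1) from Subtype.ext (by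
      rw [hE]; simp [FT0.eA, Bool.apply_cond (f := Subtype.val)])]
    simp only [map_mul, k, l, m, one_mul, bN, Nat.testBit_shiftRight]
    rfl
end
end H1.Lf
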