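import Cfsg.Agent.H1.G3
import Cfsg.Agent.H28.Mt1

/-! Groups of large Fischer type: the conjugates of the central involution in the centraliser of a four-group. -/

set_option autoImplicit false
set_option linter.unusedSectionVars false

namespace H1.Lf
noncomputable section
open H13 MulAction Cfsg H27 Subgroup
open scoped Pointwise
universe u
variable {G : Type u} [Group G] [Finite G] {z : G} {R : Subgroup G} {π : Cz z →* AL V6} {P : V6 → G → Prop}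

theorem isc {a b : G} (g : G) (h : g * a * g⁻¹ = b) : IsConj a b := _root_.isConj_iff.2 ⟨g, h⟩
theorem cj_cm {g a : G} (h : Commute g a) : g * a * g⁻¹ = a := mul_inv_eq_iff_eq_mul.2 h
theorem cm_cj {g a : G} (h : g * a * g⁻¹ = a) : Commute g a := mul_inv_eq_iff_eq_mul.1 h
theorem cm_iff (g : G) {a b : G} : Commute (g * a * g⁻¹) (g * b * g⁻¹) ↔ Commute a b :=
  ⟨fun h => by simpa [mul_assoc] using h.conj g⁻¹, fun h => h.conj g⟩
theorem cj_inj {g a b : G} (h : g * a * g⁻¹ = g * b * g⁻¹) : a = b := mul_left_cancel (mul_right_cancel h)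
theorem ncj {k d : G} (hk : k ∈ Cz z) (n : ¬ IsConj z (d * z)) : ¬ IsConj z (k * d * k⁻¹ * z) := fun i =>
  n (i.trans (isc k (by rw [← conj_mul, mem_Cz'.1 hk])).symm)
theorem wcA (h : FT0 z R π P) {T : Subgroup G} (p : IsPGroup 2 T) (l : h.A ≤ T) : T ≤ normalizer (h.A : Set G) := by
  obtain ⟨S, t⟩ := h.exT
  obtain ⟨l', e⟩ := h.maxT t
  have c := (e.ge rfl).2
  have wc : ∀ g : G, h.A.map (MulAut.conj g).toMonoidHom ≤ S → h.A.map (MulAut.conj g).toMonoidHom = h.A := fun g b => by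
    have k : ∀ x ∈ h.A.map (MulAut.conj g).toMonoidHom, ∀ y ∈ h.A.map (MulAut.conj g).toMonoidHom, x * y = y * x ∧ x ^ 2 = 1 := by
      rintro _ ⟨x, u, rfl⟩ _ ⟨y, v, rfl⟩
      rw [← map_mul, ← map_mul, ← map_pow, h.A_comm u v, pow_two, h.A_sq u, map_one]
      exact ⟨rfl, rfl⟩
    have : (h.A.map (MulAut.conj g).toMonoidHom).subgroupOf S ∈ maxElementaryAbelianSubgroups 2 S :=
      ⟨⟨⟨⟨fun x y => Subtype.ext (Subtype.ext (k _ x.2 _ y.2).1)⟩⟩, fun x d => Subtype.ext (k _ d _ d).2⟩, fun B d => by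
        rw [H1.card_subgroupOf_of_le b, card_map_of_injective (MulAut.conj g).injective, ← H1.card_subgroupOf_of_le l']
        exact c B d⟩
    rw [← map_subgroupOf_eq_of_le b, e.le this, map_subgroupOf_eq_of_le l']
  obtain ⟨S', s⟩ := p.exists_le_sylow
  obtain ⟨g, rfl⟩ := exists_smul_eq G S S'
  have k : ∀ t ∈ T, ∀ a ∈ h.A, g⁻¹ * t * a * (g⁻¹ * t)⁻¹ ∈ h.A := fun t ht a ha => (wc (g⁻¹ * t) (by
    rintro _ ⟨b, hb, rfl⟩
    simpa [mul_assoc] using mem_cj.1 (s (mul_mem (mul_mem ht (l hb)) (inv_mem ht))))).le ⟨a, ha, rfl⟩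
  have n : g⁻¹ ∈ normalizer (h.A : Set G) := mem_normalizer_fintype (by simpa using k 1 T.one_mem)
  exact fun t ht => (mul_mem_cancel_left n).1 (mem_normalizer_fintype (k t ht))
theorem pgA (h : FT0 z R π P) : IsPGroup 2 h.A := IsPGroup.of_card h.card_A
theorem nA (h : FT0 z R π P) {n a : G} (hn : n ∈ normalizer (h.A : Set G)) (ha : a ∈ h.A) : n * a * n⁻¹ ∈ h.A :=
  (mem_normalizer_iff.1 hn a).1 ha
theorem toN (h : FT0 z R π P) {C Q : Subgroup G} (l : h.A ≤ C) (p : IsPGroup 2 Q) (q : Q ≤ C) :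
    ∃ c ∈ C, ∀ y ∈ Q, c * y * c⁻¹ ∈ normalizer (h.A : Set G) := by
  obtain ⟨S, s⟩ := (p.comap_subtype (K := C)).exists_le_sylow
  obtain ⟨T, t⟩ := ((pgA h).comap_subtype (K := C)).exists_le_sylow
  obtain ⟨c, rfl⟩ := exists_smul_eq C S T
  refine ⟨c, c.2, fun y hy => wcA h ((c • S).2.map C.subtype) (fun a ha => ⟨⟨a, l ha⟩, t ha, rfl⟩)
    ⟨c * ⟨y, q hy⟩ * c⁻¹, mem_cj.2 ?_, rfl⟩⟩
  simpa [mul_assoc] using s (show (⟨y, q hy⟩ : C) ∈ Q.comap C.subtype from hy)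
theorem pg_cm {S : Set G} (a : ∀ x ∈ S, x * x = 1) (b : ∀ x ∈ S, ∀ y ∈ S, Commute x y) : IsPGroup 2 (closure S) := fun x =>
  ⟨1, Subtype.ext (by simpa [pow_two] using (H28.closure_commuting a b).2 _ x.2)⟩
theorem pg_dih {a b : G} (ha : a * a = 1) (hb : b * b = 1) (c : Commute a (b * a * b⁻¹)) :
    ∃ Q : Subgroup G, IsPGroup 2 Q ∧ a ∈ Q ∧ b ∈ Q ∧ Q ≤ closure {a, b} := by
  have m : ∀ x ∈ ({a, b * a * b⁻¹} : Set G), b * x * b⁻¹ ∈ closure {a, b * a * b⁻¹} := by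
    rintro _ (rfl | rfl)
    · exact Subgroup.subset_closure (by simp)
    · rw [show b * (b * a * b⁻¹) * b⁻¹ = b * b * a * (b * b)⁻¹ by group, hb]; exact Subgroup.subset_closure (by simp)
  have ma : a ∈ closure {a, b} := Subgroup.subset_closure (by simp)
  have mb : b ∈ closure {a, b} := Subgroup.subset_closure (by simp)
  refine ⟨closure {a, b * a * b⁻¹} ⊔ closure {b}, IsPGroup.to_sup_of_normal_left' (pg_cm ?_ ?_) (pg_cm (by simp [hb]) (by simp)) ?_,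
    mem_sup_left (Subgroup.subset_closure (by simp)), mem_sup_right (Subgroup.subset_closure rfl), sup_le ((closure_le _).2 ?_)
      (closure_mono (by simp))⟩
  · rintro _ (rfl | rfl)
    exacts [ha, by rw [conj_mul, ha]; simp]
  · rintro _ (rfl | rfl) _ (rfl | rfl)
    exacts [Commute.refl _, c, c.symm, Commute.refl _]
  · exact (closure_le _).2 (Set.singleton_subset_iff.2 (mem_normalizer_fintype fun x hx =>
      (closure_le ((closure {a, b * a * b⁻¹}).comap (MulAut.conj b).toMonoidHom)).2 m hx))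
  · rintro _ (rfl | rfl)
    exacts [ma, mul_mem (mul_mem mb ma) (inv_mem mb)]

theorem plane2 {w u : V6} (a1 : Vp w) (a2 : q6 w = 0) (a3 : Vp u) (a4 : q6 u = 0) (a5 : pol q6 w u = 0)
    (a6 : pol q6 w (thL u) = 0) : ∃ g ∈ SS, g w ∈ U6s ∧ g u ∈ U6s := by
  let o : V6 → V6 → Prop := fun a b => pol q6 a b = 0 ∧ pol q6 a (thL b) = 0
  have o1 : ∀ a b, o a b → o a (thL b) := fun a b c => ⟨c.2, by rw [th_th, qf6.add', c.1, c.2, add_zero]⟩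
  have o2 : ∀ a b, o a b → o b a := fun a b c => ⟨(pol_comm ..).trans c.1, by
    rw [← pol_th, ← pol_th, th_cube, pol_comm]; exact (o1 a b c).2⟩
  have o3 : ∀ n a b, o a b → o a (thL^[n] b) := fun n a b c => by
    induction n with
    | zero => exact c
    | succ n ih => rw [Function.iterate_succ_apply']; exact o1 _ _ ih
  have o4 : ∀ y, q6 y = 0 → o y y := fun y b => ⟨qf6.self y, by rw [pol, ← th_th, M0_O6 thL_M0, M0_O6 thL_M0, b]; rfl⟩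
  have o5 : ∀ n y, Vp y ∧ q6 y = 0 → Vp (thL^[n] y) ∧ q6 (thL^[n] y) = 0 := fun n y c => by
    induction n with
    | zero => exact c
    | succ n ih => rw [Function.iterate_succ_apply']; exact ⟨ih.1.th, (M0_O6 thL_M0 _).trans ih.2⟩
  have o6 : ∀ y, y = w ∨ y = u → Vp y ∧ q6 y = 0 := by rintro _ (rfl | rfl); exacts [⟨a1, a2⟩, ⟨a3, a4⟩]
  obtain ⟨g, hg, i⟩ := Iso.plane (X := {y | ∃ n t, (t = w ∨ t = u) ∧ y = thL^[n] t})
    ⟨by rintro _ ⟨n, t, a, rfl⟩; exact (o5 n t (o6 t a)).1,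
    by rintro _ ⟨n, t, a, rfl⟩; exact ⟨n + 1, t, a, (Function.iterate_succ_apply' ..).symm⟩,
    by rintro _ ⟨n, t, a, rfl⟩; exact (o5 n t (o6 t a)).2, by
      rintro _ ⟨n, t, a, rfl⟩ _ ⟨m, s, b, rfl⟩
      refine (o3 m _ _ (o2 _ _ (o3 n _ _ ?_))).1
      rcases a with rfl | rfl <;> rcases b with rfl | rfl
      exacts [o4 _ a2, o2 _ _ ⟨a5, a6⟩, ⟨a5, a6⟩, o4 _ a4]⟩
  exact ⟨g, hg, i _ ⟨0, w, Or.inl rfl, rfl⟩, i _ ⟨0, u, Or.inr rfl, rfl⟩⟩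

/-- the centraliser of the four-group -/
def CE (e : ℕ → G) : Subgroup G := Cz (e 2) ⊓ Cz (e 4)
/-- the class of the central involution -/
def DD (z : G) (e : ℕ → G) : Set G := {d | ∃ c ∈ CE e, c * z * c⁻¹ = d}
def DA : List ℕ := [1, 257, 310, 346, 364, 1025, 1032, 1040, 1048, 1153, 1184, 1216, 1248, 1665, 1724, 1742, 1778, 1792, 1835,
  1877, 1919]
theorem DA_lt : ∀ a ∈ DA, a < 2048 := by decide
theorem x11 {a b : ℕ} (ha : a < 2048) (hb : b < 2048) : a ^^^ b < 2048 := Nat.xor_lt_two_pow (n := 11) ha hb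
def mM : List (List ℕ) := [[1184, 2, 4, 1930, 407, 32, 1217, 128, 1441, 512, 161],
  [1877, 2, 4, 738, 627, 1505, 604, 1342, 917, 649, 1635], [1, 2, 4, 114, 60, 90, 108, 1920, 1152, 1280, 1664]]
theorem Dcj {e : ℕ → G} {d c : G} (hd : d ∈ DD z e) (hc : c ∈ CE e) : c * d * c⁻¹ ∈ DD z e :=
  let ⟨k, a, b⟩ := hd; ⟨c * k, mul_mem hc a, by rw [← b]; group⟩
theorem zD {e : ℕ → G} : z ∈ DD z e := ⟨1, one_mem _, by simp⟩
theorem Disc {e : ℕ → G} {d : G} (hd : d ∈ DD z e) : IsConj z d := let ⟨k, _, b⟩ := hd; isc k b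

namespace Fr
variable {h : FT0 z R π P} {x : Cz z} {e : ℕ → G} (f : Fr h x e)
include f
theorem e0 : e 0 = 1 := by have := f.xor 0 0; rw [Nat.xor_self] at this; exact left_eq_mul.1 this
theorem mu0 : h.mu x (v6 0) = 1 := h.mu0 f.hx
theorem e1 : e 1 = z := by rw [f.mu 1 (by norm_num)]; exact (congrArg _ f.mu0).trans (by simp)
theorem e2 : e 2 = h.mu x (v6 5) := by rw [f.mu 2 (by norm_num)]; exact (congrArg (· * _) (pow_zero z)).trans (one_mul _)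
theorem e4 : e 4 = h.mu x (v6 10) := by rw [f.mu 4 (by norm_num)]; exact (congrArg (· * _) (pow_zero z)).trans (one_mul _)
theorem p2 : P (v6 5) (e 2) := f.e2 ▸ h.mu_P f.hx _
theorem p4 : P (v6 10) (e 4) := f.e4 ▸ h.mu_P f.hx _
theorem cm (a b : ℕ) : Commute (e a) (e b) := h.A_comm (f.mem a) (f.mem b)
theorem A_CE : h.A ≤ CE e := fun _ a => ⟨mem_Cz.2 (h.A_comm a (f.mem 2)), mem_Cz.2 (h.A_comm a (f.mem 4))⟩
theorem zA : z ∈ h.A := f.e1 ▸ f.mem 1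
theorem DC {d : G} (hd : d ∈ DD z e) : d ∈ CE e :=
  let ⟨_, a, b⟩ := hd; b ▸ mul_mem (mul_mem a (f.A_CE f.zA)) (inv_mem a)
theorem Dsq {d : G} (hd : d ∈ DD z e) : d * d = 1 := let ⟨k, _, b⟩ := hd; b ▸ h.conj_sq k
theorem Dne {d : G} (hd : d ∈ DD z e) : d ≠ 1 := let ⟨k, _, b⟩ := hd; b ▸ h.conj_ne_one k
theorem nz {a : ℕ} (ha : a < 2048) (n : XZ.testBit a = false) : ¬ IsConj z (e a) := by rw [f.cz a ha, n]; decide
theorem CE_cm {c : G} (hc : c ∈ CE e) {j : ℕ} (hj : j ∈ [0, 2, 4, 6]) : Commute c (e j) := by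
  have a : Commute c (e 2) := mem_Cz.1 hc.1
  have b : Commute c (e 4) := mem_Cz.1 hc.2
  simp only [List.mem_cons, List.not_mem_nil, or_false] at hj
  rcases hj with rfl | rfl | rfl | rfl
  exacts [f.e0 ▸ Commute.one_right c, a, b, (f.xor 2 4 : e 6 = _) ▸ a.mul_right b]
theorem Dnz {d : G} (hd : d ∈ DD z e) {j : ℕ} (hj : j ∈ [2, 4, 6]) : ¬ IsConj z (d * e j) := fun c => by
  obtain ⟨k, a, rfl⟩ := hd
  rw [← cj_cm (f.CE_cm a (List.mem_cons_of_mem _ hj)), conj_mul, ← f.e1, ← f.xor, f.e1] at c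
  obtain ⟨u, v⟩ := (by decide +kernel : ∀ j ∈ [2, 4, 6], 1 ^^^ j < 2048 ∧ XZ.testBit (1 ^^^ j) = false) j hj
  exact f.nz u v (c.trans (isc k rfl).symm)
theorem inA {d : G} (hd : d ∈ DD z e) (m : d ∈ h.A) : ∃ a ∈ DA, e a = d := by
  obtain ⟨a, ha, rfl⟩ := f.sur d m
  have k : ∀ j ∈ [2, 4, 6], tb XZ (a ^^^ j) = false := fun j hj => by
    rw [tb_eq, ← Bool.not_eq_true, ← f.cz _ (x11 ha (by revert j; decide)), f.xor]; exact f.Dnz hd hj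
  have := (allN_iff _ _).1 (by decide +kernel : (allN 2048 fun a => !tb XZ a || tb XZ (a ^^^ 2) || tb XZ (a ^^^ 4) ||
    tb XZ (a ^^^ 6) || DA.elem a) = true) a ha
  rw [k 2 (by simp), k 4 (by simp), k 6 (by simp), tb_eq, (f.cz a ha).1 (Disc hd)] at this
  exact ⟨a, List.mem_of_elem_eq_true this, rfl⟩
theorem reM (k : ℕ) : ∃ n ∈ CE e ⊓ normalizer (h.A : Set G), ∀ a < 2048, xsum (nth [1, 2, 4, 8, 16, 32, 64, 128, 256, 512, 1024] mM k) a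
    < 2048 ∧ n * e a * n⁻¹ = e (xsum (nth [1, 2, 4, 8, 16, 32, 64, 128, 256, 512, 1024] mM k) a) := by
  have l : ∀ M, (okM M = true ∧ xsum M 2 = 2 ∧ xsum M 4 = 4 ∧ ∀ b ∈ M, b < 2048) → ∃ n ∈ CE e ⊓ normalizer (h.A : Set G),
      ∀ a < 2048, xsum M a < 2048 ∧ n * e a * n⁻¹ = e (xsum M a) := fun M ⟨o, a, b, c⟩ => by
    obtain ⟨n, hn, k⟩ := f.re M o
    exact ⟨n, ⟨⟨mem_Cz'.2 (by rw [k 2 (by norm_num), a]), mem_Cz'.2 (by rw [k 4 (by norm_num), b])⟩, hn⟩, fun a ha =>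
      ⟨xsum_ind (· < 2048) (by norm_num) (fun _ _ => x11) M c a, k a ha⟩⟩
  match k with
  | 0 | 1 | 2 => exact l _ (by decide +kernel)
  | _ + 3 => exact l [1, 2, 4, 8, 16, 32, 64, 128, 256, 512, 1024] (by decide +kernel)
theorem tr21 {a : ℕ} (ha : a ∈ DA) : ∃ n ∈ CE e ⊓ normalizer (h.A : Set G), n * z * n⁻¹ = e a := by
  have b : 1 < 2048 ∧ ∃ n ∈ CE e ⊓ normalizer (h.A : Set G), n * z * n⁻¹ = e 1 := ⟨by norm_num, 1, one_mem _, by simp [f.e1]⟩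
  refine (grow_ind (f := fun k => xsum (nth [1, 2, 4, 8, 16, 32, 64, 128, 256, 512, 1024] mM k)) (z := 1)
    (fun a => a < 2048 ∧ ∃ n ∈ CE e ⊓ normalizer (h.A : Set G), n * z * n⁻¹ = e a) (fun k a ⟨u, n, v, w⟩ => ?_) b
    [(0, 0), (1, 1), (1, 1), (2, 2), (0, 2), (0, 2), (2, 3), (0, 3), (2, 3), (2, 3), (0, 3), (1, 3), (0, 3), (1, 4), (0, 4), (1, 4),
      (2, 5), (2, 3), (2, 3), (2, 3)] [1] (List.forall_mem_singleton.2 b) a (by revert a; decide +kernel)).2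
  obtain ⟨m, s, t⟩ := f.reM k
  exact ⟨(t a u).1, m * n, mul_mem s v, by rw [← (t a u).2, ← w]; group⟩
theorem eD {a : ℕ} (ha : a ∈ DA) : e a ∈ DD z e := let ⟨n, u, v⟩ := f.tr21 ha; ⟨n, u.1, v⟩
theorem piS {k : Cz z} (a : k.1 ∈ CE e) : π k ∈ SS := by
  have b := h.fix_of_comm f.p2 (mem_Cz.1 a.1)
  have c := h.fix_of_comm f.p4 (mem_Cz.1 a.2)
  refine ⟨by_contra fun n => ?_, b⟩
  have := L0_semi (h.mem_L0 k) n (v6 5)
  rw [b, th5, c] at this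
  revert this; decide +kernel
theorem liftS {s : AL V6} (a : s ∈ SS) : ∃ k : Cz z, k.1 ∈ CE e ∧ π k = s := by
  obtain ⟨k, rfl, c⟩ := h.lift_x f.hx f.x3 a.1
  exact ⟨k, ⟨mem_Cz'.2 (by rw [f.e2, h.mu_cj f.hx c, s5 a]), mem_Cz'.2 (by rw [f.e4, h.mu_cj f.hx c, s10 a])⟩, rfl⟩
theorem vpC {w : V6} {r : G} (a : P w r) : r ∈ CE e ↔ Vp w :=
  and_congr (mem_Cz.trans (h.comm_iff a f.p2)) (mem_Cz.trans (h.comm_iff a f.p4))
omit f in
theorem cmP (h : FT0 z R π P) {k : Cz z} (c : IsConj z k.1) (n : ¬ IsConj z (k.1 * z)) {w : V6} {y : G} (a : P w y) (b : π k w = w) : Commute k.1 y := by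
  have := h.act k a
  rw [b] at this
  refine cm_cj (((h.uniq a this).2 rfl).resolve_right fun d => n (c.trans (isc y⁻¹ ?_)))
  rw [coe_inv, mul_inv_eq_iff_eq_mul] at d
  rw [inv_inv, mul_assoc, d, mem_Cz.1 k.2]; group
omit f in
theorem toA {k : Cz z} (c : IsConj z k.1) (n : ¬ IsConj z (k.1 * z)) {u : V6} (hu : u ∈ U6s) (b : π k = tt u) : k.1 ∈ h.A :=
  fun _ ⟨_, hw, a⟩ => (cmP h c n a (b ▸ tt_fix (vp_U hw) (U_pol hw hu) (U_pol hw (U_th hu)))).symm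
theorem daP {a : ℕ} (ha : a ∈ DA) (n : a ≠ 1) : ¬ IsConj z (e a * z) ∧ a >>> 7 ∈ [2, 8, 9, 13, 14] :=
  ⟨by rw [← f.e1, ← f.xor, f.e1]; exact f.nz (x11 (DA_lt a ha) (by norm_num)) (by revert a; decide +kernel), by revert a; decide⟩
omit f in
theorem subA {k : Cz z} {w : V6} {r : G} (a : P w r) (b : π k w ∈ U6s) : k * r * k.1⁻¹ ∈ h.A := h.sub_A ⟨_, b, h.act k a⟩
theorem star {d : Cz z} (hd : d.1 ∈ DD z e) : ∃ k : Cz z, k.1 ∈ CE e ∧ k * d.1 * k.1⁻¹ ∈ h.A := by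
  obtain ⟨g, hg, b⟩ := inv_B (f.piS (f.DC hd)) (by rw [← map_mul, show d * d = 1 from Subtype.ext (f.Dsq hd), map_one])
  obtain ⟨k, hk, rfl⟩ := f.liftS hg
  suffices ∀ d : Cz z, d.1 ∈ DD z e → π d ∈ B06 → ∃ k : Cz z, k.1 ∈ CE e ∧ k * d.1 * k.1⁻¹ ∈ h.A by
    obtain ⟨l, u, v⟩ := this (k * d * k⁻¹) (Dcj hd hk) (by simpa using b)
    exact ⟨l * k, mul_mem u hk, by simpa [mul_assoc] using v⟩
  intro d hd b
  obtain ⟨a, ha, ea⟩ := h.B_A b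
  obtain ⟨m, hm, em⟩ := f.sur _ ha
  have pm : π d = bN (m >>> 7) := by rw [← ea, ← f.pi m]; exact congrArg π (Subtype.ext em.symm)
  have key : ∀ a : Cz z, a.1 ∈ h.A → π a = π d → ∃ w, P w (a.1 * d) ∧ Vp w ∧ π d w = w := fun a ha ea => by
    have a2 : a * a = 1 := Subtype.ext (h.A_sq ha)
    obtain ⟨w, p⟩ := h.ex' _ ((h.ker (a * d)).1 (by rw [map_mul, ← ea, ← map_mul, a2, map_one]))
    refine ⟨w, p, (f.vpC p).1 (mul_mem (f.A_CE ha) (f.DC hd)), ?_⟩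
    have := h.act d p
    rw [show d.1 * (a * d : Cz z).1 * (d⁻¹ : Cz z) = (a * d : Cz z).1⁻¹ by
      simp [mul_assoc, inv_eq_of_mul_eq_one_right (f.Dsq hd), inv_eq_of_mul_eq_one_right (h.A_sq ha), f.Dsq hd]] at this
    exact (h.uniq this (h.inv' p)).1 (Or.inl rfl)
  have iso : ∀ {w u}, Vp w → q6 w = 0 → Vp u → q6 u = 0 → pol q6 w u = 0 → pol q6 w (thL u) = 0 →
      ∃ k : Cz z, k.1 ∈ CE e ∧ π k w ∈ U6s ∧ π k u ∈ U6s := fun {w u} a1 a2 a3 a4 a5 a6 => by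
    obtain ⟨g, hg, i⟩ := plane2 a1 a2 a3 a4 a5 a6
    obtain ⟨k, hk, rfl⟩ := f.liftS hg
    exact ⟨k, hk, i⟩
  have j : m >>> 7 < 16 := by rw [Nat.shiftRight_eq_div_pow]; omega
  by_cases c : m >>> 7 ∈ [0, 2, 8, 9, 13, 14]
  · rcases List.mem_cons.1 c with c | c
    · rw [c, show bN 0 = 1 by simp [bN]] at pm
      obtain ⟨w, p⟩ := h.ex' _ ((h.ker d).1 pm)
      obtain ⟨k, u, v, -⟩ := iso ((f.vpC p).1 (f.DC hd)) ((h.sq' p).1 (f.Dsq hd)) (vp_U (zero_mem _)) qf6.q0 (qf6.zero' _)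
        (by rw [map_zero, qf6.zero'])
      exact ⟨k, u, subA p v⟩
    obtain ⟨n, hn, n1, en⟩ := (by decide : ∀ j ∈ [2, 8, 9, 13, 14], ∃ n ∈ DA, n ≠ 1 ∧ n >>> 7 = j) _ c
    obtain ⟨t1, t2, t3⟩ := bN_tt _ c
    have pn := f.pi n
    rw [en, ← pm] at pn
    obtain ⟨w, p, vw, fw⟩ := key _ (f.mem n) pn
    have c1 := cmP h (k := ⟨e n, h.A_le (f.mem n)⟩) (Disc (f.eD hn)) (f.daP hn n1).1 p (pn ▸ fw)
    have c2 : Commute (e n) d := by simpa [← mul_assoc, h.A_sq (f.mem n)] using (Commute.refl (e n)).mul_right c1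
    obtain ⟨o1, o2⟩ := fix_tt _ t2 w vw (t1 ▸ pm ▸ fw)
    obtain ⟨k, u, v1, v2⟩ := iso vw ((h.sq' p).1 (by
      change e n * d * (e n * d) = 1
      rw [mul_assoc, ← mul_assoc d.1, ← c2.eq, mul_assoc, f.Dsq hd, mul_one, h.A_sq (f.mem n)])) t2.2.1 (q61 t2.1) o1 o2
    have m1 := toA (h := h) (k := k * ⟨e n, h.A_le (f.mem n)⟩ * k⁻¹) (Disc (Dcj (f.eD hn) u)) (ncj k.2 (f.daP hn n1).1) v2 (by
        rw [map_mul, map_mul, map_inv, pn, pm, t1, tt_conj (f.piS u)])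
    refine ⟨k, u, ?_⟩
    have := mul_mem m1 (subA p v1)
    rwa [show ((k * ⟨e n, h.A_le (f.mem n)⟩ * k⁻¹ : Cz z) : G) = k * e n * k.1⁻¹ from rfl, conj_mul, ← mul_assoc (e n),
      h.A_sq (f.mem n), one_mul] at this
  · obtain ⟨w, p, vw, fw⟩ := key a ha ea
    exact ⟨1, one_mem _, by simpa using (mul_mem_cancel_left ha).1 (h.sub_A ⟨w, bN_fix j c vw (pm ▸ fw), p⟩)⟩
theorem ov {d : Cz z} (hd : d.1 ∈ DD z e) (n : d.1 ≠ z) : ¬ IsConj z (d.1 * z) ∧ ∃ u ∈ SP, π d = tt u := by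
  obtain ⟨k, u, v⟩ := f.star hd
  obtain ⟨a, ha, ea⟩ := f.inA (Dcj hd u) v
  have a1 : a ≠ 1 := fun c => n (cj_inj (ea.symm.trans (c ▸ f.e1.trans (mem_Cz'.1 k.2).symm)))
  obtain ⟨b, c⟩ := f.daP ha a1
  obtain ⟨t1, t2, -⟩ := bN_tt _ c
  have s := inv_mem (f.piS u)
  refine ⟨by simpa [ea, mul_assoc] using ncj (inv_mem k.2) b, _, sp_img s t2, ?_⟩
  rw [← tt_conj s, ← t1, ← f.pi a, show (⟨e a, _⟩ : Cz z) = k * d * k⁻¹ from Subtype.ext ea]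
  simp [mul_assoc]
theorem exo {u : V6} (hu : u ∈ SP) : ∃ d : Cz z, d.1 ∈ DD z e ∧ d.1 ≠ z ∧ π d = tt u := by
  obtain ⟨g, hg, rfl⟩ := sp_S hu
  obtain ⟨k, hk, rfl⟩ := f.liftS hg
  refine ⟨k * ⟨e 1025, h.A_le (f.mem _)⟩ * k⁻¹, Dcj (f.eD (by simp [DA])) hk, fun c => ?_, by
    rw [map_mul, map_mul, map_inv, f.pi, ← tt_conj hg]; exact congrArg (_ * · * _) (bN_tt 8 (by simp)).1⟩
  exact absurd (f.inj 1025 (by norm_num) 1 (by norm_num) ((cj_inj (c.trans (mem_Cz'.1 k.2).symm)).trans f.e1.symm)) (by norm_num)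
theorem DA_eq : DD z e ∩ h.A = e '' {a | a ∈ DA} := Set.Subset.antisymm (fun _ a => f.inA a.1 a.2)
  (by rintro _ ⟨a, b, rfl⟩; exact ⟨f.eD b, f.mem a⟩)
theorem card_DA : (DD z e ∩ h.A).ncard = 21 := by
  rw [f.DA_eq, Set.InjOn.ncard_image (s := {a | a ∈ DA}) fun a b c d => f.inj a (DA_lt a b) c (DA_lt c d), ← List.coe_toFinset, Set.ncard_coe_finset]
  decide
theorem fix21 {Q : Subgroup G} (p : IsPGroup 2 Q) (l : Q ≤ CE e ⊓ normalizer (h.A : Set G)) :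
    ∃ y ∈ DD z e ∩ h.A, ∀ q ∈ Q, Commute q y := by
  let _ : MulAction Q ↥(DD z e ∩ h.A) :=
    { smul := fun q y => ⟨q * y * q.1⁻¹, Dcj y.2.1 (l q.2).1, nA h (l q.2).2 y.2.2⟩
      one_smul := fun y => Subtype.ext (by change (1 : G) * y * 1⁻¹ = y; simp)
      mul_smul := fun a b y => Subtype.ext (by change (a * b : G) * y * (a * b : G)⁻¹ = a * (b * y * b.1⁻¹) * a.1⁻¹; group) }
  obtain ⟨y, hy⟩ := p.nonempty_fixed_point_of_prime_not_dvd_card ↥(DD z e ∩ h.A) (by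
    rw [Nat.card_coe_set_eq, f.card_DA]; norm_num)
  exact ⟨y, y.2, fun q hq => cm_cj (congrArg Subtype.val (hy ⟨q, hq⟩))⟩
theorem trA {y : G} (hy : y ∈ DD z e ∩ h.A) : ∃ n ∈ CE e ⊓ normalizer (h.A : Set G), n * z * n⁻¹ = y := by
  obtain ⟨a, ha, rfl⟩ := f.inA hy.1 hy.2
  exact f.tr21 ha
theorem nrmA {d : G} (hd : d ∈ DD z e) (m : d ∈ normalizer (h.A : Set G)) : d ∈ h.A := by
  obtain ⟨y, hy, c⟩ := f.fix21 (Q := closure {d}) (pg_cm (by simp [f.Dsq hd]) (by simp))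
    ((closure_le _).2 (Set.singleton_subset_iff.2 ⟨f.DC hd, m⟩))
  obtain ⟨n, hn, rfl⟩ := f.trA hy
  have c' := conj_mem_Cz.2 (mem_Cz.2 (c d (Subgroup.subset_closure rfl)))
  have hd' : n⁻¹ * d * n ∈ DD z e := by simpa using Dcj hd (inv_mem hn.1)
  have m' : n⁻¹ * d * n ∈ normalizer (h.A : Set G) := mul_mem (mul_mem (inv_mem hn.2) m) hn.2
  suffices n⁻¹ * d * n ∈ h.A by simpa [mul_assoc] using nA h hn.2 this
  generalize n⁻¹ * d * n = d at *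
  by_cases e1 : d = z
  · exact e1 ▸ f.zA
  obtain ⟨a, u, hu, b⟩ := f.ov (d := ⟨d, c'⟩) hd' e1
  refine toA (k := ⟨d, c'⟩) (Disc hd') a (tt_U hu fun w hw => ?_) b
  obtain ⟨r, p⟩ := h.ex w
  have q := h.act' c' p
  rw [← b]
  exact (h.mem_sub q).1 (h.A_inf.le ⟨nA h m' (h.sub_A ⟨w, hw, p⟩), h.mem q⟩)
theorem pgD {Q : Subgroup G} (p : IsPGroup 2 Q) (l : Q ≤ CE e) : ∃ c ∈ CE e, (∀ y ∈ Q, c * y * c⁻¹ ∈ normalizer (h.A : Set G)) ∧
    ∀ y ∈ Q, y ∈ DD z e → c * y * c⁻¹ ∈ h.A :=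
  let ⟨c, a, b⟩ := toN h f.A_CE p l; ⟨c, a, b, fun y u v => f.nrmA (Dcj v a) (b y u)⟩
theorem clq {S : Set G} (a : S ⊆ DD z e) (b : ∀ x ∈ S, ∀ y ∈ S, Commute x y) :
    ∃ c ∈ CE e, ∀ y ∈ S, ∃ n ∈ DA, e n = c * y * c⁻¹ :=
  let ⟨c, u, _, v⟩ := f.pgD (pg_cm (fun _ m => f.Dsq (a m)) b) ((closure_le _).2 fun _ m => f.DC (a m))
  ⟨c, u, fun y m => f.inA (Dcj (a m) u) (v y (Subgroup.subset_closure m) (a m))⟩
theorem dih {d w : G} (hd : d ∈ DD z e) (hw : w ∈ CE e) (w2 : w * w = 1) (c : Commute d (w * d * w⁻¹)) :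
    (w ∈ DD z e → Commute d w) ∧ ∃ y ∈ DD z e, Commute y d ∧ Commute y w := by
  obtain ⟨Q, p, a, b, l⟩ := pg_dih (f.Dsq hd) w2 c
  replace l := l.trans ((closure_le (CE e)).2 (Set.pair_subset (f.DC hd) hw))
  obtain ⟨c, u, v, t⟩ := f.pgD p l
  refine ⟨fun m => (cm_iff c).1 (h.A_comm (t d a hd) (t w b m)), ?_⟩
  obtain ⟨y, hy, k⟩ := f.fix21 (Q := closure {c * w * c⁻¹}) (pg_cm (by simp [w2]) (by simp))
    ((closure_le _).2 (Set.singleton_subset_iff.2 (mem_inf.2 ⟨mul_mem (mul_mem u hw) (inv_mem u), v w b⟩)))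
  refine ⟨c⁻¹ * y * c⁻¹⁻¹, Dcj hy.1 (inv_mem u), (cm_iff c).1 ?_, (cm_iff c).1 ?_⟩
  · simpa [mul_assoc] using (show Commute y (c * d * c⁻¹) from h.A_comm hy.2 (t d a hd))
  · simpa [mul_assoc] using (k _ (Subgroup.subset_closure rfl)).symm
end Fr
end
end H1.Lf
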