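import Cfsg.Agent.H1.G4

/-! Groups of large Fischer type: a class of 3-transpositions in the centraliser of a four-group. -/

set_option autoImplicit false
set_option linter.unusedSectionVars false

namespace H1.Lf
noncomputable section
open H13 MulAction Cfsg H27 Subgroup
open scoped Pointwise
universe u
variable {G : Type u} [Group G] [Finite G] {z : G} {R : Subgroup G} {π : Cz z →* AL V6} {P : V6 → G → Prop}

theorem zp2 {t w : G} (h : t * t = 1) (m : w ∈ zpowers t) : w = 1 ∨ w = t := by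
  obtain ⟨k, rfl⟩ := m
  have e : ∀ m : ℤ, t ^ (2 * m) = 1 := fun m => by rw [zpow_mul, zpow_two, h, one_zpow]
  rcases Int.even_or_odd' k with ⟨m, rfl | rfl⟩
  exacts [Or.inl (e m), Or.inr (by simp only [zpow_add_one, e, one_mul])]
theorem core_odd {t : G} (h : t ∈ pPrimeCore 2 G) : Odd (orderOf t) :=
  Nat.coprime_two_right.1 ((H1.coprime_card_pPrimeCore (G := G) 2).coprime_dvd_left (orderOf_dvd_natCard _ h))
theorem odd_one {t : G} {n : ℕ} (h : Odd (orderOf t)) (e : t ^ 2 ^ n = 1) : t = 1 := orderOf_eq_one_iff.1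
  (Nat.Coprime.eq_one_of_dvd ((Nat.coprime_two_right.2 h).pow_right n) (orderOf_dvd_of_pow_eq_one e))
theorem cm_odd {o a : G} {n : ℕ} (hn : Odd n) (e : o ^ n = 1) (c : Commute (o * o) a) : Commute o a := by
  obtain ⟨k, rfl⟩ := hn
  have := c.pow_left (k + 1)
  rwa [← pow_two, ← pow_mul, show 2 * (k + 1) = 2 * k + 1 + 1 by ring, pow_succ, e, one_mul] at this
theorem zq (h : FT0 z R π P) {X : Subgroup G} (hA : h.A ≤ X) {v d y1 y2 : G} (vA : v ∈ h.A) (cv : ∀ g ∈ X, Commute g v) (dA : d ∈ h.A)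
    (n1 : d ≠ 1) (nv : d ≠ v) (m1 : y1 ∈ h.A) (m2 : y2 ∈ h.A) (c1 : IsConj z y1) (c2 : IsConj z y2) (c3 : IsConj z (y1 * y2))
    (iso : ∀ g ∈ X, ∀ y, y = g * d * g⁻¹ → (d * y * d⁻¹ = y ∨ d * y * d⁻¹ = y * v) → y = d ∨ y = d * v) :
    ∀ g ∈ X, g * d * g⁻¹ = d ∨ g * d * g⁻¹ = d * v := fun g hg => by
  have v2 := h.A_sq vA
  let t : X := ⟨v, hA vA⟩
  have : (zpowers t).Normal := H6.normal_of_le_center' (zpowers_le.2 (mem_center_iff.2 fun x => Subtype.ext (cv x x.2)))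
  let ρ := QuotientGroup.mk' (zpowers t)
  have pe : ∀ x y : X, ρ x = ρ y → x.1 = y.1 ∨ x.1 = y.1 * v := fun x y e => by
    obtain ⟨w, hw, e⟩ := (QuotientGroup.mk'_eq_mk' _).1 e.symm
    rcases zp2 (Subtype.ext v2) hw with rfl | rfl
    exacts [Or.inl (by rw [← e, mul_one]), Or.inr (by rw [← e]; rfl)]
  have rt : ρ t = 1 := (QuotientGroup.eq_one_iff _).2 (mem_zpowers t)
  let d' : X := ⟨d, hA dA⟩
  have i : IsIsolatedInvolution (ρ d') := by
    refine ⟨orderOf_eq_prime (by rw [pow_two, ← map_mul, show d' * d' = 1 from Subtype.ext (h.A_sq dA), map_one])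
      fun e => ?_, fun x e => ?_⟩
    · exact (pe d' 1 (e.trans ρ.map_one.symm)).elim n1 fun e => nv (e.trans (one_mul v))
    · obtain ⟨x, rfl⟩ := QuotientGroup.mk'_surjective _ x
      rw [← map_inv, ← map_mul, ← map_mul] at e ⊢
      rcases iso x x.2 _ rfl (pe (d' * (x * d' * x⁻¹) * d'⁻¹) (x * d' * x⁻¹) (by
        rw [map_mul, map_mul _ d', map_inv]; exact cj_cm e)) with e | e
      · exact congrArg ρ (Subtype.ext e)
      · rw [show x * d' * x⁻¹ = d' * t from Subtype.ext e, map_mul, rt, mul_one]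
  obtain ⟨o, ho, u, cu, e⟩ := H6.isolated_core_mul_cent i (ρ ⟨g, hg⟩)
  let A' := (h.A.subgroupOf X).map ρ
  have hc : ∀ x ∈ A', ∀ y ∈ A', Commute x y := by
    rintro _ ⟨x, a, rfl⟩ _ ⟨y, b, rfl⟩; exact Commute.map (show Commute x y from Subtype.ext (h.A_comm a b)) ρ
  have h2 : ∀ x ∈ A', x * x = 1 := by
    rintro _ ⟨x, a, rfl⟩; rw [← map_mul, show x * x = 1 from Subtype.ext (h.A_sq a), map_one]
  have : IsMulCommutative A' := ⟨⟨fun x y => Subtype.ext (hc _ x.2 _ y.2)⟩⟩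
  obtain rfl := mem_bot.1 (H1.le_of_forall_cocyclic_centralizer_le (H := ⊥) (A := A') le_normalizer_of_normal
    (H1.IsPGroup.coprime_card (p := 2) (fun x => ⟨1, Subtype.ext (by simpa [pow_two] using h2 _ x.2)⟩)
      (H1.coprime_card_pPrimeCore 2)) (fun B hB ⟨w, hw, eB⟩ o ho => by
    have k := H28.mem_or_of_sup hc hB hw (h2 w hw) eB
    obtain ⟨y, yA, cy, yB⟩ : ∃ y, ∃ m : y ∈ h.A, IsConj z y ∧ ρ ⟨y, hA m⟩ ∈ B := by
      have a1 : ρ ⟨y1, hA m1⟩ ∈ A' := ⟨_, m1, rfl⟩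
      have a2 : ρ ⟨y2, hA m2⟩ ∈ A' := ⟨_, m2, rfl⟩
      rcases k _ a1 with b1 | b1
      · exact ⟨_, m1, c1, b1⟩
      rcases k _ a2 with b2 | b2
      · exact ⟨_, m2, c2, b2⟩
      have := mul_mem b1 b2
      rw [← (hc _ hw _ a2).eq, mul_assoc, ← mul_assoc w, h2 w hw, one_mul, ← map_mul] at this
      exact ⟨_, mul_mem m1 m2, c3, this⟩
    obtain ⟨u, rfl⟩ := QuotientGroup.mk'_surjective _ o
    have on := core_odd ho.1
    obtain ⟨u, e, un⟩ : ∃ u' : X, ρ u' = ρ u ∧ u'.1 ^ orderOf (ρ u) = 1 := by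
      refine ⟨u ^ (orderOf (ρ u) + 1), by rw [map_pow, pow_succ, pow_orderOf_eq_one, one_mul], ?_⟩
      obtain ⟨j, hj⟩ := on.add_one
      have : u.1 ^ orderOf (ρ u) * u.1 ^ orderOf (ρ u) = 1 := by
        rcases pe (u ^ orderOf (ρ u)) 1 (by rw [map_pow, pow_orderOf_eq_one, map_one]) with a | a <;>
          rw [show u.1 ^ _ = _ from a] <;> simp [v2]
      rw [coe_pow, ← pow_mul, mul_comm, pow_mul, hj, pow_add, ← (Commute.refl _).mul_pow, this, one_pow]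
    change ρ _ ∈ _ at ho ⊢
    rw [← e] at ho ⊢
    have cm : ∀ a : X, Commute (ρ u) (ρ a) → Commute u.1 a.1 := fun a c => by
      rcases pe (u * a * u⁻¹) a (by rw [map_mul, map_mul, map_inv, cj_cm c]) with b | b
      · exact cm_cj b
      · refine cm_odd on un (cm_cj ?_)
        replace b : u.1 * a * u.1⁻¹ = a * v := b
        rw [show u.1 * u * a * (u.1 * u)⁻¹ = u * (u * a * u.1⁻¹) * u.1⁻¹ by group, b, ← conj_mul, b, cj_cm (cv u u.2), mul_assoc, v2,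
          mul_one]
    obtain ⟨g, eg⟩ := _root_.isConj_iff.1 cy
    obtain ⟨n, hn, en⟩ := h.fus (h.sub_A (h.z_sub _)) (eg ▸ yA)
    have uz : n⁻¹ * u * n ∈ Cz z := conj_mem_Cz.2 (mem_Cz.2 (by rw [en, eg]; exact cm ⟨y, hA yA⟩ (Commute.symm (ho.2 _ yB))))
    have uA : n⁻¹ * u * n ∈ h.A := fun r hr => by
      have rA := nA h hn (h.sub_A hr)
      have a4 := h.pow_four (mul_mem (h.nrm _ uz r (h.sub_le _ hr)) (h.sub_le _ hr))
      have a5 : ρ (u * ⟨_, hA rA⟩ * u⁻¹ * ⟨_, hA rA⟩) = 1 := odd_one (n := 2) (core_odd (by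
        rw [map_mul, map_mul, map_mul, map_inv, mul_assoc, mul_assoc]
        refine mul_mem ho.1 ?_
        rw [← mul_assoc]
        nth_rewrite 2 [← inv_eq_of_mul_eq_one_right (h2 _ ⟨⟨_, hA rA⟩, rA, rfl⟩)]
        exact Normal.conj_mem inferInstance _ (inv_mem ho.1) _)) (by
          rw [← map_pow, show (u * ⟨_, hA rA⟩ * u⁻¹ * ⟨_, hA rA⟩ : X) ^ 2 ^ 2 = 1 from Subtype.ext (by
            have := (conj_pow (a := n)).trans ((congrArg (n * · * n⁻¹) a4).trans (show n * 1 * n⁻¹ = 1 by simp))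
            simpa [mul_assoc] using this), map_one])
      have a6 := cm ⟨_, hA rA⟩ (cm_cj (by
        rw [map_mul, map_mul, map_mul, map_inv, mul_eq_one_iff_eq_inv, inv_eq_of_mul_eq_one_right (h2 _ ⟨⟨_, hA rA⟩, rA, rfl⟩)] at a5
        exact a5))
      simpa [mul_assoc] using ((cm_iff n⁻¹).2 a6).symm.eq
    have u2 : u.1 * u = 1 := h.A_sq (by simpa [mul_assoc] using nA h hn uA)
    exact odd_one (n := 1) (core_odd ho.1) (by rw [← map_pow, show u ^ 2 ^ 1 = 1 from Subtype.ext (by simpa [pow_two] using u2),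
      map_one])) ho)
  rw [one_mul] at e
  exact pe (⟨g, hg⟩ * d' * ⟨g, hg⟩⁻¹) d' (by rw [map_mul, map_mul, map_inv, e, cj_cm cu])

theorem dihe {a b : G} (ha : a * a = 1) (hb : b * b = 1) :
    (Odd (orderOf (a * b)) ∧ ∃ g ∈ closure {a, b}, g * b * g⁻¹ = a) ∨
    ∃ v ∈ closure {a, b}, v * v = 1 ∧ v ≠ 1 ∧ Commute a v ∧ Commute b v ∧ ∃ g ∈ closure {a, b}, ∃ k ∈ closure {a, b},
      (g * a * g⁻¹ = a * v ∧ k * b * k⁻¹ = b * v) ∨ (g * b * g⁻¹ = a * v ∧ k * a * k⁻¹ = b * v) := by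
  have e1 : ∀ {a b : G}, a * a = 1 → b * b = 1 → ∀ k, ((a * b) ^ k)⁻¹ * a * (((a * b) ^ k)⁻¹)⁻¹ = a * (a * b) ^ (k + k) :=
    fun ha hb k => by rw [inv_inv, ← H28.dih_conj ha hb, pow_add, mul_assoc]
  have e2 : ∀ {a b : G}, a * a = 1 → b * b = 1 → ∀ k, ((a * b) ^ k)⁻¹ * b * (((a * b) ^ k)⁻¹)⁻¹ = a * (a * b) ^ (2 * k + 1) :=
    fun {a b} ha hb k => by
      rw [inv_inv, show 2 * k + 1 = k + (1 + k) by omega, pow_add, ← mul_assoc, H28.dih_conj ha hb, pow_add, pow_one]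
      simp only [mul_assoc]; rw [← mul_assoc a a, ha, one_mul]
  have ma : a ∈ closure {a, b} := Subgroup.subset_closure (by simp)
  have mb : b ∈ closure {a, b} := Subgroup.subset_closure (by simp)
  have m1 := fun k : ℕ => pow_mem (mul_mem ma mb) k
  have m2 := fun k : ℕ => inv_mem (pow_mem (mul_mem mb ma) k)
  rcases Nat.even_or_odd (orderOf (a * b)) with ⟨m, hm⟩ | ⟨k, hk⟩
  · have h1 : (a * b) ^ m * (a * b) ^ m = 1 := by rw [← pow_add, ← hm, pow_orderOf_eq_one]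
    have h2 : Commute a ((a * b) ^ m) := (H28.dih_conj ha hb m).trans (by rw [inv_eq_of_mul_eq_one_right h1])
    have h0 := orderOf_pos (a * b)
    have h3 : (b * a) ^ m = (a * b) ^ m := by
      rw [← inv_eq_of_mul_eq_one_right h1, ← inv_pow, mul_inv_rev, inv_eq_of_mul_eq_one_right ha, inv_eq_of_mul_eq_one_right hb]
    refine Or.inr ⟨_, m1 m, h1, pow_ne_one_of_lt_orderOf (by omega) (by omega), h2, ?_, ?_⟩
    · have := h2.mul_left ((Commute.refl (a * b)).pow_right m)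
      rwa [← mul_assoc, ha, one_mul] at this
    · rcases Nat.even_or_odd m with ⟨k, rfl⟩ | ⟨k, rfl⟩
      exacts [⟨_, inv_mem (m1 k), _, m2 k, Or.inl ⟨e1 ha hb k, h3 ▸ e1 hb ha k⟩⟩,
        ⟨_, inv_mem (m1 k), _, m2 k, Or.inr ⟨e2 ha hb k, h3 ▸ e2 hb ha k⟩⟩]
  · exact Or.inl ⟨⟨k, hk⟩, _, inv_mem (m1 k), by rw [e2 ha hb, ← hk, pow_orderOf_eq_one, mul_one]⟩

namespace Fr
variable {h : FT0 z R π P} {x : Cz z} {e : ℕ → G} (f : Fr h x e) {a b d y w g : G}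
include f
theorem no8 (ha : a ∈ DD z e) (hb : b ∈ DD z e) (c : Commute a (b * a * b⁻¹)) : Commute a b :=
  (f.dih ha (f.DC hb) (f.Dsq hb) c).1 hb
theorem cl3 (ha : a ∈ DD z e) (hb : b ∈ DD z e) (hd : d ∈ DD z e) (c1 : Commute a b) (c2 : Commute a d) (c3 : Commute b d) :
    ∃ c ∈ CE e, ∃ i ∈ DA, ∃ j ∈ DA, ∃ k ∈ DA, e i = c * a * c⁻¹ ∧ e j = c * b * c⁻¹ ∧ e k = c * d * c⁻¹ := by
  obtain ⟨c, u, v⟩ := f.clq (S := {a, b, d}) (by rintro _ (rfl | rfl | rfl) <;> assumption) (by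
    rintro _ (rfl | rfl | rfl) _ (rfl | rfl | rfl)
    exacts [Commute.refl _, c1, c2, c1.symm, Commute.refl _, c3, c2.symm, c3.symm, Commute.refl _])
  obtain ⟨i, p, q⟩ := v a (by simp)
  obtain ⟨j, r, s⟩ := v b (by simp)
  obtain ⟨k, t, w⟩ := v d (by simp)
  exact ⟨c, u, i, p, j, r, k, t, q, s, w⟩
theorem pair (ha : a ∈ DD z e) (hb : b ∈ DD z e) (c : Commute a b) : ¬ IsConj z (a * b) := fun i => by
  obtain ⟨c, -, i, p, j, r, -, -, q, s, -⟩ := f.cl3 ha hb hb c c (Commute.refl _)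
  refine f.nz (x11 (DA_lt i p) (DA_lt j r)) ((by decide +kernel : ∀ i ∈ DA, ∀ j ∈ DA, XZ.testBit (i ^^^ j) = false) i p j r) ?_
  rw [f.xor, q, s, conj_mul]; exact IsConj.trans ‹_› (isc c rfl)
theorem tri (ha : a ∈ DD z e) (hb : b ∈ DD z e) (hd : d ∈ DD z e) (c1 : Commute a b) (c2 : Commute a d) (c3 : Commute b d)
    (n : a ≠ b) (m : d * (a * b) ∈ DD z e) : d = a ∨ d = b := by
  obtain ⟨c, u, i, p, j, r, k, t, q, s, w⟩ := f.cl3 ha hb hd c1 c2 c3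
  obtain ⟨l, o, v⟩ := f.inA (Dcj m u) (by rw [← conj_mul, ← conj_mul, ← q, ← s, ← w]; exact mul_mem (f.mem _) (mul_mem (f.mem _) (f.mem _)))
  rw [← conj_mul, ← conj_mul, ← q, ← s, ← w, ← f.xor, ← f.xor] at v
  obtain rfl := f.inj _ (DA_lt l o) _ (x11 (DA_lt k t) (x11 (DA_lt i p) (DA_lt j r))) v
  rcases (by decide +kernel : ∀ i ∈ DA, ∀ j ∈ DA, ∀ k ∈ DA, k ^^^ (i ^^^ j) ∈ DA → i = j ∨ k = i ∨ k = j) i p j r k t o with
    rfl | rfl | rfl
  exacts [absurd (cj_inj (q.symm.trans s)) n, Or.inl (cj_inj (w.symm.trans q)), Or.inr (cj_inj (w.symm.trans s))]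
theorem cen2 (ha : a ∈ DD z e) (hb : b ∈ DD z e) (c : Commute a b) (n : a ≠ b) (hg : g ∈ CE e) (cg : Commute g (a * b)) :
    g * a * g⁻¹ = a ∨ g * a * g⁻¹ = b := by
  obtain ⟨c, u, i, p, j, r, -, -, q, s, -⟩ := f.cl3 ha hb hb c c (Commute.refl _)
  have n' : e i ≠ e j := fun k => n (cj_inj (q.symm.trans (k.trans s)))
  have sq := h.A_sq (f.mem i)
  have ee : e i * (e i * e j) = e j := by rw [← mul_assoc, sq, one_mul]
  have := zq h (X := CE e ⊓ Cz (e i * e j)) (v := e i * e j) (d := e i) (y1 := e 1) (y2 := e 10) (fun y m => ⟨f.A_CE m, mem_Cz.2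
    (h.A_comm m (mul_mem (f.mem i) (f.mem j)))⟩) (mul_mem (f.mem i) (f.mem j)) (fun g m => mem_Cz.1 m.2) (f.mem i)
    (f.Dne (f.eD p)) (fun k => f.Dne (f.eD r) (left_eq_mul.1 k)) (f.mem 1) (f.mem 10) ((f.cz 1 (by norm_num)).2 (by decide +kernel))
    ((f.cz 10 (by norm_num)).2 (by decide +kernel)) (f.xor 1 10 ▸ (f.cz _ (by decide)).2 (by decide +kernel)) (fun g m y ey k => by
      have yD : y ∈ DD z e := ey ▸ Dcj (f.eD p) m.1
      have gv : Commute g (e i * e j) := mem_Cz.1 m.2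
      have yv : Commute y (e i * e j) := by rw [ey, ← cj_cm gv]; exact (cm_iff g).2 ((Commute.refl _).mul_right (f.cm i j))
      have c1 : Commute y (e i) := f.no8 yD (f.eD p) (k.elim (fun k => k.symm ▸ Commute.refl _)
        fun k => k.symm ▸ (Commute.refl _).mul_right yv)
      have c2 : Commute y (e j) := ee ▸ c1.mul_right yv
      rw [ee]
      exact f.tri (f.eD p) (f.eD r) yD (f.cm i j) c1.symm c2.symm n' (by
        rw [ey, ← cj_cm gv, conj_mul, ee]; exact Dcj (f.eD r) m.1)) (c * g * c⁻¹)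
    (mem_inf.2 ⟨mul_mem (mul_mem u hg) (inv_mem u), mem_Cz.2 (by rw [q, s, conj_mul]; exact (cm_iff c).2 cg)⟩)
  rw [ee, q, s, conj_inv, conj_mul, conj_mul] at this
  exact this.imp cj_inj cj_inj
theorem cen3 (ha : a ∈ DD z e) (hb : b ∈ DD z e) (c : Commute a b) (n : a ≠ b) (hd : d ∈ DD z e) (cg : Commute d (a * b)) :
    Commute a d := f.no8 ha hd ((f.cen2 ha hb c n (f.DC hd) cg).elim (fun k => k.symm ▸ Commute.refl _) fun k => k.symm ▸ c)
theorem cl2 (ha : a ∈ CE e) (hb : b ∈ CE e) : closure {a, b} ≤ CE e := (closure_le _).2 (Set.pair_subset ha hb)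
theorem odd (ha : a ∈ DD z e) (hb : b ∈ DD z e) (n : ¬ Commute a b) :
    Odd (orderOf (a * b)) ∧ ∃ g ∈ closure {a, b}, g * b * g⁻¹ = a := by
  refine (dihe (f.Dsq ha) (f.Dsq hb)).resolve_right fun ⟨v, _, _, v1, c1, c2, g, hg, _, _, k⟩ => n ?_
  have l := f.cl2 (f.DC ha) (f.DC hb) hg
  refine f.cen3 ha (b := a * v) (k.elim (fun k => k.1 ▸ Dcj ha l) fun k => k.1 ▸ Dcj hb l) ((Commute.refl a).mul_right c1)
    (fun k => v1 (left_eq_mul.1 k)) hb ?_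
  rw [← mul_assoc, f.Dsq ha, one_mul]; exact c2
theorem diam (ha : a ∈ DD z e) (hb : b ∈ DD z e) : ∃ y ∈ DD z e, Commute y a ∧ Commute y b := by
  suffices ∀ b ∈ DD z e, ∃ y ∈ DD z e, Commute y z ∧ Commute y b by
    obtain ⟨c, u, rfl⟩ := ha
    obtain ⟨y, p, q, r⟩ := this _ (Dcj hb (inv_mem u))
    exact ⟨_, Dcj p u, (cm_iff c).2 q, by simpa [mul_assoc] using (cm_iff c).2 r⟩
  intro b hb
  by_cases nb : Commute z b
  · exact ⟨z, zD, Commute.refl z, nb⟩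
  have dD := f.eD (show 257 ∈ DA by simp [DA])
  have zd : Commute z (e 257) := f.e1 ▸ f.cm 1 257
  have ne : z ≠ e 257 := fun k => absurd (f.inj 1 (by norm_num) 257 (by norm_num) (f.e1.trans k)) (by norm_num)
  generalize e 257 = d at *
  have vC := mul_mem (f.DC zD) (f.DC dD)
  have v2 : z * d * (z * d) = 1 := by rw [mul_assoc, ← mul_assoc d, ← zd.eq, mul_assoc, f.Dsq dD, mul_one, h.zz]
  have l := f.cl2 (f.DC hb) vC
  rcases dihe (f.Dsq hb) v2 with ⟨-, g, -, k⟩ | ⟨w, hw, w2, w1, c1, c2, g, hg, k, hk, ⟨e1, -⟩ | ⟨e1, e2⟩⟩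
  · exact absurd ((Disc hb).trans (isc g k).symm) (f.pair zD dD zd)
  · have m : b * w ∈ DD z e := e1 ▸ Dcj hb (l hg)
    have q : ∀ y ∈ DD z e, Commute y w → Commute y b := fun y hy c => (f.cen3 hb m ((Commute.refl b).mul_right c1)
      (fun k => w1 (left_eq_mul.1 k)) hy (by rwa [← mul_assoc, f.Dsq hb, one_mul])).symm
    obtain ⟨y, hy, p, r⟩ := (f.dih zD (l hw) w2 ((f.cen2 zD dD zd ne (l hw) c2.symm).elim
      (fun k => k.symm ▸ Commute.refl _) fun k => k.symm ▸ zd)).2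
    exact ⟨y, hy, p, q y hy r⟩
  · have m : z * d * w ∈ DD z e := e2 ▸ Dcj hb (l hk)
    have cv : Commute (z * d * w) (z * d) := (Commute.refl _).mul_left c2.symm
    have c3 := f.cen3 zD dD zd ne m cv
    have c4 := f.cen3 dD zD zd.symm ne.symm m (zd.eq ▸ cv)
    obtain ⟨c, u, i, p, j, r, t, s, q1, q2, q3⟩ := f.cl3 zD dD m zd c3 c4
    obtain ⟨n, o, on⟩ := (by decide +kernel : ∀ i ∈ DA, ∀ j ∈ DA, ∀ t ∈ DA, ∃ n ∈ DA, XZ.testBit (n ^^^ (i ^^^ j ^^^ t)) = true ∨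
      n = i ^^^ j ^^^ t) i p j r t s
    have ew : e (i ^^^ j ^^^ t) = c * w * c⁻¹ := by rw [f.xor, f.xor, q1, q2, q3, conj_mul, conj_mul, ← mul_assoc (z * d), v2, one_mul]
    have yD : c⁻¹ * e n * c⁻¹⁻¹ ∈ DD z e := Dcj (f.eD o) (inv_mem u)
    have yw : Commute (c⁻¹ * e n * c⁻¹⁻¹) w := (cm_iff c).1 (by simpa [mul_assoc, ← ew] using f.cm n _)
    refine ⟨_, yD, (cm_iff c).1 (by simpa [mul_assoc, ← q1] using f.cm n i), by_contra fun nc => ?_⟩
    rcases on with on | rfl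
    · obtain ⟨-, g', hg', k'⟩ := f.odd yD hb nc
      have : Commute g' w := (closure_le (Cz w)).2 (Set.pair_subset (mem_Cz.2 yw) (mem_Cz.2 c1)) hg' |> mem_Cz.1
      have i1 := (f.cz _ (x11 (DA_lt n o) (x11 (x11 (DA_lt i p) (DA_lt j r)) (DA_lt t s)))).2 on
      rw [f.xor, ew] at i1
      refine f.pair zD dD zd (i1.trans ((isc c⁻¹ (b := c⁻¹ * e n * c⁻¹⁻¹ * w) (by group)).trans ((isc g' ?_).symm.trans (isc g e1).symm)))
      rw [← conj_mul, k', cj_cm this]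
    · exact nc (by simpa [ew, mul_assoc] using c1.symm)
theorem pcm {a b : Cz z} (ha : a.1 ∈ DD z e) (hb : b.1 ∈ DD z e) (c : Commute (π a) (π b)) : Commute a.1 b.1 := by_contra fun n => by
  have s : ∀ a : Cz z, a.1 ∈ DD z e → π a * π a = 1 := fun a m => by
    rw [← map_mul, show a * a = 1 from Subtype.ext (f.Dsq m), map_one]
  have := h.pow_four ((h.ker ((a * b) ^ 2)).1 (by rw [map_pow, map_mul, c.mul_pow, pow_two, pow_two, s a ha, s b hb, one_mul]))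
  rw [coe_pow, ← pow_mul] at this
  have := odd_one (n := 3) (f.odd ha hb n).1 this
  exact n (by rw [eq_inv_of_mul_eq_one_left this, inv_eq_of_mul_eq_one_right (f.Dsq hb)])
theorem tts : IsThreeTranspositionSet (DD z e) := ⟨fun d hd => orderOf_eq_prime (by rw [pow_two, f.Dsq hd]) (f.Dne hd),
  fun a ha b hb => by
  by_cases n : Commute a b
  · exact Or.inl (by rw [n.mul_pow, pow_two, pow_two, f.Dsq ha, f.Dsq hb, one_mul])
  obtain ⟨_, ⟨c, u, rfl⟩, p, q⟩ := f.diam ha hb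
  have k : ∀ a ∈ DD z e, Commute (c * z * c⁻¹) a → c⁻¹ * a * c ∈ DD z e ∧ c⁻¹ * a * c ∈ Cz z := fun a m t =>
    ⟨by simpa using Dcj m (inv_mem u), conj_mem_Cz.2 (mem_Cz.2 t.symm)⟩
  have n' : ¬ Commute (c⁻¹ * a * c) (c⁻¹ * b * c) := fun t => n ((cm_iff c⁻¹).1 (by simpa using t))
  obtain ⟨-, s, hs, es⟩ := f.ov (d := ⟨_, (k a ha p).2⟩) (k a ha p).1 fun t => n' (by
    rw [show c⁻¹ * a * c = z from t]; exact (mem_Cz.1 (k b hb q).2).symm)
  obtain ⟨-, t, ht, et⟩ := f.ov (d := ⟨_, (k b hb q).2⟩) (k b hb q).1 fun t => n' (by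
    rw [show c⁻¹ * b * c = z from t]; exact mem_Cz.1 (k a ha p).2)
  have := h.pow_four ((h.ker ((⟨_, (k a ha p).2⟩ * ⟨_, (k b hb q).2⟩) ^ 6)).1 (by rw [map_pow, map_mul, es, et, six hs ht]))
  rw [coe_pow, ← pow_mul, coe_mul, show c⁻¹ * a * c * (c⁻¹ * b * c) = c⁻¹ * (a * b) * c⁻¹⁻¹ by group, conj_pow,
    conj_eq_one_iff, show 6 * 4 = 3 * 2 ^ 3 by norm_num, pow_mul] at this
  exact Or.inr (odd_one ((f.odd ha hb n).1.of_dvd_nat (orderOf_pow_dvd 3)) this)⟩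
end Fr
end
end H1.Lf
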