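import Cfsg.Agent.H1.G5
import Cfsg.Agent.H1.Fa
import Cfsg.Agent.S0280

/-! Groups of large Fischer type: the centraliser of a four-group is a cover of the unitary group. -/

set_option autoImplicit false
set_option linter.unusedSectionVars false

namespace H1.Lf
noncomputable section
open H13 MulAction Cfsg H27 Subgroup H1.Fi H18
open scoped Pointwise
universe u
variable {G : Type u} [Group G] [Finite G] {z : G} {R : Subgroup G} {π : Cz z →* AL V6} {P : V6 → G → Prop}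

theorem fischer_u {D : Set G} (h : TP D) {d a b : G} (hd : d ∈ D) (ha : a ∈ dd D d) (hb : b ∈ dd D d) (n : a ≠ b)
    (v : Vr (dd D d) a b) (s : ¬ Sy D) : ∃ n, 4 ≤ n ∧ IsU D n := by
  have th := th_of h hd ha hb n v
  obtain ⟨x, hx, c⟩ := h.nc hd
  obtain ⟨κ, g, k⟩ := ex_uc h th hd hx (ncs c) s
  obtain ⟨n, Φ, ι, j, e, f, k⟩ := k.ue h
  exact k.isU h th
theorem IsU.hom {D : Set G} {n : ℕ} (k : IsU D n) (hn : 4 ≤ n) (hi : ∀ x ∈ D, x⁻¹ = x) :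
    ∃ ψ : closure D →* PSU n K4 2, Function.Surjective ψ ∧ ψ.ker = center _ := by
  obtain ⟨τ, t⟩ := k.mat
  obtain ⟨ψ, a, b, -⟩ := t.quot_hom hi
  have e := (Agent.S1631.result K4 card_K4 _ hn).2.2
  let i := (MulEquiv.subgroupCongr e).trans topEquiv
  let j := QuotientGroup.congr (center _) (center _) i (Subgroup.ext fun y => ⟨by
    rintro ⟨w, c, rfl⟩
    exact mem_center_iff.2 fun g => by
      obtain ⟨g, rfl⟩ := i.surjective g
      exact (map_mul i _ _).symm.trans ((congrArg i (mem_center_iff.1 c g)).trans (map_mul i _ _)), fun c =>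
    ⟨i.symm y, mem_center_iff.2 fun g => i.injective (by simp [mem_center_iff.1 c]), by simp⟩⟩)
  exact ⟨j.toMonoidHom.comp ψ, j.surjective.comp a, b ▸ Subgroup.ext fun y => j.map_eq_one_iff⟩
def vph : V6 →+ ZMod 2 × ZMod 2 :=
  AddMonoidHom.mk' (fun w => (pol H13.q6 w (v6 5), pol H13.q6 w (v6 10))) fun _ _ => Prod.ext (qf6.add ..) (qf6.add ..)
theorem mem_vph {w : V6} : w ∈ vph.ker ↔ Vp w := Prod.ext_iff
theorem card_vph : Nat.card vph.ker = 1024 := by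
  have := vph.ker.card_mul_index
  rw [AddSubgroup.index_ker, AddMonoidHom.range_eq_top.2 fun t => by
    obtain ⟨a, e⟩ := (by decide +kernel : ∀ t : ZMod 2 × ZMod 2, ∃ a ∈ [0, 1, 2, 3], (bz (polN a 5), bz (polN a 10)) = t) t
    exact ⟨v6 a, (Prod.ext (pol_v6 ..) (pol_v6 ..)).trans e.2⟩, AddSubgroup.card_top, card_V6] at this
  simp only [Nat.card_prod, Nat.card_zmod] at this
  omega

namespace Fr
variable {h : FT0 z R π P} {x : Cz z} {e : ℕ → G} (f : Fr h x e) {a b d y w g : G}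
include f
theorem wl {Q : G → G → G → Prop} (i : ∀ c ∈ CE e, ∀ y a b, Q y a b → Q (c * y * c⁻¹) (c * a * c⁻¹) (c * b * c⁻¹))
    (k : ∀ a b : Cz z, a.1 ∈ DD z e → b.1 ∈ DD z e → ∀ u ∈ SP, ∀ w ∈ SP, π a = tt u → π b = tt w → Q z a b)
    (hy : y ∈ DD z e) (ha : a ∈ dd (DD z e) y) (hb : b ∈ dd (DD z e) y) : Q y a b := by
  obtain ⟨c, u, rfl⟩ := hy
  have l : ∀ a ∈ dd (DD z e) (c * z * c⁻¹), ∃ a' : Cz z, a'.1 ∈ DD z e ∧ a = c * a' * c⁻¹ ∧ ∃ u ∈ SP, π a' = tt u := fun a m => by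
    have p : c⁻¹ * a * c ∈ DD z e := by simpa using Dcj m.1 (inv_mem u)
    exact ⟨⟨_, conj_mem_Cz.2 (mem_Cz.2 m.2.2.symm)⟩, p, by simp [mul_assoc], (f.ov p fun t => m.2.1 (cj_eq_iff.1 t)).2⟩
  obtain ⟨a, p, rfl, s, hs, es⟩ := l a ha
  obtain ⟨b, q, rfl, t, ht, et⟩ := l b hb
  exact i c u _ _ _ (k a b p q s hs t ht es et)
omit f in
theorem ncm {a b : Cz z} (n : ¬ Commute (π a) (π b)) : ¬ Commute a.1 b.1 := fun c => n (Commute.map (show Commute a b from Subtype.ext c) π)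
theorem w1 (hy : y ∈ DD z e) (ha : a ∈ dd (DD z e) y) (hb : b ∈ dd (DD z e) y) :
    ∃ d ∈ DD z e, Commute y d ∧ ¬ Commute a d ∧ ¬ Commute b d :=
  f.wl (Q := fun y a b => ∃ d ∈ DD z e, Commute y d ∧ ¬ Commute a d ∧ ¬ Commute b d) (fun c u _ _ _ ⟨_, p, q, r, s⟩ =>
    ⟨_, Dcj p u, (cm_iff c).2 q, mt (cm_iff c).1 r, mt (cm_iff c).1 s⟩) (fun a b _ _ u hu w hw ea eb => by
      obtain ⟨t, p, q, r⟩ := ex_nn u hu w hw
      obtain ⟨d, s, -, ed⟩ := f.exo p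
      rw [← ea, ← ed] at q
      rw [← eb, ← ed] at r
      exact ⟨d, s, (mem_Cz.1 d.2).symm, ncm q, ncm r⟩) hy ha hb
theorem w2 (hy : y ∈ DD z e) (ha : a ∈ dd (DD z e) y) (hb : b ∈ dd (DD z e) y) :
    ¬ Commute a b → ∃ d ∈ DD z e, d ≠ a ∧ Commute a d ∧ ¬ Commute b d :=
  f.wl (Q := fun _ a b => ¬ Commute a b → ∃ d ∈ DD z e, d ≠ a ∧ Commute a d ∧ ¬ Commute b d) (fun c u _ _ _ k n =>
    let ⟨_, p, q, r, s⟩ := k (mt (cm_iff c).2 n); ⟨_, Dcj p u, mt cj_inj q, (cm_iff c).2 r, mt (cm_iff c).1 s⟩)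
    (fun a b ma mb u hu w hw ea eb n => by
      have n' := mt (f.pcm ma mb) n
      rw [ea, eb] at n'
      obtain ⟨t, p, q, r, s⟩ := ex_cn u hu w hw n'
      obtain ⟨d, m, -, ed⟩ := f.exo p
      rw [← ea, ← ed] at q r
      rw [← eb, ← ed] at s
      exact ⟨d, m, fun k => q (congrArg π (Subtype.ext k)), f.pcm ma m r, ncm s⟩) hy ha hb
theorem fs : FS (DD z e) := ⟨f.tts, fun _ hx _ hy => Dcj hy (f.DC hx)⟩
theorem cls (ha : a ∈ DD z e) (hb : b ∈ DD z e) : b ∈ orb (closure (DD z e)) a := by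
  have k : ∀ {a b}, a ∈ DD z e → b ∈ DD z e → ¬ Commute a b → ∃ g ∈ closure (DD z e), a = g * b * g⁻¹ := fun ha hb n =>
    let ⟨_, g, p, q⟩ := f.odd ha hb n; ⟨g, closure_mono (Set.pair_subset ha hb) p, q.symm⟩
  by_cases n : Commute a b
  · obtain ⟨c, u, i, p, j, r, -, -, q, s, -⟩ := f.cl3 ha hb hb n n (Commute.refl _)
    obtain ⟨l, o, n1, n2⟩ := (by decide : ∀ i ∈ DA, ∀ j ∈ DA, ∃ l ∈ DA, l ≠ i ∧ l ≠ j) i p j r
    have m : ∀ {a i}, a ∈ DD z e → i ∈ DA → l ≠ i → e i = c * a * c⁻¹ → a ∈ dd (DD z e) (c⁻¹ * e l * c) := fun {a i} p q r s =>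
      ⟨p, fun t => r (f.inj _ (DA_lt l o) _ (DA_lt i q) (by rw [s, t]; group)), (cm_iff c).1 (by simpa [mul_assoc, ← s] using f.cm l i)⟩
    obtain ⟨d, t, -, v, w⟩ := f.w1 (by simpa using Dcj (f.eD o) (inv_mem u)) (m ha p n1 q) (m hb r n2 s)
    obtain ⟨g, g1, g2⟩ := k hb t w
    obtain ⟨g', g3, g4⟩ := k t ha (ncs v)
    exact ⟨g * g', mul_mem g1 g3, by rw [g2, g4]; group⟩
  · exact k hb ha (ncs n)
theorem ene {i j : ℕ} (hi : i < 2048) (hj : j < 2048) (n : i ≠ j) : e i ≠ e j := mt (f.inj i hi j hj) n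
theorem tp : TP (sub (DD z e)) := tp_sub f.fs (fun _ ha _ hb => f.cls ha hb)
  ⟨_, f.eD (show 1 ∈ DA by decide), _, f.eD (show 257 ∈ DA by decide), f.ene (by norm_num) (by norm_num) (by norm_num), f.cm _ _⟩
  (fun a ha b hb v => by_contra fun n => by
    have m : b ∈ dd (DD z e) a := ⟨hb, Ne.symm n, ((v a ha).1 (Commute.refl a)).symm⟩
    obtain ⟨d, p, q, r, -⟩ := f.w1 ha m m
    exact r ((v d p).1 q))
  (fun a ha b hb v => by_contra fun n => by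
    have c : ¬ Commute a b := fun c => (v.le (show b ∈ dd _ a from ⟨hb, Ne.symm n, c⟩)).2.1 rfl
    obtain ⟨y, p, q, r⟩ := f.diam ha hb
    obtain ⟨d, s, t, u, w⟩ := f.w2 p ⟨ha, fun k => c (k ▸ r), q⟩ ⟨hb, fun k => c (k ▸ q.symm), r⟩ c
    exact w (v.le (show d ∈ dd _ a from ⟨s, t, u⟩)).2.2)
  fun a ha b hb => let ⟨_, p, q, r⟩ := f.diam ha hb; .tail (.single ⟨p, q.symm, ha⟩) ⟨hb, r, p⟩
theorem isU : ∃ n, 4 ≤ n ∧ IsU (DD z e) n := by
  let s : ∀ i ∈ DA, closure (DD z e) := fun i m => ⟨e i, Subgroup.subset_closure (f.eD m)⟩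
  have m : ∀ i (m : i ∈ DA), i ≠ 1 → s i m ∈ dd (sub (DD z e)) (s 1 (by decide)) := fun i m n =>
    ⟨f.eD m, fun k => f.ene (DA_lt i m) (by norm_num) n (congrArg Subtype.val k), sub_cm.2 (f.cm _ _)⟩
  obtain ⟨n, a, b⟩ := fischer_u f.tp (d := s 1 (by decide)) (f.eD (by decide)) (m 1025 (by decide) (by norm_num))
    (m 1032 (by decide) (by norm_num)) (fun k => f.ene (by norm_num) (by norm_num) (by norm_num) (congrArg Subtype.val k))
    (fun y hy => by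
      have c : y.1 ∈ Cz z := mem_Cz.2 (f.e1 ▸ (sub_cm.1 hy.2.2).symm)
      have k : ∀ i (m : i ∈ DA), Commute (s i m) y ↔ Commute (bN (i >>> 7)) (π ⟨y, c⟩) := fun i m => by
        rw [sub_cm, ← f.pi]
        exact ⟨fun t => by_contra fun n => ncm n t, f.pcm (a := ⟨e i, _⟩) (b := ⟨y, c⟩) (f.eD m) hy.1⟩
      rw [k 1025 (by decide), k 1032 (by decide)]; rfl) (fun sy => by
      obtain ⟨u, hu, v, hv, w, hw, n1, n2, n3, n4⟩ := ex_af
      obtain ⟨a, ma, -, ea⟩ := f.exo hu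
      obtain ⟨b, mb, -, eb⟩ := f.exo hv
      obtain ⟨d, md, -, ed⟩ := f.exo hw
      rw [← ea, ← eb] at n1
      rw [← ea, ← ed] at n2
      rw [← eb, ← ed] at n3
      rw [← ea, ← eb, ← ed, ← map_inv, ← map_mul, ← map_mul] at n4
      exact ncm n4 (sub_cm.1 (sy ⟨a, Subgroup.subset_closure ma⟩ ma ⟨b, Subgroup.subset_closure mb⟩ mb
        ⟨d, Subgroup.subset_closure md⟩ md (mt sub_cm.1 (ncm n1)) (mt sub_cm.1 (ncm n2)) (mt sub_cm.1 (ncm n3)))))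
  exact ⟨n, a, b.fiso (fsub f.fs.clo)⟩
theorem lst {K : Subgroup G} (l : List ℕ) (m : ∀ i ∈ l, e i ∈ K) : e (l.foldr (· ^^^ ·) 0) ∈ K := by
  induction l with
  | nil => exact f.e0 ▸ K.one_mem
  | cons i l ih => exact (f.xor ..).symm ▸ mul_mem (m i List.mem_cons_self) (ih fun j hj => m j (List.mem_cons_of_mem _ hj))
theorem gen : closure (DD z e) = CE e := by
  let K := closure (DD z e)
  have mK : ∀ d ∈ DD z e, d ∈ K := fun _ m => Subgroup.subset_closure m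
  have nK : ∀ c ∈ CE e, ∀ k ∈ K, c * k * c⁻¹ ∈ K := fun c u _ m =>
    (closure_le (K.comap (MulAut.conj c).toMonoidHom)).2 (fun d hd => mK _ (Dcj hd u)) m
  have k1 : ∀ r ∈ R, r ∈ CE e → r ∈ K := fun r a b => by
    obtain ⟨w, p⟩ := h.ex' r a
    refine h.sub_le_of (mK z zD) le_rfl ⟨w, vp_span (K := h.bar K) ⟨_, f.lst [1, 257, 1025, 1216, 1724, 1919] fun i m => mK _ (f.eD ?_), f.p2⟩
      ⟨_, f.lst [1, 257, 1025, 1248, 1742, 1835] fun i m => mK _ (f.eD ?_), f.p4⟩ (fun u hu => ?_) ((f.vpC p).1 b), p⟩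
    · revert i; decide
    · revert i; decide
    obtain ⟨g, hg, rfl⟩ := sp_S hu
    obtain ⟨k, hk, rfl⟩ := f.liftS hg
    obtain ⟨d, m, -, ed⟩ := f.exo sp80
    obtain ⟨r, q⟩ := h.ex (v6 16)
    have := h.mul (h.act d q) (h.inv' q)
    rw [ed, tt16] at this
    refine ⟨_, nK k hk _ ?_, h.act k this⟩
    rw [mul_assoc, mul_assoc, ← mul_assoc r]
    exact mul_mem (mK _ m) (nK r ((f.vpC q).2 (vp_v6.2 (by decide +kernel))) _ (inv_mem (mK _ m)))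
  have le : K ≤ CE e := (closure_le _).2 fun _ => f.DC
  have k2 : ∀ k : Cz z, k.1 ∈ CE e → k.1 ∈ K := fun k a => by
    obtain ⟨l, b, c⟩ := N0_ind (H := XQ.im π K) (fun u hu => let ⟨d, m, _, ed⟩ := f.exo hu; ⟨d, mK _ m, ed⟩) (N0_eq.ge (f.piS a))
    exact (mul_mem_cancel_left (inv_mem b)).1 (k1 _ ((h.ker (l⁻¹ * k)).1 (by rw [map_mul, map_inv, c, inv_mul_cancel]))
      (mul_mem (inv_mem (le b)) a))
  refine le_antisymm le fun c u => ?_
  obtain ⟨g, a, b⟩ := f.cls zD ⟨c, u, rfl⟩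
  exact (mul_mem_cancel_left (inv_mem a)).1 (k2 ⟨g⁻¹ * c, mem_Cz'.2 (by
    rw [show g⁻¹ * c * z * (g⁻¹ * c)⁻¹ = g⁻¹ * (c * z * c⁻¹) * g by group, b]; group)⟩ (mul_mem (inv_mem (le a)) u))
theorem cen {c : G} (k : ∀ g ∈ CE e, g * c = c * g) : ∃ j ∈ [0, 2, 4, 6], c = e j := by
  obtain ⟨a, ha, rfl⟩ := f.sur c (h.cen_A.le fun g m => k g (f.A_CE m))
  have l : ∀ i, xsum (nth [1, 2, 4, 8, 16, 32, 64, 128, 256, 512, 1024] mM i) a = a := fun i => by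
    obtain ⟨n, u, v⟩ := f.reM i
    exact f.inj _ (v a ha).1 _ ha ((v a ha).2.symm.trans (cj_cm (k n u.1)))
  have := (allN_iff _ _).1 (by decide +kernel : (allN 2048 fun a => [0, 2, 4, 6].elem a || [0, 1, 2].any fun i =>
    !Nat.beq (xsum (nth [1, 2, 4, 8, 16, 32, 64, 128, 256, 512, 1024] mM i) a) a) = true) a ha
  simp only [l, Nat.beq_refl, Bool.not_true, List.any_eq_true, Bool.or_eq_true, Bool.false_eq_true, and_false, exists_false,
    or_false] at this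
  exact ⟨a, List.mem_of_elem_eq_true this, rfl⟩
theorem perf : Group.IsPerfect (CE e) := by
  have k : ∀ d ∈ DD z e, ∀ d' ∈ DD z e, d * d' ∈ ⁅CE e, CE e⁆ := fun d hd d' hd' => by
    obtain ⟨g, a, rfl⟩ := f.cls hd' hd
    simpa [commutatorElement_def, inv_eq_of_mul_eq_one_right (f.Dsq hd')] using commutator_mem_commutator (f.gen.le a) (f.DC hd')
  have z1 : z ∈ ⁅CE e, CE e⁆ := by
    have := mul_mem (k _ (f.eD (show 1025 ∈ DA by decide)) _ (f.eD (show 1032 ∈ DA by decide)))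
      (k _ (f.eD (show 1040 ∈ DA by decide)) _ (f.eD (show 1048 ∈ DA by decide)))
    rwa [← f.xor, ← f.xor, ← f.xor, show 1025 ^^^ 1032 ^^^ (1040 ^^^ 1048) = 1 by decide, f.e1] at this
  exact Subgroup.isPerfect_iff.2 (le_antisymm (commutator_le.2 fun _ a _ b =>
    mul_mem (mul_mem (mul_mem a b) (inv_mem a)) (inv_mem b)) (f.gen.ge.trans ((closure_le _).2 fun d hd =>
    (mul_mem_cancel_right z1).1 (k d hd z zD))))
theorem card_H : Nat.card ↥(CE e ⊓ Cz z) = 25920 * 2048 := by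
  rw [← h.card_im inf_le_right, show XQ.im π (CE e ⊓ Cz z) = SS from le_antisymm (by rintro _ ⟨k, a, rfl⟩; exact f.piS a.1)
    fun s a => let ⟨k, b, c⟩ := f.liftS a; ⟨k, ⟨b, k.2⟩, c⟩, card_SS, show CE e ⊓ Cz z ⊓ R = h.sub vph.ker from le_antisymm
    (fun r a => let ⟨w, p⟩ := h.ex' r a.2; ⟨w, mem_vph.2 ((f.vpC p).1 a.1.1), p⟩)
    fun r ⟨w, a, p⟩ => ⟨⟨(f.vpC p).2 (mem_vph.1 a), h.le (h.mem p)⟩, h.mem p⟩, h.card_sub, card_vph]
theorem two_C {m : ℕ} : 2 ^ m ∣ Nat.card (CE e) ↔ m ≤ 17 := by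
  refine ⟨fun a => ?_, fun a => (pow_dvd_pow 2 a).trans (Dvd.dvd.trans (by rw [f.card_H]; norm_num)
    (card_dvd_of_le (inf_le_left : CE e ⊓ Cz z ≤ _)))⟩
  obtain ⟨T, t⟩ := ((pgA h).comap_subtype (K := CE e)).exists_le_sylow
  have p := T.2.map (CE e).subtype
  obtain ⟨y, hy, k⟩ := f.fix21 p (le_inf (map_subtype_le _) (wcA h p fun a m => ⟨⟨a, f.A_CE m⟩, t m, rfl⟩))
  obtain ⟨c, u, rfl⟩ := hy.1
  have d := card_dvd_of_injective (((MulAut.conj c⁻¹).toMonoidHom.comp ((CE e).subtype.comp T.1.subtype)).codRestrict (CE e ⊓ Cz z)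
    fun q => mem_inf.2 ⟨mul_mem (mul_mem (inv_mem u) q.1.2) (inv_mem (inv_mem u)), by
      simpa using conj_mem_Cz.2 (mem_Cz.2 (k q.1 ⟨q, q.2, rfl⟩))⟩) fun a b e =>
    Subtype.ext (Subtype.ext (cj_inj (congrArg Subtype.val e)))
  rw [f.card_H, T.card_eq_multiplicity] at d
  have := (Nat.Prime.pow_dvd_iff_le_factorization Nat.prime_two Nat.card_pos.ne').1 a
  by_contra n
  exact absurd ((pow_dvd_pow 2 (by omega : 18 ≤ _)).trans d) (by norm_num)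
/-- the four-group -/
def EE : Subgroup G where
  carrier := {y | ∃ j ∈ [0, 2, 4, 6], y = e j}
  one_mem' := ⟨0, by simp, f.e0.symm⟩
  mul_mem' := by
    rintro _ _ ⟨i, a, rfl⟩ ⟨j, b, rfl⟩
    exact ⟨_, (by decide : ∀ i ∈ [0, 2, 4, 6], ∀ j ∈ [0, 2, 4, 6], i ^^^ j ∈ [0, 2, 4, 6]) i a j b, (f.xor i j).symm⟩
  inv_mem' := by rintro _ ⟨i, a, rfl⟩; exact ⟨i, a, inv_eq_of_mul_eq_one_right (h.A_sq (f.mem i))⟩
theorem card_E : Nat.card f.EE = 4 := by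
  change Nat.card ↥{y | ∃ j ∈ [0, 2, 4, 6], y = e j} = 4
  rw [Nat.card_coe_set_eq, show {y | ∃ j ∈ [0, 2, 4, 6], y = e j} = e '' ↑({0, 2, 4, 6} : Finset ℕ) by ext; simp [eq_comm],
    Set.InjOn.ncard_image fun a b c d => f.inj a (by simp at b; omega) c (by simp at d; omega), Set.ncard_coe_finset]
  rfl
theorem E_le : f.EE ≤ CE e := by rintro _ ⟨j, -, rfl⟩; exact f.A_CE (f.mem j)
theorem cenE : center (CE e) = f.EE.subgroupOf (CE e) := Subgroup.ext fun c =>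
  ⟨fun k => f.cen fun g m => congrArg Subtype.val (mem_center_iff.1 k ⟨g, m⟩), fun ⟨_, a, b⟩ =>
    mem_center_iff.2 fun g => Subtype.ext (by change g.1 * c.1 = c * g; rw [show c.1 = _ from b]; exact f.CE_cm g.2 a)⟩
theorem u6 : ∃ ψ : CE e →* PSU 6 K4 2, Function.Surjective ψ ∧ ∀ c, ψ c = 1 ↔ c.1 ∈ f.EE := by
  obtain ⟨n, hn, k⟩ := f.isU
  have := IsU.hom k hn fun _ m => inv_eq_of_mul_eq_one_right (f.Dsq m)
  rw [f.gen, f.cenE] at this
  obtain ⟨ψ, a, b⟩ := this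
  have c := card_ker_mul ψ a
  rw [b, H1.card_subgroupOf_of_le f.E_le, f.card_E] at c
  have d := Agent.S0280.result card_K4 n (by omega)
  have o : Odd (∏ i ∈ Finset.range n, if Even i then 2 ^ (i + 1) + 1 else 2 ^ (i + 1) - 1) :=
    Finset.prod_induction _ Odd (fun _ _ => Odd.mul) _root_.odd_one fun i _ => by
      have : Even (2 ^ (i + 1)) := (Nat.even_pow.2 ⟨even_two, by omega⟩)
      split_ifs
      exacts [this.add_one, Nat.Even.sub_odd Nat.one_le_two_pow this _root_.odd_one]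
  have o3 : Odd (n.gcd (2 + 1) * (2 + 1)) := ((by decide : Odd 3).of_dvd_nat (Nat.gcd_dvd_right _ _)).mul (by decide)
  rw [← mul_assoc] at d
  have l1 : n * (n - 1) / 2 + 2 ≤ 17 := f.two_C.1 (by
    rw [← c, pow_add, mul_comm]
    exact Nat.mul_dvd_mul_left _ (((Nat.coprime_two_left.2 o3).pow_left _).dvd_of_dvd_mul_left (d ▸ dvd_mul_right _ _)))
  have l2 : 15 ≤ n * (n - 1) / 2 := (Nat.pow_dvd_pow_iff_le_right one_lt_two).1 (((Nat.coprime_two_left.2 o).pow_left _).dvd_of_dvd_mul_right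
    (d ▸ Dvd.dvd.mul_left (Nat.dvd_of_mul_dvd_mul_left (by norm_num : 0 < 4) (c ▸ f.two_C.2 le_rfl)) _))
  obtain rfl : n = 6 := by
    have : n ≤ 6 := by_contra fun t => by
      have := Nat.mul_le_mul (not_le.1 t) (show 6 ≤ n - 1 by omega)
      omega
    interval_cases n <;> omega
  exact ⟨ψ, a, fun c => Subgroup.ext_iff.1 b c⟩
end Fr
end
end H1.Lf
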