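import Cfsg.Agent.H1.G6
import Cfsg.Agent.H22.SpSu

/-! Groups of large Fischer type: the four-group centraliser, stated for the frozen statement. -/

set_option autoImplicit false
set_option linter.unusedSectionVars false

namespace H1.Lf
noncomputable section
open H13 MulAction Cfsg H27 Subgroup H1.Fi H18
universe u
variable {G : Type u} [Group G] [Finite G] {z : G} {R : Subgroup G} {π : Cz z →* AL V6} {P : V6 → G → Prop}

namespace Fr
variable {h : FT0 z R π P} {x : Cz z} {e : ℕ → G} (f : Fr h x e)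
include f
theorem eR {a : ℕ} (ha : a < 128) : e a ∈ R := by
  rw [f.mu a ha]; exact mul_mem (pow_mem h.zm _) (h.mem (h.mu_P f.hx _))
theorem cE : centralizer (f.EE : Set G) = CE e := le_antisymm
  (fun c m => ⟨mem_Cz.2 (m _ ⟨2, by simp, rfl⟩).symm, mem_Cz.2 (m _ ⟨4, by simp, rfl⟩).symm⟩)
  fun c m => by rintro _ ⟨j, a, rfl⟩; exact (f.CE_cm m a).symm
theorem qs : IsQuasisimple (CE e) := by
  obtain ⟨ψ, a, b⟩ := f.u6
  have := H22.PSU_isSimpleGroup card_K4 6 (by norm_num) (by norm_num)
  exact ⟨f.perf, ((QuotientGroup.quotientMulEquivOfEq (f.cenE.trans (Subgroup.ext b).symm)).trans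
    (QuotientGroup.quotientKerEquivOfSurjective ψ a)).isSimpleGroup⟩
theorem ord {a : ℕ} (ha : a < 2048) (n : a ≠ 0) : orderOf (e a) = 2 :=
  orderOf_eq_prime (by rw [pow_two]; exact h.A_sq (f.mem a)) (f.e0 ▸ f.ene ha (by norm_num) n)
end Fr
end
end H1.Lf
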