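import Cfsg.Agent.H26.Rv1

open Cfsg H17 H19 H26Rv Subgroup

universe u

namespace H1.Gss

variable {p : ℕ} [Fact p.Prime]

section
variable {U : Type u} [AddCommGroup U] [Module (ZMod p) U] [Finite U]

open Classical in
/-- Gauss sum over a submodule -/
noncomputable def gs (e : AddChar (ZMod p) ℂ) (γ : U →ₗ[ZMod p] U →ₗ[ZMod p] ZMod p)
    (W : Submodule (ZMod p) U) : ℂ :=
  ∑ u ∈ (Set.toFinite (W : Set U)).toFinset, e (γ u u)

theorem gs_eq (e : AddChar (ZMod p) ℂ) (γ : U →ₗ[ZMod p] U →ₗ[ZMod p] ZMod p)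
    (W : Submodule (ZMod p) U) [Fintype W] : gs e γ W = ∑ u : W, e (γ u u) := by
  classical
  unfold gs
  exact Finset.sum_subtype _ (by simp) _

theorem gs_conj (e : AddChar (ZMod p) ℂ) (γ : U →ₗ[ZMod p] U →ₗ[ZMod p] ZMod p)
    (W : Submodule (ZMod p) U) : gs e (-γ) W = (starRingEnd ℂ) (gs e γ W) := by
  unfold gs
  rw [map_sum]
  refine Finset.sum_congr rfl fun u _ => ?_
  simp only [LinearMap.neg_apply]
  exact AddChar.map_neg_eq_conj e _

theorem gs_mul (e : AddChar (ZMod p) ℂ) (he : ∃ a, e a ≠ 1) (γ : U →ₗ[ZMod p] U →ₗ[ZMod p] ZMod p)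
    (W : Submodule (ZMod p) U) (hW : ∀ x ∈ W, (∀ y ∈ W, γ x y + γ y x = 0) → x = 0) :
    gs e γ W * gs e (-γ) W = Nat.card W := by
  classical
  have := Fintype.ofFinite W
  rw [gs_eq, gs_eq, Finset.sum_mul_sum, Finset.sum_comm]
  have h1 : ∀ w : W, ∑ u : W, e (γ u u) * e ((-γ) w w) =
      ∑ d : W, e (γ d d) * e (γ d w + γ w d) := by
    intro w
    rw [← Equiv.sum_comp (Equiv.addLeft w)]
    refine Finset.sum_congr rfl fun d _ => ?_
    rw [← AddChar.map_add_eq_mul, ← AddChar.map_add_eq_mul]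
    congr 1
    simp only [Equiv.coe_addLeft, Submodule.coe_add, map_add, LinearMap.add_apply,
      LinearMap.neg_apply]
    ring
  simp only [h1]
  rw [Finset.sum_comm]
  simp only [← Finset.mul_sum]
  rw [Finset.sum_eq_single (0 : W)]
  · simp
  · intro d _ hd
    let B : W →+ ZMod p :=
      { toFun := fun w => γ d w + γ w d
        map_zero' := by simp
        map_add' := fun a b => by simp only [Submodule.coe_add, map_add, LinearMap.add_apply]; ring }
    have h0 : ∑ w : W, (e.compAddMonoidHom B) w = 0 := by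
      rw [AddChar.sum_eq_zero_iff_ne_zero]
      intro h
      obtain ⟨a, ha⟩ := he
      have : ∃ y ∈ W, γ d y + γ y d ≠ 0 := by
        by_contra hn
        push Not at hn
        exact hd (Subtype.ext (hW d d.2 hn))
      obtain ⟨y, hy, hy'⟩ := this
      have h2 := DFunLike.congr_fun h ((a * (γ d y + γ y d)⁻¹) • (⟨y, hy⟩ : W))
      apply ha
      have h3 : B ((a * (γ d y + γ y d)⁻¹) • (⟨y, hy⟩ : W)) = a := by
        change γ d ((a * (γ d y + γ y d)⁻¹) • y) + γ ((a * (γ d y + γ y d)⁻¹) • y) d = a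
        simp only [map_smul, LinearMap.smul_apply, smul_eq_mul]
        rw [← mul_add, mul_assoc, inv_mul_cancel₀ hy', mul_one]
      rw [AddChar.compAddMonoidHom_apply, h3] at h2
      exact h2
    have h0' : ∑ w : W, e (γ d w + γ w d) = 0 := h0
    rw [h0', mul_zero]
  · simp

theorem gs_norm (e : AddChar (ZMod p) ℂ) (he : ∃ a, e a ≠ 1) (γ : U →ₗ[ZMod p] U →ₗ[ZMod p] ZMod p)
    (W : Submodule (ZMod p) U) (hW : ∀ x ∈ W, (∀ y ∈ W, γ x y + γ y x = 0) → x = 0) :
    ‖gs e γ W‖ ^ 2 = Nat.card W := by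
  have := gs_mul e he γ W hW
  rw [gs_conj, Complex.mul_conj'] at this
  exact_mod_cast this

theorem gs_compl (e : AddChar (ZMod p) ℂ) (γ : U →ₗ[ZMod p] U →ₗ[ZMod p] ZMod p)
    {A B : Submodule (ZMod p) U} (h : IsCompl A B) (h1 : ∀ a ∈ A, ∀ b ∈ B, γ a b = 0)
    (h2 : ∀ a ∈ A, ∀ b ∈ B, γ b a = 0) : gs e γ A * gs e γ B = ∑ᶠ u : U, e (γ u u) := by
  classical
  have := Fintype.ofFinite A
  have := Fintype.ofFinite B
  have := Fintype.ofFinite U
  rw [gs_eq, gs_eq, finsum_eq_sum_of_fintype, ← Equiv.sum_comp (Submodule.prodEquivOfIsCompl A B h).toEquiv,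
    Fintype.sum_prod_type, Finset.sum_mul_sum]
  refine Finset.sum_congr rfl fun a _ => Finset.sum_congr rfl fun b _ => ?_
  rw [← AddChar.map_add_eq_mul]
  congr 1
  simp [h1 a a.2 b b.2, h2 a a.2 b b.2]

theorem e_pow (e : AddChar (ZMod p) ℂ) (a : ZMod p) : e a ^ p = 1 := by
  rw [← AddChar.map_nsmul_eq_pow]; simp

theorem e_int (e : AddChar (ZMod p) ℂ) (a : ZMod p) : IsIntegral ℤ (e a) :=
  IsIntegral.of_pow (Fact.out : p.Prime).pos (by rw [e_pow]; exact isIntegral_one)

variable {H : Type u} [Group H] [Finite H]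

theorem compl (hp : ¬ p ∣ Nat.card H) (ρ : Representation (ZMod p) H U) (h : H) :
    IsCompl (LinearMap.ker (ρ h - LinearMap.id)) (LinearMap.range (ρ h - LinearMap.id)) := by
  rw [Submodule.isCompl_iff_disjoint _ _ (by
    rw [add_comm, LinearMap.finrank_range_add_finrank_ker])]
  rw [Submodule.disjoint_def]
  rintro u hu ⟨x, rfl⟩
  have hu' : ρ h (ρ h x - x) = ρ h x - x := by simpa [sub_eq_zero] using hu
  have key : ∀ k : ℕ, ρ (h ^ k) x = x + k • (ρ h x - x) := by
    intro k
    induction k with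
    | zero => simp
    | succ k ih =>
      rw [pow_succ', map_mul, Module.End.mul_apply, ih, map_add, map_nsmul, hu', succ_nsmul]
      abel
  have h1 := key (Nat.card H)
  rw [pow_card_eq_one', map_one, Module.End.one_apply, left_eq_add, ← Nat.cast_smul_eq_nsmul (ZMod p)] at h1
  have h2 : ((Nat.card H : ℕ) : ZMod p) ≠ 0 := by rwa [Ne, ZMod.natCast_eq_zero_iff]
  simpa using (smul_eq_zero.1 h1).resolve_left h2

theorem fx_eq (ρ : Representation (ZMod p) H U) (h : H) :
    fx ρ ⊤ h = Nat.card (LinearMap.ker (ρ h - LinearMap.id)) := by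
  unfold fx
  exact Nat.card_congr (Equiv.subtypeEquivRight fun u => by
    simp [LinearMap.mem_ker, sub_eq_zero])

theorem th_mem (e : AddChar (ZMod p) ℂ) (ρ : Representation (ZMod p) H U)
    (γ : U →ₗ[ZMod p] U →ₗ[ZMod p] ZMod p) (hγ : Inv ρ γ) :
    (fun h => gs e γ (LinearMap.ker (ρ h - LinearMap.id))) ∈ TT H := by
  classical
  have hc : ∀ a : ZMod p, (fun h : H => (Nat.card {u : U // γ u u = a ∧ ρ h u = u} : ℂ)) ∈ TT H := by
    intro a
    let _ : MulAction H {u : U // γ u u = a} :=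
      { smul := fun h u => ⟨ρ h u, by rw [hγ]; exact u.2⟩
        one_smul := fun u => Subtype.ext (by change ρ 1 u = u; simp)
        mul_smul := fun a b u => Subtype.ext (by change ρ (a * b) u = ρ a (ρ b u); simp) }
    have := char_mem (H17.isCharacter_perm (G := H) {u : U // γ u u = a})
    convert this using 3 with h
    refine Nat.card_congr ⟨fun u => ⟨⟨u.1, u.2.1⟩, Subtype.ext u.2.2⟩,
      fun u => ⟨u.1.1, u.1.2, congrArg Subtype.val u.2⟩, fun _ => rfl, fun _ => rfl⟩
  have := H26Rv.sum_mem Finset.univ (f := fun (a : ZMod p) (h : H) =>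
    e a * (Nat.card {u : U // γ u u = a ∧ ρ h u = u} : ℂ)) fun a _ => smul_mem (e_int e a) (hc a)
  convert this using 2 with h
  have := Fintype.ofFinite U
  unfold gs
  rw [← Finset.sum_fiberwise (g := fun u => γ u u)]
  refine Finset.sum_congr rfl fun a _ => ?_
  rw [Finset.sum_congr rfl (g := fun _ => e a) fun u hu => by rw [(Finset.mem_filter.1 hu).2],
    Finset.sum_const, nsmul_eq_mul, mul_comm, Nat.card_eq_fintype_card, Fintype.card_subtype]
  congr 3
  ext u
  simp [LinearMap.mem_ker, sub_eq_zero, and_comm]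

end

variable {H : Type u} [Group H] [Finite H] {O : ValuationSubring ℂ}

theorem gauss [CharP (kk O) p] (hp : ¬ p ∣ Nat.card H) (hi : InvP p H) : GaussP p H O := by
  intro U _ _ _ ρ γ hγ hnd
  classical
  have : NeZero p := ⟨(Fact.out : p.Prime).ne_zero⟩
  set e : AddChar (ZMod p) ℂ := ZMod.stdAddChar with he0
  have he : ∃ a, e a ≠ 1 := by
    by_contra hn
    push Not at hn
    have := ZMod.isPrimitive_stdAddChar p (a := 1) one_ne_zero
    apply this
    ext a
    simpa using hn a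
  have o1 : ∀ h, ∀ a ∈ LinearMap.ker (ρ h - LinearMap.id), ∀ b ∈ LinearMap.range (ρ h - LinearMap.id),
      γ a b = 0 := by
    rintro h a ha b ⟨x, rfl⟩
    have ha' : ρ h a = a := by simpa [sub_eq_zero] using ha
    have := hγ h a x
    rw [ha'] at this
    simp [this]
  have o2 : ∀ h, ∀ a ∈ LinearMap.ker (ρ h - LinearMap.id), ∀ b ∈ LinearMap.range (ρ h - LinearMap.id),
      γ b a = 0 := by
    rintro h a ha b ⟨x, rfl⟩
    have ha' : ρ h a = a := by simpa [sub_eq_zero] using ha
    have := hγ h x a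
    rw [ha'] at this
    simp [this]
  have dec : ∀ h (y : U), ∃ a ∈ LinearMap.ker (ρ h - LinearMap.id),
      ∃ b ∈ LinearMap.range (ρ h - LinearMap.id), a + b = y := fun h y =>
    Submodule.mem_sup.1 (by rw [(compl hp ρ h).sup_eq_top]; trivial)
  have n1 : ∀ h, ∀ x ∈ LinearMap.ker (ρ h - LinearMap.id),
      (∀ y ∈ LinearMap.ker (ρ h - LinearMap.id), γ x y + γ y x = 0) → x = 0 := by
    intro h x hx hy
    refine hnd x fun y => ?_
    obtain ⟨a, ha, b, hb, rfl⟩ := dec h y
    simpa [o1 h x hx b hb, o2 h x hx b hb] using hy a ha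
  have n2 : ∀ h, ∀ x ∈ LinearMap.range (ρ h - LinearMap.id),
      (∀ y ∈ LinearMap.range (ρ h - LinearMap.id), γ x y + γ y x = 0) → x = 0 := by
    intro h x hx hy
    refine hnd x fun y => ?_
    obtain ⟨a, ha, b, hb, rfl⟩ := dec h y
    simpa [o1 h a ha x hx, o2 h a ha x hx] using hy b hb
  have cd : ∀ h, Nat.card (LinearMap.range (ρ h - LinearMap.id)) * fx ρ ⊤ h = Nat.card U := by
    intro h
    rw [fx_eq, mul_comm, ← Nat.card_prod]
    exact Nat.card_congr (Submodule.prodEquivOfIsCompl _ _ (compl hp ρ h)).toEquiv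
  refine ⟨fun h => gs e γ (LinearMap.range (ρ h - LinearMap.id)), ?_, ?_, ?_, ?_, ?_⟩
  · intro σ h
    have h1 : σ (gs e γ (LinearMap.range (ρ h - LinearMap.id))) =
        gs (σ.toMonoidHom.compAddChar e) γ (LinearMap.range (ρ h - LinearMap.id)) := by
      unfold gs
      rw [map_sum]; rfl
    obtain ⟨a, ha⟩ := he
    rw [h1, gs_norm _ ⟨a, fun h2 => ha (σ.injective (h2.trans (map_one σ).symm))⟩ γ _ (n2 h)]
    exact_mod_cast (cd h).le
  · have : LinearMap.range (ρ 1 - LinearMap.id) = ⊥ := by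
      rw [map_one, LinearMap.range_eq_bot]; exact sub_self _
    simp only [this]
    rw [gs_eq, Fintype.sum_unique, show ((default : (⊥ : Submodule (ZMod p) U)) : U) = 0 from
      (Submodule.mem_bot _).1 (Subtype.prop _)]
    simp
  · intro h
    unfold gs
    exact IsIntegral.sum _ fun u _ => e_int e _
  · intro h hh
    have := Fintype.ofFinite (LinearMap.range (ρ h - LinearMap.id))
    have h1 : gs e γ (LinearMap.range (ρ h - LinearMap.id)) =
        ∑ u : LinearMap.range (ρ h - LinearMap.id), (e (γ u u) - 1) +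
          (Nat.card (LinearMap.range (ρ h - LinearMap.id)) : ℂ) := by
      rw [gs_eq, Finset.sum_sub_distrib, Nat.card_eq_fintype_card]; simp
    rw [h1]
    refine O.nonunits.add_mem (O.nonunits.sum_mem fun u _ =>
      sub_one_mem_nonunits_of_pow_prime_pow p (n := 1) (by rw [pow_one, e_pow])) ?_
    rw [natCast_mem_nonunits_iff p]
    have h2 := Module.natCard_eq_pow_finrank (K := ZMod p) (V := LinearMap.range (ρ h - LinearMap.id))
    rw [Nat.card_zmod] at h2
    rw [h2]
    refine dvd_pow_self p fun h0 => hh ?_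
    rw [← cd h, h2, h0, pow_zero, one_mul]
  · obtain ⟨N, hN⟩ := hi U ρ
    refine ⟨N, ?_⟩
    have hg : IsIntegral ℤ (∑ᶠ u : U, e (γ u u)) := by
      have := Fintype.ofFinite U
      rw [finsum_eq_sum_of_fintype]
      exact IsIntegral.sum _ fun u _ => e_int e _
    have := smul_mem hg (H26Rv.mul_mem (th_mem e ρ (-γ) fun h x y => by simp [hγ h x y]) hN)
    convert this using 2 with h
    have h0 : (fx ρ ⊤ h : ℂ) ≠ 0 := by
      rw [fx_eq]; exact_mod_cast Nat.card_pos.ne'
    rw [← gs_compl e γ (compl hp ρ h) (o1 h) (o2 h)]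
    have h3 := gs_mul e he γ _ (n1 h)
    rw [← fx_eq] at h3
    field_simp
    rw [← h3]; ring

end H1.Gss
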