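import Cfsg.Agent.H22.Omega2
import Cfsg.Agent.H27.Acts
import Cfsg.Prelude.Def_Classical
/-! Vanishing of the first cohomology of small orthogonal groups over the field with two elements. -/
set_option autoImplicit false
set_option maxRecDepth 100000
set_option synthInstance.maxSize 4000
set_option synthInstance.maxHeartbeats 200000
set_option linter.unusedSectionVars false
namespace H1.HCo
open H22 H23 H23.Form H27 Cfsg Module Matrix
noncomputable section
def rf (M u x : ℕ) : ℕ := ite' (Nat.beq (Nat.land (Nat.shiftRight M (Nat.xor u x)) 1) (Nat.land (Nat.shiftRight M x) 1)) (Nat.xor x u) x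
def app (M : ℕ) (w : List (ℕ × ℕ)) (x : ℕ) : ℕ := List.rec x (fun p _ ih => force ih fun y => force (rf M p.2 y) (rf M p.1)) w
def anyL {α : Type} (l : List α) (p : α → Bool) : Bool := List.rec false (fun a _ ih => or' (p a) ih) l
theorem anyL_iff {α : Type} (l : List α) (p : α → Bool) : anyL l p = true ↔ ∃ a ∈ l, p a = true := by
  induction l with
  | nil => simp [anyL]
  | cons a l ih => rw [show anyL (a :: l) p = or' (p a) (anyL l p) from rfl, or'_eq, Bool.or_eq_true, ih]; simp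
def not' (a : Bool) : Bool := Bool.rec true false a
theorem not'_eq (a : Bool) : not' a = !a := by cases a <;> rfl
def okU (M n u : ℕ) : Bool := and' (Nat.blt u (2 ^ n)) (tb M u)
def okW (M n : ℕ) (w : List (ℕ × ℕ)) : Bool := allL w fun p => and' (okU M n p.1) (okU M n p.2)
def act (M : ℕ) (kn : List (List (ℕ × ℕ))) (g : List (ℕ × ℕ)) (r : List ℕ) (x : ℕ) : ℕ :=
  List.rec x (fun i _ ih => force ih (app M (nth g kn i))) r
def val (M : ℕ) (kn : List (List (ℕ × ℕ))) (g : List (ℕ × ℕ)) (r : List ℕ) (x : ℕ) : ℕ :=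
  List.rec 0 (fun i _ ih => force ih fun y => Nat.xor (ite' (Nat.blt i kn.length) 0 x) (app M (nth g kn i) y)) r
def stepOK (M n : ℕ) (kn : List (List (ℕ × ℕ))) (g : List (ℕ × ℕ)) (R : List (List ℕ)) : Bool :=
  and' (okW M n g) (and' (allL R fun r => allN (2 ^ n) fun y => Nat.beq (act M kn g r y) y)
    (allN (2 ^ n) fun x => or' (Nat.beq x 0) (anyL R fun r => Nat.ble 1 (val M kn g r x))))
def run (M n a : ℕ) (S : List (ℕ × List (List ℕ))) : List (List (ℕ × ℕ)) → Bool :=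
  List.rec (fun _ => true) (fun s _ ih kn => and' (stepOK M n kn [(a, s.1)] s.2) (ih (kn ++ [[(a, s.1)]]))) S
def chk (M n a : ℕ) (c : List (ℕ × ℕ)) (S : List (ℕ × List (List ℕ))) : Bool :=
  and' (and' (okW M n c) (allN (2 ^ n) fun x => or' (Nat.beq x 0) (not' (Nat.beq (app M c x) x))))
    (and' (run M n a S [c]) (allN (2 ^ n) fun u => or' (not' (tb M u)) (anyL S fun s => Nat.beq s.1 u)))
variable {V : Type} [AddCommGroup V] [Module (ZMod 2) V] [Finite V] [FiniteDimensional (ZMod 2) V] {Φ : Form (RingHom.id (ZMod 2)) V}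
  {e : ℕ → V} {n M : ℕ}
structure Enc (Φ : Form (RingHom.id (ZMod 2)) V) (e : ℕ → V) (n M : ℕ) : Prop where
  nd : Φ.Nondeg
  k : Φ.κ = 1
  add : ∀ a b, e (a ^^^ b) = e a + e b
  surj : ∀ v, ∃ a < 2 ^ n, e a = v
  inj : ∀ a < 2 ^ n, e a = 0 → a = 0
  q : ∀ a < 2 ^ n, Φ.Q (e a) = (Nat.land (Nat.shiftRight M a) 1 : ℕ)
namespace Enc
variable (E : Enc Φ e n M)
include E
def W (w : List (ℕ × ℕ)) : Φ.O := (w.map fun p => refl E.k (e p.1) * refl E.k (e p.2)).prod
theorem e0 : e 0 = 0 := by simpa using E.add 0 0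
theorem inj' {a b : ℕ} (ha : a < 2 ^ n) (hb : b < 2 ^ n) (h : e a = e b) : a = b :=
  Nat.eq_of_xor_eq_zero (E.inj _ (Nat.xor_lt_two_pow ha hb) (by rw [E.add, h, ← two_smul (ZMod 2), show (2 : ZMod 2) = 0 from rfl, zero_smul]))
theorem q1 {u : ℕ} (h : okU M n u = true) : u < 2 ^ n ∧ Φ.Q (e u) = 1 := by
  simp only [okU, and'_eq, Bool.and_eq_true, Nat.blt_eq, tb, beq_iff] at h
  exact ⟨h.1, by rw [E.q u h.1, h.2]; rfl⟩
theorem rf_ok {u x : ℕ} (h : okU M n u = true) (hx : x < 2 ^ n) : rf M u x < 2 ^ n ∧ (refl E.k (e u)).1 (e x) = e (rf M u x) := by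
  obtain ⟨hu, q⟩ := E.q1 h
  have a := Q_add_quad E.k (e u) (e x)
  rw [← E.add, q, E.q _ (Nat.xor_lt_two_pow hu hx), E.q _ hx] at a
  have b : ∀ t, Nat.land t 1 = 0 ∨ Nat.land t 1 = 1 := fun t => by
    have : Nat.land t 1 ≤ 1 := Nat.and_le_right
    omega
  have z : ∀ s : ZMod 2, ∀ i < 2, ∀ j < 2, ((i : ℕ) : ZMod 2) = 1 + (j : ℕ) + s → s = if i = j then 1 else 0 := by decide
  have c := z _ _ (by rcases b _ with h | h <;> rw [h] <;> norm_num) _ (by rcases b _ with h | h <;> rw [h] <;> norm_num) a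
  rw [refl_apply, q, inv_one, one_mul, c, rf, ite'_eq]
  simp only [beq_iff]
  change (if Nat.land (Nat.shiftRight M (u ^^^ x)) 1 = _ then x ^^^ u else x) < _ ∧ _ = e (if Nat.land (Nat.shiftRight M (u ^^^ x)) 1 = _ then x ^^^ u else x)
  split_ifs
  · exact ⟨Nat.xor_lt_two_pow hx hu, by rw [one_smul, E.add, sub_eq_add_neg, ← neg_one_smul (ZMod 2), show (-1 : ZMod 2) = 1 from rfl, one_smul]⟩
  · exact ⟨hx, by rw [zero_smul, sub_zero]⟩
theorem W_ok {w : List (ℕ × ℕ)} (h : okW M n w = true) :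
    E.W w ∈ commutator Φ.O ∧ ∀ x < 2 ^ n, app M w x < 2 ^ n ∧ (E.W w).1 (e x) = e (app M w x) := by
  rw [okW, allL_iff] at h
  induction w with
  | nil => exact ⟨one_mem _, fun x hx => ⟨hx, rfl⟩⟩
  | cons p w ih =>
    obtain ⟨a, b⟩ := ih fun q hq => h q (List.mem_cons_of_mem _ hq)
    have := h p List.mem_cons_self
    rw [and'_eq, Bool.and_eq_true] at this
    refine ⟨mul_mem (refl_mul_refl_mem_commutator E.nd E.k (t := 1) (by rw [(E.q1 this.1).2]; exact one_ne_zero)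
      (by rw [(E.q1 this.1).2, (E.q1 this.2).2]; rfl)) a, fun x hx => ?_⟩
    rw [show app M (p :: w) x = force (app M w x) fun y => force (rf M p.2 y) (rf M p.1) from rfl, force_eq, force_eq]
    have c := E.rf_ok this.2 (b x hx).1
    exact ⟨(E.rf_ok this.1 c.1).1, by rw [← (E.rf_ok this.1 c.1).2, ← c.2, ← (b x hx).2]; rfl⟩
variable {F : Φ.O → V} (hF : ∀ g ∈ commutator Φ.O, ∀ h ∈ commutator Φ.O, F (g * h) = F g + g.1 (F h))
include hF
theorem F1 : F 1 = 0 := by simpa using hF 1 (one_mem _) 1 (one_mem _)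
theorem step {kn : List (List (ℕ × ℕ))} {g : List (ℕ × ℕ)} {R : List (List ℕ)} (hk : ∀ k ∈ kn, okW M n k = true ∧ F (E.W k) = 0)
    (h : stepOK M n kn g R = true) : okW M n g = true ∧ F (E.W g) = 0 := by
  simp only [stepOK, and'_eq, Bool.and_eq_true, allL_iff, allN_iff, or'_eq, Bool.or_eq_true, beq_iff, anyL_iff, Nat.ble_eq] at h
  obtain ⟨x, hx, ex⟩ := E.surj (F (E.W g))
  refine ⟨h.1, (h.2.2 x hx).elim (fun c => by rw [← ex, c, E.e0]) fun ⟨r, hr, c⟩ => ?_⟩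
  have t : ∀ i, okW M n (nth g kn i) = true ∧ F (E.W (nth g kn i)) = e (ite' (Nat.blt i kn.length) 0 x) := fun i => by
    rw [nth_eq, ite'_eq]
    split_ifs with hi
    · rw [Nat.blt_eq] at hi
      rw [List.getD_eq_getElem _ _ hi, E.e0]; exact hk _ (List.getElem_mem hi)
    · rw [Nat.blt_eq, not_lt] at hi
      rw [List.getD_eq_default _ _ hi]; exact ⟨h.1, ex.symm⟩
  have : ∀ r : List ℕ, ∃ P ∈ commutator Φ.O, (val M kn g r x < 2 ^ n ∧ F P = e (val M kn g r x)) ∧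
      ∀ y < 2 ^ n, act M kn g r y < 2 ^ n ∧ P.1 (e y) = e (act M kn g r y) := fun r => by
    induction r with
    | nil => exact ⟨1, one_mem _, ⟨Nat.two_pow_pos n, (E.F1 hF).trans E.e0.symm⟩, fun y hy => ⟨hy, rfl⟩⟩
    | cons i r ih =>
      obtain ⟨P, hP, ⟨a1, a2⟩, b⟩ := ih
      obtain ⟨c1, c2⟩ := E.W_ok (t i).1
      refine ⟨_, mul_mem c1 hP, ?_, fun y hy => ?_⟩
      · rw [show val M kn g (i :: r) x = force (val M kn g r x) fun y => ite' (Nat.blt i kn.length) 0 x ^^^ app M (nth g kn i) y from rfl,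
          force_eq, hF _ c1 _ hP, (t i).2, a2, (c2 _ a1).2, E.add]
        exact ⟨Nat.xor_lt_two_pow (by cases Nat.blt i kn.length; exacts [hx, Nat.two_pow_pos n]) (c2 _ a1).1, rfl⟩
      · rw [show act M kn g (i :: r) y = force (act M kn g r y) (app M (nth g kn i)) from rfl, force_eq, O_mul_apply, (b y hy).2]
        exact c2 _ (b y hy).1
  obtain ⟨P, -, ⟨a1, a2⟩, b⟩ := this r
  obtain rfl : P = 1 := O_ext _ fun v => by
    obtain ⟨y, hy, rfl⟩ := E.surj v
    rw [(b y hy).2, h.2.1 r hr y hy]; rfl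
  exact absurd (E.inj _ a1 (a2.symm.trans (E.F1 hF))) (by omega)
theorem run_ok {a : ℕ} {S : List (ℕ × List (List ℕ))} {kn : List (List (ℕ × ℕ))} (hk : ∀ k ∈ kn, okW M n k = true ∧ F (E.W k) = 0)
    (h : run M n a S kn = true) : ∀ s ∈ S, okW M n [(a, s.1)] = true ∧ F (E.W [(a, s.1)]) = 0 := by
  induction S generalizing kn with
  | nil => simp
  | cons s S ih =>
    rw [show run M n a (s :: S) kn = and' (stepOK M n kn [(a, s.1)] s.2) (run M n a S (kn ++ [[(a, s.1)]])) from rfl, and'_eq,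
      Bool.and_eq_true] at h
    have := E.step hF hk h.1
    exact List.forall_mem_cons.2 ⟨this, ih (List.forall_mem_append.2 ⟨hk, List.forall_mem_singleton.2 this⟩) h.2⟩
theorem main [Nontrivial V] (hg : GenHyp Φ) {a : ℕ} {c : List (ℕ × ℕ)} {S : List (ℕ × List (List ℕ))} (h : chk M n a c S = true) :
    ∃ v, ∀ g ∈ commutator Φ.O, F g = g.1 v - v := by
  simp only [chk, and'_eq, Bool.and_eq_true, allN_iff, or'_eq, Bool.or_eq_true, beq_iff, anyL_iff, not'_eq, Bool.not_eq_true',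
    ← Bool.not_eq_true] at h
  obtain ⟨⟨h1, h2⟩, h3, h4⟩ := h
  obtain ⟨c1, c2⟩ := E.W_ok h1
  obtain ⟨v, hv⟩ := Finite.surjective_of_injective (f := fun v => (E.W c).1 v - v) (fun x y hxy => by
    obtain ⟨t, ht, et⟩ := E.surj (x - y)
    have : (E.W c).1 (e t) = e t := by
      rw [et, map_sub, sub_eq_sub_iff_sub_eq_sub]; exact hxy
    rw [← sub_eq_zero, ← et, (h2 t ht).resolve_right (not_not.2 (E.inj' (c2 t ht).1 ht ((c2 t ht).2.symm.trans this))), E.e0])
    (F (E.W c))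
  have hF' : ∀ g ∈ commutator Φ.O, ∀ h ∈ commutator Φ.O, (fun g => F g - (g.1 v - v)) (g * h) =
      (fun g => F g - (g.1 v - v)) g + g.1 ((fun g : Φ.O => F g - (g.1 v - v)) h) := fun g hg h hh => by
    simp only [hF g hg h hh, map_sub, O_mul_apply]; abel
  have r := E.run_ok (F := fun g => F g - (g.1 v - v)) hF' (kn := [c]) (List.forall_mem_singleton.2 ⟨h1, (sub_eq_zero.2 hv.symm : F (E.W c) - ((E.W c).1 v - v) = 0)⟩) h3
  generalize hG : (fun g : Φ.O => F g - (g.1 v - v)) = G at hF' r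
  let K : Subgroup Φ.O :=
    { carrier := {g | g ∈ commutator Φ.O ∧ G g = 0}
      one_mem' := ⟨one_mem _, E.F1 hF'⟩
      mul_mem' := fun {x y} hx hy => ⟨mul_mem hx.1 hy.1, by rw [hF' x hx.1 y hy.1, hx.2, hy.2, map_zero, add_zero]⟩
      inv_mem' := fun {x} hx => ⟨inv_mem hx.1, by
        have := hF' _ (inv_mem hx.1) x hx.1
        rw [inv_mul_cancel, E.F1 hF', hx.2, map_zero, add_zero] at this
        exact this.symm⟩ }
  have t : ∀ u, Φ.Q u ≠ 0 → refl E.k (e a) * refl E.k u ∈ K := fun u hu => by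
    obtain ⟨b, hb, rfl⟩ := E.surj u
    obtain ⟨s, hs, rfl⟩ := (h4 b hb).resolve_left (not_not.2 (by
      rw [E.q b hb] at hu
      have : Nat.land (Nat.shiftRight M b) 1 ≤ 1 := Nat.and_le_right
      rw [tb, beq_iff]
      by_contra c
      exact hu (by rw [show Nat.land (Nat.shiftRight M b) 1 = 0 by omega]; rfl)))
    have : E.W [(a, s.1)] ∈ K := ⟨(E.W_ok (r s hs).1).1, (congrFun hG _).symm.trans (r s hs).2⟩
    simpa [W] using this
  have p : ∀ g, g ∈ K ∨ refl E.k (e a) * g ∈ K := refl_induction E.nd E.k hg (.inl (one_mem _)) fun u g hu ih =>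
    ih.symm.imp (fun c => by simpa [refl_inv, mul_assoc, ← mul_assoc (refl E.k (e a)), refl_mul_self] using mul_mem (inv_mem (t u hu)) c)
      fun c => by simpa [mul_assoc] using mul_mem (t u hu) c
  refine ⟨v, fun g hg' => sub_eq_zero.1 ((congrFun hG g).trans ((p g).resolve_right fun c => ?_).2)⟩
  have ra := (mul_mem_cancel_right hg').1 c.1
  have := index_commutator_of_sq E.nd E.k hg (by decide)
  rw [show commutator Φ.O = ⊤ from eq_top_iff.2 fun x _ => (p x).elim (·.1) fun c => (mul_mem_cancel_left ra).1 c.1,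
    Subgroup.index_top] at this
  omega
end Enc
def en {ι : Type} (ix : ι → ℕ) (a : ℕ) : ι → ZMod 2 := fun i => if a.testBit (ix i) then 1 else 0
theorem fin {ι : Type} [Fintype ι] [DecidableEq ι] [Nonempty ι] (Q : QuadraticForm (ZMod 2) (ι → ZMod 2)) (nd : (ofQuad Q).Nondeg)
    (ix : ι → ℕ) (cd : (ι → ZMod 2) → ℕ) {n M a : ℕ} {c : List (ℕ × ℕ)} {S : List (ℕ × List (List ℕ))}
    (h1 : ∀ v, cd v < 2 ^ n ∧ en ix (cd v) = v) (h2 : ∀ a < 2 ^ n, (en ix a = 0 → a = 0) ∧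
      Q (en ix a) = (Nat.land (Nat.shiftRight M a) 1 : ℕ)) (hg : GenHyp (ofQuad Q)) (h : chk M n a c S = true)
    (f : Omega (ZMod 2) Q → ι → ZMod 2) (hf : ∀ g h, f (g * h) = f g + g.1.1.1 *ᵥ f h) : ∃ v, ∀ g, f g = g.1.1.1 *ᵥ v - v := by
  classical
  have E : Enc (ofQuad Q) (en ix) n M := ⟨nd, rfl, fun a b => funext fun i => by
    simp only [en, Nat.testBit_xor, Pi.add_apply]
    cases a.testBit (ix i) <;> cases b.testBit (ix i) <;> rfl, fun v => ⟨_, h1 v⟩, fun a ha => (h2 a ha).1, fun a ha => (h2 a ha).2⟩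
  have m : ∀ {g}, g ∈ commutator (ofQuad Q).O → (isomEquiv Q).symm g ∈ Omega (ZMod 2) Q := fun hg =>
    (mem_commutator_equiv (isomEquiv Q).symm).2 hg
  obtain ⟨v, hv⟩ := E.main (F := fun g => if h : g ∈ commutator (ofQuad Q).O then f ⟨_, m h⟩ else 0) (fun g hg k hk => by
    rw [dif_pos hg, dif_pos hk, dif_pos (mul_mem hg hk), ← isomEquiv_symm_mulVec, ← hf]
    exact congrArg f (Subtype.ext (map_mul _ _ _))) hg h
  refine ⟨v, fun g => ?_⟩
  have := (mem_commutator_equiv (isomEquiv Q)).2 g.2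
  have := hv _ this
  simp only [dif_pos ‹_ ∈ commutator _›, MulEquiv.symm_apply_apply] at this
  exact this
def ix4 : (Fin 1 ⊕ Fin 1) ⊕ Fin 2 → ℕ := Sum.elim (Sum.elim (fun i => i.1) fun i => 1 + i.1) fun i => 2 + i.1
def ix6 : (Fin 2 ⊕ Fin 2) ⊕ Fin 2 → ℕ := Sum.elim (Sum.elim (fun i => i.1) fun i => 2 + i.1) fun i => 4 + i.1
def ix8 : Fin 4 ⊕ Fin 4 → ℕ := Sum.elim (fun i => i.1) fun i => 4 + i.1
def cd {ι : Type} [Fintype ι] (ix : ι → ℕ) (v : ι → ZMod 2) : ℕ := ∑ i, (v i).val * 2 ^ ix i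
theorem an : ∀ z₁ z₂ : ZMod 2, z₁ ^ 2 + 1 * z₁ * z₂ + 1 * z₂ ^ 2 = 0 → z₁ = 0 ∧ z₂ = 0 := by decide
theorem g4 : GenHyp (ofQuad (qMinus 1 (ZMod 2) 1 1)) := fun u e hu he hb u0 eu => by
  have hκ : (ofQuad (qMinus 1 (ZMod 2) 1 1)).κ = 1 := rfl
  have a := Q_add_quad hκ u e
  rw [hu, he, hb] at a
  have := (by decide +kernel : ∀ u e : (Fin 1 ⊕ Fin 1) ⊕ Fin 2 → ZMod 2, quadFormMinus 1 (ZMod 2) 1 1 u = 0 →
    quadFormMinus 1 (ZMod 2) 1 1 e = 0 → quadFormMinus 1 (ZMod 2) 1 1 (u + e) = 0 + 0 + 0 → u ≠ 0 → e = 0 ∨ e = u) u e hu he a u0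
  refine absurd ?_ eu
  rcases this with rfl | rfl
  exacts [zero_mem _, Submodule.mem_span_singleton_self _]
end
end H1.HCo
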