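import Cfsg.Agent.H28.Mt5

/-! Flags consisting of an involution and one half of its neighbours: the components have diameter two. -/

set_option autoImplicit false
set_option linter.unusedSectionVars false

namespace H1.Lf
open Cfsg H27 H28 Subgroup
variable {G N : Type*} [Group G] [Group N]

/-- conjugation of flags -/
def cf (g : G) (p : G × Set G) : G × Set G := (g * p.1 * g⁻¹, {y | g⁻¹ * y * g ∈ p.2})
theorem cf_mul (g k : G) (p : G × Set G) : cf (g * k) p = cf g (cf k p) := Prod.ext (by simp [cf, mul_assoc]) (by simp [cf, mul_assoc])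
theorem cf_one (p : G × Set G) : cf 1 p = p := Prod.ext (by simp [cf]) (by simp [cf])
theorem cf_inv (g : G) (p : G × Set G) : cf g⁻¹ (cf g p) = p := by rw [← cf_mul, inv_mul_cancel, cf_one]
theorem cf_mem {g y : G} {p : G × Set G} : g * y * g⁻¹ ∈ (cf g p).2 ↔ y ∈ p.2 := by simp [cf, mul_assoc]
theorem cf_of {g : G} {p : G × Set G} (a : Commute g p.1) (b : ∀ y, g * y * g⁻¹ ∈ p.2 ↔ y ∈ p.2) : cf g p = p :=
  Prod.ext (conj_eq_iff_commute.2 a) (Set.ext fun y => (b _).symm.trans (by simp [mul_assoc]))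
/-- equal or adjacent -/
def Ad (p q : G × Set G) : Prop := p = q ∨ (q.1 ∈ p.2 ∧ p.1 ∈ q.2)
theorem Ad.symm {p q : G × Set G} (h : Ad p q) : Ad q p := h.imp Eq.symm And.symm
theorem Ad.cf {p q : G × Set G} (h : Ad p q) (g : G) : Ad (cf g p) (cf g q) :=
  h.imp (congrArg _) fun a => ⟨cf_mem.2 a.1, cf_mem.2 a.2⟩
/-- a system of flags -/
structure Fl (Φ : Set (G × Set G)) (U : Set N) : Prop where
  cm : ∀ p ∈ Φ, ∀ y ∈ p.2, y ≠ p.1 ∧ Commute p.1 y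
  fi : ∀ p ∈ Φ, ∃ π, FIso p.2 U π
  ex : ∀ p ∈ Φ, ∀ y ∈ p.2, ∃ H, (y, H) ∈ Φ ∧ p.1 ∈ H
  nb : ∀ p ∈ Φ, ∀ q ∈ Φ, q.1 ∈ p.2 → p.1 ∈ q.2 → Nb q.2 [p.1] ⊆ p.2
  un : ∀ p ∈ Φ, ∀ q ∈ Φ, p.1 = q.1 → ∀ x ∈ p.2, x ∈ q.2 → p = q
/-- at distance at most two -/
def Rc (Φ : Set (G × Set G)) (p q : G × Set G) : Prop := ∃ w ∈ Φ, Ad p w ∧ Ad w q
namespace Fl
variable {Φ : Set (G × Set G)} {U : Set N} {k : ℕ} (h : Fl Φ U) {p q w a b c e : G × Set G}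
include h
theorem com (hp : p ∈ Φ) (s : Ad p q) : Commute p.1 q.1 := s.elim (fun e => e ▸ Commute.refl _) fun s => (h.cm p hp _ s.1).2
theorem nbe (hp : p ∈ Φ) (hq : q ∈ Φ) (s : q.1 ∈ p.2) (t : p.1 ∈ q.2) : Nb p.2 [q.1] = Nb q.2 [p.1] :=
  Set.Subset.antisymm (fun y hy => mem_nb1.2 ⟨h.nb q hq p hp t s hy, h.cm p hp y hy.1⟩)
    fun y hy => mem_nb1.2 ⟨h.nb p hp q hq s t hy, h.cm q hq y hy.1⟩
theorem adj (hp : p ∈ Φ) (hq : q ∈ Φ) (hw : w ∈ Φ) (s : Ad w p) (t : Ad w q) (c : Commute p.1 q.1) : Ad p q := by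
  rcases s with rfl | s
  · exact t
  rcases t with rfl | t
  · exact Or.inr s.symm
  by_cases n : p.1 = q.1
  · exact Or.inl (h.un p hp q hq n _ s.2 t.2)
  · exact Or.inr ⟨h.nb p hp w hw s.2 s.1 (mem_nb1.2 ⟨t.1, Ne.symm n, c⟩), h.nb q hq w hw t.2 t.1 (mem_nb1.2 ⟨s.1, n, c.symm⟩)⟩
theorem diam (u : Ru U k) (ha : a ∈ Φ) (hc : c ∈ Φ) (he : e ∈ Φ) (hb : b ∈ Φ) (ac : Ad a c) (ce : Ad c e) (eb : Ad e b) :
    Rc Φ a b := by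
  by_cases ae : Commute e.1 a.1
  · exact ⟨e, he, h.adj ha he hc ac.symm ce ae.symm, eb⟩
  by_cases cb : Commute c.1 b.1
  · exact ⟨c, hc, ac, h.adj hc hb he ce.symm eb cb⟩
  have s1 := ac.resolve_left fun q => ae (q ▸ (h.com hc ce).symm)
  have s2 := ce.resolve_left fun q => cb (q ▸ h.com he eb)
  have s3 := eb.resolve_left fun q => cb (q ▸ h.com hc ce)
  obtain ⟨π, r⟩ := h.fi c hc
  obtain ⟨ρ, s⟩ := h.fi e he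
  have g := good_trace r.clo (r.locA u.loc) s2.1 s1.2 ae
  obtain ⟨w, hw, c1, c2⟩ := r.cn u.pg.cn _ s2.1 _ s1.2 ae
  have ne : {y | y ∈ Nb c.2 [e.1] ∧ Commute a.1 y}.Nonempty := ⟨w, mem_nb1.2 ⟨hw, fun q => ae (q ▸ c2), c1.symm⟩, c2.symm⟩
  have v := h.nbe hc he s2.1 s2.2
  rw [v] at g ne
  obtain ⟨y, hy, c3⟩ := s.dia u.dia _ s2.2 _ s3.1 cb _ g ne
  obtain ⟨H, m, t⟩ := h.ex c hc y (v.ge hy.1).1
  have cy : Ad c (y, H) := Or.inr ⟨(v.ge hy.1).1, t⟩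
  exact ⟨_, m, h.adj ha m hc ac.symm cy hy.2, h.adj m hb he (h.adj he m hc ce cy (h.cm e he y hy.1.1).2) eb c3.symm⟩
theorem trans (u : Ru U k) (ha : a ∈ Φ) (hb : b ∈ Φ) (hc : c ∈ Φ) (s : Rc Φ a b) (t : Rc Φ b c) : Rc Φ a c := by
  obtain ⟨v, hv, s1, s2⟩ := s
  obtain ⟨w, hw, t1, t2⟩ := t
  obtain ⟨y, hy, r1, r2⟩ := h.diam u ha hv hb hw s1 s2 t1
  exact h.diam u ha hy hw hc r1 r2 t2
end Fl

/-- the data at a base flag -/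
structure Fb (X : Subgroup G) (p : G × Set G) (U : Set N) : Prop where
  cm : ∀ y ∈ p.2, y ≠ p.1 ∧ Commute p.1 y
  fi : ∃ π, FIso p.2 U π
  sw : ∀ y ∈ p.2, ∃ n ∈ X, n * p.1 * n⁻¹ = y ∧ n * y * n⁻¹ = p.1 ∧ ∀ w ∈ Nb p.2 [y], n * w * n⁻¹ ∈ p.2
  un : ∀ g ∈ X, Commute g p.1 → ∀ y ∈ p.2, g * y * g⁻¹ ∈ p.2 → cf g p = p
theorem sw_of {X : Subgroup G} {p : G × Set G} {y n : G} (hn : n ∈ X) (a : n * p.1 * n⁻¹ = y) (b : n * y * n⁻¹ = p.1)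
    (c : ∀ w ∈ Nb p.2 [y], n * w * n⁻¹ ∈ p.2) (t : ∀ x ∈ p.2, ∃ c ∈ X, cf c p = p ∧ c * y * c⁻¹ = x) :
    ∀ y ∈ p.2, ∃ n ∈ X, n * p.1 * n⁻¹ = y ∧ n * y * n⁻¹ = p.1 ∧ ∀ w ∈ Nb p.2 [y], n * w * n⁻¹ ∈ p.2 := fun x hx => by
  obtain ⟨g, hg, e, rfl⟩ := t x hx
  have e1 : g * p.1 * g⁻¹ = p.1 := congrArg Prod.fst e
  have e2 : ∀ w, g * w * g⁻¹ ∈ p.2 ↔ w ∈ p.2 := fun w => by conv_lhs => rw [← e, cf_mem]
  refine ⟨g * n * g⁻¹, mul_mem (mul_mem hg hn) (inv_mem hg), ?_, ?_, fun w hw => ?_⟩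
  · rw [← e1, ← a]; group
  · rw [← e1, ← b]; group
  · obtain ⟨w, rfl⟩ : ∃ v, w = g * v * g⁻¹ := ⟨g⁻¹ * w * g, by group⟩
    obtain ⟨w1, w2, w3⟩ := mem_nb1.1 hw
    have := (e2 _).2 (c w (mem_nb1.2 ⟨(e2 w).1 w1, fun q => w2 (by rw [q]), (commute_conj_iff ..).1 w3⟩))
    rwa [show g * (n * w * n⁻¹) * g⁻¹ = g * n * g⁻¹ * (g * w * g⁻¹) * (g * n * g⁻¹)⁻¹ by group] at this
namespace Fb
variable {X : Subgroup G} {p : G × Set G} {U : Set N} {k : ℕ} (h : Fb X p U)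
include h
theorem un' {g l x : G} (hg : l⁻¹ * g ∈ X) (e : (cf g p).1 = (cf l p).1) (a : x ∈ (cf g p).2) (b : x ∈ (cf l p).2) :
    cf g p = cf l p := by
  have := h.un _ hg (conj_eq_iff_commute.1 (by
    rw [show l⁻¹ * g * p.1 * (l⁻¹ * g)⁻¹ = l⁻¹ * (g * p.1 * g⁻¹) * l by group, show g * p.1 * g⁻¹ = l * p.1 * l⁻¹ from e]; group))
    _ a (by simpa [mul_assoc, cf] using b)
  rw [← mul_inv_cancel_left l g, cf_mul, this]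
theorem fl : Fl {q | ∃ g ∈ X, cf g p = q} U := by
  have cj : ∀ g y : G, ∃ v, y = g * v * g⁻¹ := fun g y => ⟨g⁻¹ * y * g, by group⟩
  refine ⟨?_, ?_, ?_, ?_, ?_⟩
  · rintro _ ⟨g, -, rfl⟩ y hy
    obtain ⟨y, rfl⟩ := cj g y
    have := h.cm y (cf_mem.1 hy)
    exact ⟨mt conj_inj this.1, (commute_conj_iff ..).2 this.2⟩
  · rintro _ ⟨g, -, rfl⟩
    obtain ⟨π, r⟩ := h.fi
    obtain ⟨τ, t, -⟩ := (FIso.of_conj (A' := (cf g p).2) r.clo g fun _ => cf_mem).symm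
    exact ⟨_, t.trans r⟩
  · rintro _ ⟨g, hg, rfl⟩ y hy
    obtain ⟨y, rfl⟩ := cj g y
    obtain ⟨n, hn, a, b, -⟩ := h.sw y (cf_mem.1 hy)
    refine ⟨(cf (g * n) p).2, ⟨g * n, mul_mem hg hn, Prod.ext (by rw [← a]; simp [cf, mul_assoc]) rfl⟩, ?_⟩
    rw [cf_mul]
    exact cf_mem.2 (b ▸ cf_mem.2 (cf_mem.1 hy))
  · rintro _ ⟨g, hg, rfl⟩ _ ⟨l, hl, rfl⟩ s t w hw
    obtain ⟨y, e⟩ := cj g (cf l p).1
    rw [e, cf_mem] at s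
    obtain ⟨n, hn, a, b, c⟩ := h.sw y s
    have e1 : (cf g p).1 = g * n * y * (g * n)⁻¹ := by change g * p.1 * g⁻¹ = _; rw [← b]; group
    rw [h.un' (l := g * n) (mul_mem (inv_mem (mul_mem hg hn)) hl) (by rw [e, ← a]; simp [cf, mul_assoc]) t (e1 ▸ cf_mem.2 s), e1] at hw
    obtain ⟨w, rfl⟩ := cj (g * n) w
    obtain ⟨w1, w2, w3⟩ := mem_nb1.1 hw
    have := (cf_mem (g := g)).2 (c w (mem_nb1.2 ⟨cf_mem.1 w1, fun q => w2 (by rw [q]), (commute_conj_iff ..).1 w3⟩))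
    rwa [show g * (n * w * n⁻¹) * g⁻¹ = g * n * w * (g * n)⁻¹ by group] at this
  · rintro _ ⟨g, hg, rfl⟩ _ ⟨l, hl, rfl⟩ e x a b
    exact h.un' (mul_mem (inv_mem hl) hg) e a b
/-- the stabiliser of the component -/
theorem main (u : Ru U k) : ∃ Y ≤ X, (∀ g ∈ X, Ad p (cf g p) → g ∈ Y) ∧ (∀ g ∈ Y, Commute p.1 (g * p.1 * g⁻¹) → Ad p (cf g p)) ∧
    ∀ Y' : Subgroup G, (∀ g ∈ X, Ad p (cf g p) → g ∈ Y') → Y ≤ Y' := by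
  have f := h.fl
  obtain ⟨Φ, hΦ⟩ : ∃ Φ, Φ = {q | ∃ g ∈ X, cf g p = q} := ⟨_, rfl⟩
  have m : ∀ g ∈ X, cf g p ∈ Φ := fun g hg => hΦ.ge ⟨g, hg, rfl⟩
  have m0 : p ∈ Φ := hΦ.ge ⟨1, X.one_mem, cf_one p⟩
  have i : ∀ g ∈ X, ∀ {a b}, Rc Φ a b → Rc Φ (cf g a) (cf g b) := fun g hg _ _ r => by
    obtain ⟨w, hw, s, t⟩ := r
    obtain ⟨l, hl, rfl⟩ := hΦ.le hw
    exact ⟨_, cf_mul g l p ▸ m _ (mul_mem hg hl), s.cf g, t.cf g⟩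
  rw [← hΦ] at f
  let Y : Subgroup G :=
    { carrier := {g | g ∈ X ∧ Rc Φ p (cf g p)}
      mul_mem' := fun {a b} s t => ⟨mul_mem s.1 t.1, f.trans u m0 (m a s.1) (m _ (mul_mem s.1 t.1)) s.2 (cf_mul a b p ▸ i a s.1 t.2)⟩
      one_mem' := ⟨X.one_mem, p, m0, Or.inl rfl, Or.inl (cf_one p).symm⟩
      inv_mem' := fun {a} s => ⟨inv_mem s.1, by
        obtain ⟨w, hw, s1, s2⟩ := i _ (inv_mem s.1) s.2
        exact ⟨w, hw, cf_inv a p ▸ s2.symm, s1.symm⟩⟩ }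
  refine ⟨Y, fun _ s => s.1, fun g hg s => ⟨hg, p, m0, Or.inl rfl, s⟩, fun g hg c => ?_, fun Y' k g hg => ?_⟩
  · obtain ⟨hg, w, hw, s, t⟩ := hg
    exact f.adj m0 (m g hg) hw s.symm t c
  · obtain ⟨hg, w, hw, s, t⟩ := hg
    obtain ⟨l, hl, rfl⟩ := hΦ.le hw
    have := t.cf l⁻¹
    rw [cf_inv, ← cf_mul] at this
    exact (mul_mem_cancel_left (inv_mem (k l hl s))).1 (k _ (mul_mem (inv_mem hl) hg) this)
end Fb
end H1.Lf
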