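import Cfsg.Agent.H26.Rv1

open Cfsg H17 H19 H26Rv Subgroup

universe u

namespace H1.Inv2

variable {p : ℕ} [Fact p.Prime] {H : Type u} [Group H] [Finite H] {O : ValuationSubring ℂ}

theorem prodid {π : H → ℂ} (hπ : π ∈ TT H) (q : ℕ) (k : ℕ) : ∃ (N : ℕ) (Q : H → ℂ), Q ∈ TT H ∧
    ∀ h, ∏ j ∈ Finset.range k, ((q : ℂ) ^ j - π h) = (q : ℂ) ^ N - π h * Q h := by
  induction k with
  | zero => exact ⟨0, 0, (TT H).zero_mem, fun h => by simp⟩
  | succ k ih =>
    obtain ⟨N, Q, hQ, e⟩ := ih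
    have i1 : ∀ m : ℕ, IsIntegral ℤ ((q : ℂ) ^ m) := fun m => (isIntegral_natCast q).pow m
    refine ⟨N + k, (fun _ : H => (q : ℂ) ^ N) + (fun h => (q : ℂ) ^ k * Q h) - (fun h => π h * Q h),
      (TT H).sub_mem ((TT H).add_mem (const_mem (i1 N)) (smul_mem (i1 k) hQ)) (H26Rv.mul_mem hπ hQ),
      fun h => ?_⟩
    rw [Finset.prod_range_succ, e]
    simp only [Pi.sub_apply, Pi.add_apply]
    ring

theorem fx_mem (U : Type u) [AddCommGroup U] [Module (ZMod p) U] [Finite U]
    (ρ : Representation (ZMod p) H U) : (fun h => (fx ρ ⊤ h : ℂ)) ∈ TT H := by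
  letI : MulAction H U :=
    { smul := fun h u => ρ h u
      one_smul := fun u => by change ρ 1 u = u; simp
      mul_smul := fun a b u => by change ρ (a * b) u = ρ a (ρ b u); simp }
  have := char_mem (H17.isCharacter_perm (G := H) U)
  convert this using 3 with h
  unfold fx
  exact Nat.card_congr (Equiv.subtypeEquivRight fun u => by
    simp only [Submodule.mem_top, true_and]; rfl)

theorem fx_pow (U : Type u) [AddCommGroup U] [Module (ZMod p) U] [Finite U]
    (ρ : Representation (ZMod p) H U) (h : H) :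
    ∃ j ≤ Module.finrank (ZMod p) U, fx ρ ⊤ h = p ^ j := by
  refine ⟨Module.finrank (ZMod p) (LinearMap.ker (ρ h - LinearMap.id)), Submodule.finrank_le _, ?_⟩
  have := Module.natCard_eq_pow_finrank (K := ZMod p) (V := LinearMap.ker (ρ h - LinearMap.id))
  rw [Nat.card_zmod] at this
  rw [← this]
  unfold fx
  exact Nat.card_congr (Equiv.subtypeEquivRight fun u => by
    simp [LinearMap.mem_ker, sub_eq_zero])

theorem inv : InvP p H := by
  intro U _ _ _ ρ
  obtain ⟨N, Q, hQ, e⟩ := prodid (fx_mem U ρ) p (Module.finrank (ZMod p) U + 1)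
  refine ⟨N, ?_⟩
  convert hQ using 1
  ext h
  obtain ⟨j, hj, e1⟩ := fx_pow U ρ h
  have e2 := e h
  rw [Finset.prod_eq_zero (i := j) (Finset.mem_range.2 (Nat.lt_succ_of_le hj))
    (by rw [e1]; push_cast; ring)] at e2
  have h0 : (fx ρ ⊤ h : ℂ) ≠ 0 := by
    rw [e1]; exact_mod_cast pow_ne_zero j (Fact.out : p.Prime).ne_zero
  rw [div_eq_iff h0, mul_comm]
  exact sub_eq_zero.1 e2.symm

end H1.Inv2
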