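import Cfsg.Agent.H8.Count
import Cfsg.Agent.H1.Solvable
import Cfsg.Agent.H15.TB

/-!
Frobenius' theorem on the number of solutions of `x ^ n = c`, and Frobenius' conjecture for
solvable groups.
-/

set_option autoImplicit false

namespace H1

open Subgroup
open scoped IsMulCommutative

universe u

variable {G : Type*} [Group G] [Finite G]

omit [Finite G] in
theorem ncard_roots_sum [Fintype G] (n : ℕ) (Y : Set G) [DecidablePred (· ∈ Y)] :
    {x : G | x ^ n ∈ Y}.ncard = ∑ y, if y ∈ Y then {x : G | x ^ n = y}.ncard else 0 := by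
  classical
  rw [Set.ncard_eq_toFinset_card', Finset.card_eq_sum_card_fiberwise (f := (· ^ n))
    (t := Finset.univ) (by simp)]
  refine Finset.sum_congr rfl fun y _ => ?_
  split_ifs with hy
  · rw [Set.ncard_eq_toFinset_card']
    congr 1
    ext x
    simp only [Set.toFinset_setOf, Finset.mem_filter, Finset.mem_univ, true_and, and_iff_right_iff_imp]
    rintro rfl; exact hy
  · rw [Finset.card_eq_zero, Finset.filter_eq_empty_iff]
    rintro x hx rfl
    exact hy (by simpa using hx)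

omit [Finite G] in
theorem ncard_roots_conj (n : ℕ) (g y : G) :
    {x : G | x ^ n = g * y * g⁻¹}.ncard = {x : G | x ^ n = y}.ncard := by
  symm
  refine Set.ncard_congr (fun x _ => g * x * g⁻¹) (fun x hx => ?_) (fun a b _ _ h => by simpa using h)
    fun x hx => ⟨g⁻¹ * x * g, ?_, by simp [mul_assoc]⟩
  · change (g * x * g⁻¹) ^ n = _
    rw [conj_pow, show x ^ n = y from hx]
  · change (g⁻¹ * x * g) ^ n = _
    have := conj_pow (i := n) (a := g⁻¹) (b := x)
    rw [inv_inv] at this
    rw [this, show x ^ n = _ from hx]; simp [mul_assoc]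

theorem dvd_ncard_roots_of_conj (n : ℕ) (Y : Set G) (hY : ∀ g x, x ∈ Y → g * x * g⁻¹ ∈ Y) (d : ℕ)
    (h : ∀ y ∈ Y, d ∣ (centralizer ({y} : Set G)).index * {x : G | x ^ n = y}.ncard) :
    d ∣ {x : G | x ^ n ∈ Y}.ncard := by
  classical
  have := Fintype.ofFinite G
  rw [ncard_roots_sum]
  refine H8.dvd_sum_of_conj _ (fun g x => ?_) d fun y => ?_
  · have : g * x * g⁻¹ ∈ Y ↔ x ∈ Y := ⟨fun h => by simpa [mul_assoc] using hY g⁻¹ _ h, hY g x⟩
    simp only [this, ncard_roots_conj]
  · split_ifs with hy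
    · exact h y hy
    · simp

omit [Finite G] in
theorem ncard_roots_centralizer (n : ℕ) (y : G) :
    {x : G | x ^ n = y}.ncard = {x : centralizer ({y} : Set G) |
      x ^ n = ⟨y, mem_centralizer_singleton_iff.2 rfl⟩}.ncard := by
  symm
  refine Set.ncard_congr (fun x _ => x.1) (fun x hx => congrArg Subtype.val hx)
    (fun a b _ _ h => Subtype.ext h) fun x hx => ⟨⟨x, ?_⟩, Subtype.ext hx, rfl⟩
  rw [mem_centralizer_singleton_iff, ← show x ^ n = y from hx]
  exact (Commute.self_pow x n).eq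

theorem gcd_dvd_ncard_roots_primePow {p : ℕ} (hp : p.Prime) (a : ℕ) {c : G} (hc : c ∈ center G) :
    (p ^ a).gcd (Nat.card G) ∣ {x : G | x ^ p ^ a = c}.ncard := by
  by_cases h : p ∣ orderOf c
  · refine (Nat.gcd_dvd_left _ _).trans (H8.dvd_ncard_of_fiber _ zpowers _ fun x hx => ?_)
    have hord : ∀ y : G, y ^ p ^ a = c → orderOf y = orderOf c * p ^ a := by
      intro y hy
      have h1 := orderOf_pow' y (n := p ^ a) (pow_pos hp.pos a).ne'
      rw [hy] at h1
      obtain ⟨j, hj, e⟩ := (Nat.dvd_prime_pow hp).1 (Nat.gcd_dvd_right (orderOf y) (p ^ a))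
      have h2 : orderOf y = orderOf c * p ^ j := by
        rw [h1, ← e, Nat.div_mul_cancel (Nat.gcd_dvd_left _ _)]
      rcases hj.eq_or_lt with rfl | hj
      · exact h2
      · have h3 : p ^ (j + 1) ∣ (orderOf y).gcd (p ^ a) :=
          Nat.dvd_gcd (by rw [h2, pow_succ']; exact Nat.mul_dvd_mul_right h _) (pow_dvd_pow p hj)
        rw [e, Nat.pow_dvd_pow_iff_le_right hp.one_lt] at h3
        omega
    have h1 := IsCyclic.card_powMonoidHom_ker (G := zpowers x) (p ^ a)
    rw [Nat.card_zpowers, hord x hx, Nat.gcd_mul_left_left] at h1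
    refine dvd_of_eq (h1.symm.trans ?_)
    change (((powMonoidHom (p ^ a) : zpowers x →* zpowers x).ker : Set (zpowers x))).ncard = _
    have hx' : x ^ p ^ a = c := hx
    refine Set.ncard_congr (fun z _ => x * z) (fun z hz => ?_)
      (fun a b _ _ h => Subtype.ext (mul_left_cancel h)) fun y hy => ?_
    · have h2 : (x * z) ^ p ^ a = c := by
        have hz' : (z : G) ^ p ^ a = 1 := congrArg Subtype.val hz
        obtain ⟨k, hk⟩ := z.2
        rw [Commute.mul_pow (by rw [← hk]; exact Commute.self_zpow x k), hz', mul_one, hx']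
      refine ⟨h2, eq_of_le_of_card_ge (zpowers_le.2 (mul_mem (mem_zpowers x) z.2)) ?_⟩
      rw [Nat.card_zpowers, Nat.card_zpowers, hord _ h2, hord _ hx']
    · have h2 : y ∈ zpowers x := hy.2 ▸ mem_zpowers y
      refine ⟨⟨x⁻¹ * y, mul_mem (inv_mem (mem_zpowers x)) h2⟩, Subtype.ext ?_, by simp⟩
      obtain ⟨k, hk⟩ := h2
      change (x⁻¹ * y) ^ p ^ a = 1
      rw [Commute.mul_pow (by rw [← hk]; exact (Commute.self_zpow x k).inv_left), inv_pow, hx',
        show y ^ p ^ a = c from hy.1, inv_mul_cancel]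
  · obtain ⟨k, hk⟩ := exists_pow_eq_self_of_coprime (x := c) (n := p ^ a)
      (((Nat.Prime.coprime_iff_not_dvd hp).2 h).pow_left a)
    have h1 : (c ^ k) ^ p ^ a = c := by rw [← pow_mul, mul_comm, pow_mul, hk]
    have h2 : ∀ x : G, Commute x (c ^ k) := fun x => mem_center_iff.1 (pow_mem hc k) x
    refine (H8.frobenius_gcd_dvd (p ^ a)).trans (dvd_of_eq ?_)
    change {x : G | x ^ p ^ a = 1}.ncard = _
    refine Set.ncard_congr (fun z _ => z * c ^ k) (fun z hz => ?_)
      (fun a b _ _ h => mul_right_cancel h) fun y hy => ⟨y * (c ^ k)⁻¹, ?_, by simp⟩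
    · change (z * c ^ k) ^ p ^ a = c
      rw [(h2 z).mul_pow, show z ^ p ^ a = 1 from hz, one_mul, h1]
    · change (y * (c ^ k)⁻¹) ^ p ^ a = 1
      rw [(h2 y).inv_right.mul_pow, inv_pow, h1, show y ^ p ^ a = c from hy, mul_inv_cancel]

omit [Finite G] in
theorem dvd_index_mul_gcd {d : ℕ} (hd : d ∣ Nat.card G) (C : Subgroup G) :
    d ∣ C.index * d.gcd (Nat.card C) := by
  rw [← Nat.gcd_mul_left, C.index_mul_card]
  exact Nat.dvd_gcd (Dvd.intro_left _ rfl) hd

theorem gcd_dvd_ncard_roots (n : ℕ) {c : G} (hc : c ∈ center G) :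
    n.gcd (Nat.card G) ∣ {x : G | x ^ n = c}.ncard := by
  rw [Nat.dvd_iff_prime_pow_dvd_dvd]
  intro p a hp h
  obtain ⟨m, rfl⟩ := h.trans (Nat.gcd_dvd_left _ _)
  have h1 := dvd_ncard_roots_of_conj (p ^ a) {y : G | y ^ m = c} (fun g x hx => by
    change (g * x * g⁻¹) ^ m = c
    rw [conj_pow, show x ^ m = c from hx, mem_center_iff.1 hc g, mul_inv_cancel_right]) (p ^ a)
    fun y _ => by
      rw [ncard_roots_centralizer]
      refine (dvd_index_mul_gcd (h.trans (Nat.gcd_dvd_right _ _)) _).trans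
        (Nat.mul_dvd_mul_left _ (gcd_dvd_ncard_roots_primePow hp a ?_))
      exact mem_center_iff.2 fun g => Subtype.ext (mem_centralizer_singleton_iff.1 g.2)
  simpa only [Set.mem_setOf_eq, ← pow_mul] using h1

theorem gcd_dvd_card_roots_class (c : G) (n : ℕ) :
    Nat.gcd (Nat.card {y : G // IsConj c y} * n) (Nat.card G) ∣
      Nat.card {x : G // IsConj c (x ^ n)} := by
  refine dvd_ncard_roots_of_conj n {y | IsConj c y} (fun g x hx => IsConj.trans hx
    (isConj_iff.2 ⟨g, rfl⟩)) _ fun y hy => ?_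
  obtain ⟨g, rfl⟩ := isConj_iff.1 hy
  rw [H8.card_conj_class, ← H8.index_centralizer_conj c g, ncard_roots_centralizer,
    ← (centralizer ({g * c * g⁻¹} : Set G)).index_mul_card, Nat.gcd_mul_left]
  exact Nat.mul_dvd_mul_left _ (gcd_dvd_ncard_roots n
    (mem_center_iff.2 fun g => Subtype.ext (mem_centralizer_singleton_iff.1 g.2)))

theorem exists_subgroup_of_card_roots (m : ℕ) : ∀ (G : Type u) [Group G] [Finite G],
    Nat.card G = m → Group.IsSolvable G → ∀ n : ℕ, n ∣ Nat.card G →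
      Nat.card {x : G // x ^ n = 1} = n → ∃ H : Subgroup G, Nat.card H = n := by
  induction m using Nat.strong_induction_on with
  | _ m ih =>
  intro G _ _ hm hs n hn hc
  rcases subsingleton_or_nontrivial G with hG | hG
  · refine ⟨⊥, ?_⟩
    rw [Nat.card_of_subsingleton (1 : G), Nat.dvd_one] at hn
    simp [hn]
  obtain ⟨K, p, _, hK0, -, hp, -, hKp, hK, -⟩ := exists_minimal_normal_elementary (⊤ : Subgroup G)
    inferInstance top_ne_bot
  have : Fact p.Prime := ⟨hp⟩
  have hlt : Nat.card (G ⧸ K) < m := by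
    rw [← hm, card_eq_card_quotient_mul_card_subgroup K]
    have := (K.one_lt_card_iff_ne_bot).2 hK0
    have : 0 < Nat.card (G ⧸ K) := Nat.card_pos
    nlinarith
  have hn0 : 0 < n := Nat.pos_of_dvd_of_pos hn Nat.card_pos
  have hne : ∀ u : ℕ, 0 < Nat.card {z : G ⧸ K // z ^ u = 1} := fun u =>
    Nat.card_pos_iff.2 ⟨⟨⟨1, one_pow u⟩⟩, inferInstance⟩
  rw [card_eq_card_quotient_mul_card_subgroup K] at hn
  by_cases hpn : p ∣ n
  · obtain ⟨u, hu⟩ := Nat.gcd_dvd_left n (Nat.card K)
    obtain ⟨v, hv⟩ := Nat.gcd_dvd_right n (Nat.card K)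
    have hd : 0 < n.gcd (Nat.card K) := Nat.gcd_pos_of_pos_left _ hn0
    have hpd : p ∣ n.gcd (Nat.card K) := by
      refine Nat.dvd_gcd hpn ?_
      obtain ⟨k, hk⟩ := hK.exists_card_eq
      rw [hk]
      refine dvd_pow_self p ?_
      rintro rfl
      exact hK0 (card_eq_one.1 hk)
    have huv : u.Coprime v := by
      have := Nat.coprime_div_gcd_div_gcd hd
      generalize n.gcd (Nat.card K) = d at *
      rwa [hv, hu, Nat.mul_div_cancel_left _ hd, Nat.mul_div_cancel_left _ hd] at this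
    have hu1 : u ∣ Nat.card (G ⧸ K) := by
      generalize n.gcd (Nat.card K) = d at *
      rw [hv, hu, mul_left_comm] at hn
      exact huv.dvd_of_dvd_mul_right (Nat.dvd_of_mul_dvd_mul_left hd hn)
    obtain ⟨k, hk⟩ := H8.frobenius_dvd hu1
    have h1 : Nat.card K * Nat.card {z : G ⧸ K // z ^ u = 1} ≤ n := by
      have h2 := QuotientGroup.card_preimage_mk K {z : G ⧸ K | z ^ u = 1}
      refine le_trans h2.ge (le_trans ?_ hc.le)
      refine Set.ncard_le_ncard (s := _) (t := {x : G | x ^ n = 1}) fun x hx => ?_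
      have h3 : x ^ u ∈ K := by rw [← QuotientGroup.eq_one_iff, QuotientGroup.mk_pow]; exact hx
      obtain ⟨w, hw⟩ := hpd
      change x ^ n = 1
      rw [hu, hw, mul_comm, pow_mul, pow_mul, hKp _ h3, one_pow]
    have hk0 : 0 < k := Nat.pos_of_mul_pos_left (hk ▸ hne u)
    have hu0 : 0 < u := Nat.pos_of_mul_pos_left (hu ▸ hn0)
    have hv0 : 0 < v := Nat.pos_of_mul_pos_left (hv ▸ (Nat.card_pos : 0 < Nat.card K))
    have h4 : v * k ≤ 1 := by
      generalize n.gcd (Nat.card K) = d at *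
      rw [hk, hv, hu] at h1
      have : d * u * (v * k) ≤ d * u * 1 := by nlinarith
      exact Nat.le_of_mul_le_mul_left this (Nat.mul_pos hd hu0)
    have hk1 : k = 1 := by nlinarith
    have hv1 : v = 1 := by nlinarith
    obtain ⟨H, hH⟩ := ih _ hlt (G ⧸ K) rfl inferInstance u hu1 (by rw [hk, hk1, mul_one])
    refine ⟨H.comap (QuotientGroup.mk' K), ?_⟩
    rw [card_comap_mk', hH, hv, hv1, mul_one, mul_comm, ← hu]
  · have hcop : (Nat.card K).Coprime n := by
      obtain ⟨k, hk⟩ := hK.exists_card_eq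
      rw [hk]; exact ((Nat.Prime.coprime_iff_not_dvd hp).2 hpn).pow_left k
    have hu1 : n ∣ Nat.card (G ⧸ K) := hcop.symm.dvd_of_dvd_mul_right hn
    have h1 : Nat.card {z : G ⧸ K // z ^ n = 1} ≤ n := by
      refine le_trans (Nat.card_le_card_of_surjective (fun x : {x : G // x ^ n = 1} =>
        (⟨(x.1 : G ⧸ K), by rw [← QuotientGroup.mk_pow, x.2, QuotientGroup.mk_one]⟩ :
          {z : G ⧸ K // z ^ n = 1})) ?_) hc.le
      rintro ⟨z, hz⟩
      obtain ⟨x, rfl⟩ := QuotientGroup.mk_surjective z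
      obtain ⟨y, -, h1, h2⟩ := H15.exists_lift_pow (QuotientGroup.mk' K)
        (by rwa [QuotientGroup.ker_mk']) hz
      exact ⟨⟨y, h2⟩, Subtype.ext h1⟩
    obtain ⟨H, hH⟩ := ih _ hlt (G ⧸ K) rfl inferInstance n hu1
      (le_antisymm h1 (Nat.le_of_dvd (hne n) (H8.frobenius_dvd hu1)))
    have hKL : K ≤ H.comap (QuotientGroup.mk' K) := fun x hx => by
      rw [mem_comap, show QuotientGroup.mk' K x = 1 from (QuotientGroup.eq_one_iff x).2 hx]
      exact one_mem _
    have h2 : (K.subgroupOf (H.comap (QuotientGroup.mk' K))).index = n := by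
      have := (K.subgroupOf (H.comap (QuotientGroup.mk' K))).index_mul_card
      rw [card_comap_mk', hH, Nat.card_congr (subgroupOfEquivOfLe hKL).toEquiv] at this
      exact Nat.eq_of_mul_eq_mul_right Nat.card_pos this
    obtain ⟨L, hL⟩ := exists_right_complement'_of_coprime
      (N := K.subgroupOf (H.comap (QuotientGroup.mk' K)))
      (by rw [h2, Nat.card_congr (subgroupOfEquivOfLe hKL).toEquiv]; exact hcop)
    refine ⟨L.map (Subgroup.subtype _), ?_⟩
    rw [card_subtype, ← hL.symm.index_eq_card, h2]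

end H1
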