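import Cfsg.Agent.H1.SmallCrit
import Cfsg.Agent.H5.Fstar
import Cfsg.Agent.H6.Count
import Cfsg.Prelude.Def_ClassificationK

/-!
Involution centralizers whose generalized Fitting subgroup is a `2`-group of symplectic type.
-/

set_option autoImplicit false

namespace H1

open Subgroup H10 Cfsg
open scoped commutatorElement

variable {G : Type*} [Group G] [Finite G]

omit [Finite G] in
theorem mem_fstarOf_centralizer (z : G) : z ∈ H5.fstarOf (centralizer {z}) :=
  H5.fitOf_le_fstarOf _ (H5.zOf_le_fitOf _ ⟨mem_centralizer_singleton_iff.2 rfl,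
    fun _ hx => mem_centralizer_singleton_iff.1 hx⟩)

omit [Finite G] in
theorem isPGroup_of_sympl {K : Subgroup G} (h : IsOfSymplecticType (generalizedFittingSubgroup K)) :
    IsPGroup 2 (H5.fstarOf K) := h.1.map _

/-- Symplectic type, ambient form. -/
def SymplAmb (Q : Subgroup G) : Prop :=
  IsPGroup 2 Q ∧ ∀ A : Subgroup Q, A.Characteristic → IsMulCommutative A → IsCyclic A

omit [Finite G] in
theorem isOfSymplecticType_of_equiv {X Y : Type*} [Group X] [Group Y] (h : IsOfSymplecticType X)
    (e : X ≃* Y) : IsOfSymplecticType Y := by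
  refine ⟨h.1.of_equiv e, fun A hA hc => ?_⟩
  have : (A.comap e.toMonoidHom).Characteristic := by
    refine characteristic_iff_le_comap.2 fun φ x hx => ?_
    have := characteristic_iff_le_comap.1 hA (e.symm.trans (φ.trans e)) hx
    simpa using this
  have e' : (A.comap e.toMonoidHom) ≃* A := by
    rw [comap_equiv_eq_map_symm']
    exact (e.symm.subgroupMap A).symm
  have := h.2 _ this (comap_injective_isMulCommutative A e.injective)
  exact isCyclic_of_surjective e' e'.surjective

omit [Finite G] in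
theorem sympl_fstarOf {K : Subgroup G} (h : IsOfSymplecticType (generalizedFittingSubgroup K)) :
    IsOfSymplecticType (H5.fstarOf K) :=
  isOfSymplecticType_of_equiv h (equivMapOfInjective _ _ K.subtype_injective)

omit [Finite G] in
theorem sympl_center_isCyclic {Q : Subgroup G} (h : IsOfSymplecticType Q) :
    IsCyclic (Q ⊓ CC(Q) : Subgroup G) := by
  rw [← map_center_subtype]
  have := h.2 (center Q) inferInstance inferInstance
  exact isCyclic_of_surjective _ (equivMapOfInjective _ _ Q.subtype_injective).surjective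

/-- In a group of symplectic type and exponent four all squares are central. -/
theorem sympl_sq_mem_CC {Q : Subgroup G} (h : IsOfSymplecticType Q) (h4 : ∀ q ∈ Q, q ^ 4 = 1)
    {q : G} (hq : q ∈ Q) : q ^ 2 ∈ CC(Q) := by
  have : Fact (Nat.Prime 2) := ⟨Nat.prime_two⟩
  obtain ⟨H, hH, -, h1, h2, h3⟩ := H3.exists_critical h.1 ⊥
  have hA : IsCyclic (H ⊓ CC(H) : Subgroup Q) :=
    h.2 _ inferInstance (isMulCommutative_iff_le_CC.2 (center_le_CC H))
  have h4' : ∀ q : Q, q ^ 4 = 1 := fun q => Subtype.ext (h4 q q.2)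
  have hinv : ∀ c ∈ H ⊓ CC(H), c ^ 2 = 1 → c ∈ center Q := by
    intro c hc h0
    by_cases h1 : c = 1
    · rw [h1]; exact one_mem _
    have h5 := H6.ord2_of (by rwa [← pow_two]) h1
    exact mem_center_iff.2 fun g => H6.conj_eq_iff_commute.1 (H6.ord2_unique_of_isCyclic hA
      (Normal.conj_mem inferInstance _ hc g) hc (H6.ord2_conj h5 g) h5)
  have key : ∀ q : Q, q ^ 2 ∈ CC(H) := by
    intro q x hx
    have hc := h2 (commutator_mem_commutator hx (mem_top q))
    set c := ⁅x, q⁆ with hcd
    have e : ⁅x, q ^ 2⁆ = c * (q * c * q⁻¹) := by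
      rw [hcd]; simp only [commutatorElement_def, pow_two]; group
    rw [← commutatorElement_eq_one_iff_mul_comm, e]
    have hcx : Commute x c := hc.2 x hx
    by_cases h0 : c ^ 2 = 1
    · rw [mem_center_iff.1 (hinv c hc h0) q, mul_inv_cancel_right, ← pow_two, h0]
    -- `c` has order four and generates the centre of `H`
    have ho : orderOf c = 4 := by
      have := orderOf_eq_prime_pow (p := 2) (n := 1) (by simpa using h0) (h4' c)
      simpa using this
    have hcard : Nat.card (H ⊓ CC(H) : Subgroup Q) ≤ 4 := by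
      obtain ⟨a, ha⟩ := hA.exists_monoid_generator
      rw [← orderOf_eq_card_of_forall_mem_powers ha]
      exact Nat.le_of_dvd (by norm_num) (orderOf_dvd_of_pow_eq_one (Subtype.ext (h4' a)))
    have hz : zpowers c = H ⊓ CC(H) := eq_of_le_of_card_ge (zpowers_le.2 hc)
      (by rwa [Nat.card_zpowers, ho])
    have hx2 : x ^ 2 ∈ zpowers c := hz ▸ ⟨H.pow_mem hx 2, h1 x hx⟩
    have e2 : ⁅x ^ 2, q⁆ = c ^ 2 := commutator_pow_of_commute hcx 2
    have hq : q * c * q⁻¹ ∈ zpowers c := hz ▸ Normal.conj_mem inferInstance _ hc q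
    by_cases h6 : Commute q c
    · obtain ⟨n, hn⟩ := mem_zpowers_iff.1 hx2
      rw [← hn, (h6.symm.zpow_left n).commutator_eq] at e2
      exact absurd e2.symm h0
    obtain ⟨n, hn⟩ := (mem_powers_iff_mem_zpowers.2 hq)
    have hn' : c ^ (n % 4) = q * c * q⁻¹ := by rw [← ho, pow_mod_orderOf]; exact hn
    have h7 : orderOf (c ^ (n % 4)) = 4 := by rw [hn', H6.orderOf_conj', ho]
    have : n % 4 < 4 := Nat.mod_lt _ (by norm_num)
    interval_cases h8 : n % 4
    · simp at h7
    · exact absurd (H6.conj_eq_iff_commute.1 (by simpa using hn'.symm)) h6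
    · rw [orderOf_pow' _ two_ne_zero, ho] at h7; norm_num at h7
    · rw [← hn', ← pow_succ', h4']
  have := hinv (⟨q, hq⟩ ^ 2) ⟨h3 (key _), key _⟩ (by rw [← pow_mul]; exact h4' _)
  intro x hx
  exact congrArg Subtype.val (mem_center_iff.1 this ⟨x, hx⟩)

section
variable {z : G} (hz : orderOf z = 2)
  (h : IsOfSymplecticType (generalizedFittingSubgroup (centralizer ({z} : Set G))))
include hz h

theorem sympl_eq_of_center {t : G} (ht : orderOf t = 2) (h1 : t ∈ H5.fstarOf (centralizer {z}))
    (h2 : t ∈ CC(H5.fstarOf (centralizer ({z} : Set G)))) : t = z :=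
  H6.ord2_unique_of_isCyclic (sympl_center_isCyclic (sympl_fstarOf h)) ⟨h1, h2⟩
    ⟨mem_fstarOf_centralizer z, fun _ hx =>
      mem_centralizer_singleton_iff.1 (H5.fstarOf_le _ hx)⟩ ht hz

theorem sympl_mem_zpowers {t : G} (ht : t ^ 2 = 1) (h1 : t ∈ H5.fstarOf (centralizer {z}))
    (h2 : t ∈ CC(H5.fstarOf (centralizer ({z} : Set G)))) : t ∈ zpowers z := by
  by_cases h0 : t = 1
  · rw [h0]; exact one_mem _
  · rw [sympl_eq_of_center hz h (H6.ord2_of (by rwa [← pow_two]) h0) h1 h2]; exact mem_zpowers z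

end

end H1
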