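import Cfsg.Agent.H29.U1

set_option maxRecDepth 100000
set_option autoImplicit false

open Cfsg Cfsg.Spor H7.J4 H29 H29.J4m H29.U Subgroup

universe u

namespace H1.Tw4

variable {G : Type u} [Group G] [Finite G] {M : Model G} {x y e t : G}

theorem f2 {G : Type*} [Group G] {M : Model G} (s : Std M) {L : List ℕ} {l : List G}
    (h : List.Forall₂ M.R L l) (es : List Ex) :
    List.Forall₂ M.R (es.map (Ex.c kmul kone L)) (es.map (Ex.g l)) := by
  induction es with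
  | nil => exact .nil
  | cons a es ih => exact .cons (by rw [← s.1, ← s.2.1]; exact a.R h) ih

theorem fl {G : Type*} [Group G] {M : Model G} {L : List ℕ} {l : List G} (h : List.Forall₂ M.R L l) {a : G}
    (ha : a ∈ l) : ∃ c ∈ L, M.R c a := by
  induction h with
  | nil => simp at ha
  | cons h1 _ ih =>
    rcases List.mem_cons.1 ha with rfl | ha
    · exact ⟨_, List.mem_cons_self, h1⟩
    · obtain ⟨c, hc, k⟩ := ih ha
      exact ⟨c, List.mem_cons_of_mem _ hc, k⟩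

theorem fb {G : Type*} [Group G] {M M' : Model G} {L : List ℕ} {l : List G} (h : List.Forall₂ M.R L l)
    (h' : List.Forall₂ M'.R L l) {c : ℕ} (hc : c ∈ L) : ∃ a ∈ l, M.R c a ∧ M'.R c a := by
  induction h with
  | nil => simp at hc
  | cons h1 _ ih =>
    cases h' with
    | cons k1 k2 =>
      rcases List.mem_cons.1 hc with rfl | hc
      · exact ⟨_, List.mem_cons_self, h1, k1⟩
      · obtain ⟨a, ha, k⟩ := ih k2 hc
        exact ⟨a, List.mem_cons_of_mem _ ha, k⟩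

theorem g_mem {G : Type*} [Group G] {K : Subgroup G} {l : List G} (h : ∀ a ∈ l, a ∈ K) (w : Ex) :
    w.g l ∈ K := by
  induction w with
  | v i =>
    simp only [Ex.g, List.getD_eq_getElem?_getD]
    cases e : l[i]? with
    | none => exact one_mem _
    | some a => exact h a (List.mem_of_getElem? e)
  | m a b ia ib => exact mul_mem ia ib
  | p a k ia => exact pow_mem ia k

theorem cardH (f : Md M x y e) : Nat.card (closure ({x, y, e} : Set G)) = 2048 * 244823040 := by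
  have s := f.s
  have h := f.h
  obtain ⟨MJ, sJ, hJ⟩ := j4_model'
  have xi : x⁻¹ = x := inv_eq_of_mul_eq_one_right (s.eq h (.m (.v 0) (.v 0)) (.v 9) (by decide +kernel))
  have ei : e⁻¹ = e := inv_eq_of_mul_eq_one_right (s.eq h (.m (.v 3) (.v 3)) (.v 9) (by decide +kernel))
  have xj : jx⁻¹ = jx := inv_eq_of_mul_eq_one_right (sJ.eq hJ (.m (.v 0) (.v 0)) (.v 9) (by decide +kernel))
  have ej : je⁻¹ = je := inv_eq_of_mul_eq_one_right (sJ.eq hJ (.m (.v 4) (.v 4)) (.v 9) (by decide +kernel))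
  let Γ : Subgroup (J4 × G) := closure {(jx, x), (jy, y), (je, e)}
  have k : ∀ p ∈ Γ, ∃ c, MJ.R c p.1 ∧ M.R c p.2 := by
    intro p hp
    induction hp using closure_induction'' with
    | one => exact ⟨kone, sJ.2.1 ▸ MJ.R_one, s.2.1 ▸ M.R_one⟩
    | mem a ha =>
      rcases ha with rfl | rfl | rfl
      exacts [⟨cx, R_getD hJ 0, R_getD h 0⟩, ⟨cy, R_getD hJ 1, R_getD h 1⟩, ⟨ce, R_getD hJ 4, R_getD h 3⟩]
    | inv_mem a ha =>
      rcases ha with rfl | rfl | rfl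
      exacts [⟨cx, MJ.R_congr (R_getD hJ 0) xj.symm, M.R_congr (R_getD h 0) xi.symm⟩,
        ⟨cY, R_getD hJ 2, R_getD h 2⟩, ⟨ce, MJ.R_congr (R_getD hJ 4) ej.symm, M.R_congr (R_getD h 3) ei.symm⟩]
    | mul a b _ _ ia ib =>
      obtain ⟨c, c1, c2⟩ := ia
      obtain ⟨d, d1, d2⟩ := ib
      exact ⟨kmul c d, sJ.1 ▸ MJ.R_mul c1 d1, s.1 ▸ M.R_mul c2 d2⟩
  have k' : ∀ p ∈ Γ, p.1 = 1 ↔ p.2 = 1 := fun p hp => by
    obtain ⟨c, c1, c2⟩ := k p hp
    rw [← MJ.eqb_iff c1 MJ.R_one, ← M.eqb_iff c2 M.R_one, sJ.2.1, sJ.2.2, s.2.1, s.2.2]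
  have i1 : Function.Injective ((MonoidHom.fst J4 G).comp Γ.subtype) :=
    (injective_iff_map_eq_one _).2 fun p hp => Subtype.ext (Prod.ext hp ((k' p.1 p.2).1 hp))
  have i2 : Function.Injective ((MonoidHom.snd J4 G).comp Γ.subtype) :=
    (injective_iff_map_eq_one _).2 fun p hp => Subtype.ext (Prod.ext ((k' p.1 p.2).2 hp) hp)
  have r1 : ((MonoidHom.fst J4 G).comp Γ.subtype).range = closure {jx, jy, je} := by
    rw [MonoidHom.range_comp, range_subtype, MonoidHom.map_closure]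
    simp only [Set.image_insert_eq, Set.image_singleton, MonoidHom.coe_fst]
  have r2 : ((MonoidHom.snd J4 G).comp Γ.subtype).range = closure {x, y, e} := by
    rw [MonoidHom.range_comp, range_subtype, MonoidHom.map_closure]
    simp only [Set.image_insert_eq, Set.image_singleton, MonoidHom.coe_snd]
  rw [← r2, ← Nat.card_congr (MonoidHom.ofInjective i2).toEquiv,
    Nat.card_congr (MonoidHom.ofInjective i1).toEquiv, r1]
  have := (closure {jx, jy, je}).card_mul_index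
  rw [H7.JD.j_main.1, H7.JD.j_main.2.1.2] at this
  exact Nat.eq_of_mul_eq_mul_right (by norm_num : 0 < 173067389) (this.trans (by norm_num))

noncomputable def LT : List ℕ := [kmul (em mx) cx, kmul (em my) cy, kmul cY (em my), ce]

theorem q1 : eK.map (Ex.c kmul kone LT) = eL := by decide +kernel
theorem q2 : eK.map (Ex.c kmul kone L4) = eL := by decide +kernel
theorem q3 : ∀ j < 11, Nat.beq (kmul (kmul (kmul (em mx) cx) (lgetD kone eL j)) (kmul (em mx) cx))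
    ((nx.getD j (.v 0)).c kmul kone eL) = true := by decide +kernel
theorem q4 : ∀ j < 11, Nat.beq (kmul (kmul (kmul (em my) cy) (lgetD kone eL j)) (kmul cY (em my)))
    ((ny.getD j (.v 0)).c kmul kone eL) = true := by decide +kernel
theorem q5 : allL (fun c => allL (fun c' => Nat.beq (kmul c c') (kmul c' c)) eL) dL = true := by decide +kernel
theorem q6 : em mg = cg := by decide +kernel
theorem q7 : kmul (em mca) (wca.c kmul kone LT) = cB := by decide +kernel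
theorem q8 : kmul (em mca) (wca.c kmul kone L4) = cA := by decide +kernel
theorem q9 : Nat.beq (wr.c kmul kone LT) (wr.c kmul kone L4) = true := by decide +kernel

theorem tw (hom : ∀ x y : G, x ^ 2 = 1 → y ^ 3 = 1 → (x * y) ^ 23 = 1 → (x⁻¹ * y⁻¹ * x * y) ^ 12 = 1 → (x⁻¹ * (y * x * y)⁻¹ * x * (y * x * y)) ^ 5 = 1 → (x * y * ((x * y * x * (y⁻¹)) ^ 3)) ^ 4 = 1 → ((x * y * x * y * x * (y⁻¹)) ^ 3) * ((x * y * x * (y⁻¹) * x * (y⁻¹)) ^ 3) = 1 → ∀ eg : List G, eg = eK.map (Ex.g [x, y, y⁻¹, e]) → (∀ a ∈ eg, a * a = 1) → (∀ a ∈ eg, ∀ b ∈ eg, a * b = b * a) → (∀ j < 11, x * eg.getD j 1 * x⁻¹ = (nx.getD j (.v 0)).g eg) → (∀ j < 11, y * eg.getD j 1 * y⁻¹ = (ny.getD j (.v 0)).g eg) → Nat.card (closure ({x, y, e} : Set G)) = 2048 * 244823040 → ∃ M : Model G, Md M x y e) (f : Fr M x y e) (ht : Tt x y e t) (h : Ac M t cg cB) : ∃ (M' : Model G) (x' y' : G), Fr M' x' y' e ∧ Tt x' y' e t ∧ Ac M' t cg cA := by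
  have s := f.s
  obtain ⟨a, aV, ra⟩ := em_in f.toMd mx
  obtain ⟨b, bV, rb⟩ := em_in f.toMd my
  have mu : ∀ {c d : ℕ} {g k : G}, M.R c g → M.R d k → M.R (kmul c d) (g * k) := fun p q => s.1 ▸ M.R_mul p q
  have eq : ∀ {c d : ℕ} {g k : G}, M.R c g → M.R d k → Nat.beq c d = true → g = k := fun p q r =>
    M.eq_of p q (by rw [s.2.2]; exact r)
  have bi : b⁻¹ = b := inv_eq_of_mul_eq_one_right (eq (mu rb rb) (s.2.1 ▸ M.R_one) (by decide +kernel))
  have rx : M.R (kmul (em mx) cx) (a * x) := mu ra (R_getD f.h 0)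
  have ry : M.R (kmul (em my) cy) (b * y) := mu rb (R_getD f.h 1)
  have rY : M.R (kmul cY (em my)) (b * y)⁻¹ := by rw [mul_inv_rev, bi]; exact mu (R_getD f.h 2) rb
  have h' : List.Forall₂ M.R LT [a * x, b * y, (b * y)⁻¹, e] :=
    .cons rx (.cons ry (.cons rY (.cons (R_getD f.h 3) .nil)))
  have hE := f2 s h' eK
  have hE0 := f2 s f.h eK
  rw [q1] at hE
  rw [q2] at hE0
  have Vle : ∀ {u v : G}, List.Forall₂ M.R eL (eK.map (Ex.g [u, v, v⁻¹, e])) → M.cl eL ≤ closure {u, v, e} := by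
    intro u v k
    refine Model.cl_le fun c hc => ?_
    obtain ⟨g, hg, r, -⟩ := fb k k hc
    obtain ⟨w, -, rfl⟩ := List.mem_map.1 hg
    have m2 : v ∈ closure {u, v, e} := subset_closure (Or.inr (Or.inl rfl))
    refine ⟨_, g_mem ?_ w, r⟩
    simp only [List.forall_mem_cons]
    exact ⟨subset_closure (Or.inl rfl), m2, inv_mem m2, subset_closure (Or.inr (Or.inr rfl)), by simp⟩
  have cl : closure {a * x, b * y, e} = closure {x, y, e} := by
    refine le_antisymm ((closure_le _).2 ?_) ((closure_le _).2 ?_)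
    · rintro _ (rfl | rfl | rfl)
      · exact mul_mem (Vle hE0 aV) (subset_closure (Or.inl rfl))
      · exact mul_mem (Vle hE0 bV) (subset_closure (Or.inr (Or.inl rfl)))
      · exact subset_closure (Or.inr (Or.inr rfl))
    · rintro _ (rfl | rfl | rfl)
      · exact (mul_mem_cancel_left (Vle hE aV)).1 (subset_closure (Or.inl rfl))
      · exact (mul_mem_cancel_left (Vle hE bV)).1 (subset_closure (Or.inr (Or.inl rfl)))
      · exact subset_closure (Or.inr (Or.inr rfl))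
  have ea : EA M eL := EA.of (K := ⊤) (fun c hc => let ⟨g, _, r, _⟩ := fb hE hE hc; ⟨g, trivial, r⟩)
    (by rw [s.1, s.2.1, s.2.2]; decide +kernel) (by rw [s.1, s.2.2]; decide +kernel)
  generalize a * x = x' at rx h' hE cl
  generalize b * y = y' at ry rY h' hE cl
  have xi : x'⁻¹ = x' := inv_eq_of_mul_eq_one_right (s.eq h' (.m (.v 0) (.v 0)) (.v 9) (by decide +kernel))
  obtain ⟨M', f'⟩ := hom x' y' (s.eq h' (.p (.v 0) 2) (.v 9) (by decide +kernel))
    (s.eq h' (.p (.v 1) 3) (.v 9) (by decide +kernel))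
    (s.eq h' (.p (.m (.v 0) (.v 1)) 23) (.v 9) (by decide +kernel))
    (by rw [xi]; exact s.eq h' (.p (.m (.m (.m (.v 0) (.v 2)) (.v 0)) (.v 1)) 12) (.v 9) (by decide +kernel))
    (by
      rw [mul_inv_rev, mul_inv_rev, xi]
      exact s.eq h' (.p (.m (.m (.m (.v 0) (.m (.v 2) (.m (.v 0) (.v 2)))) (.v 0)) (.m (.m (.v 1) (.v 0)) (.v 1))) 5)
        (.v 9) (by decide +kernel))
    (s.eq h' (.p (.m (.m (.v 0) (.v 1)) (.p (.m (.m (.m (.v 0) (.v 1)) (.v 0)) (.v 2)) 3)) 4) (.v 9) (by decide +kernel))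
    (s.eq h' (.m (.p (.m (.m (.m (.m (.m (.v 0) (.v 1)) (.v 0)) (.v 1)) (.v 0)) (.v 2)) 3)
      (.p (.m (.m (.m (.m (.m (.v 0) (.v 1)) (.v 0)) (.v 2)) (.v 0)) (.v 2)) 3)) (.v 9) (by decide +kernel))
    _ rfl
    (fun g hg => by
      obtain ⟨c, hc, r⟩ := fl hE hg
      obtain ⟨α, k1, k2, -⟩ := ea c hc
      rw [M.unique r k1]; exact k2)
    (fun g hg k hk => by
      obtain ⟨c, hc, r⟩ := fl hE hg
      obtain ⟨d, hd, r'⟩ := fl hE hk
      obtain ⟨α, k1, -, k3⟩ := ea c hc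
      rw [M.unique r k1]; exact (k3 d hd k r').eq)
    (fun j hj => by
      rw [xi]
      exact eq (mu (mu rx (s.2.1 ▸ R_getD hE j)) rx) (by rw [← s.1, ← s.2.1]; exact Ex.R hE _) (q3 j hj))
    (fun j hj => eq (mu (mu ry (s.2.1 ▸ R_getD hE j)) rY) (by rw [← s.1, ← s.2.1]; exact Ex.R hE _) (q4 j hj))
    (by rw [cl]; exact cardH f.toMd)
  have s' := f'.s
  have hE' := f2 s' f'.h eK
  rw [q2] at hE'
  have VV : M'.cl eL = M.cl eL := by
    refine congrArg Subgroup.closure (Set.ext fun g => ⟨?_, ?_⟩)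
    · rintro ⟨c, hc, r⟩
      obtain ⟨k, -, r1, r2⟩ := fb hE hE' hc
      exact ⟨c, hc, M.R_congr r1 (M'.unique r2 r)⟩
    · rintro ⟨c, hc, r⟩
      obtain ⟨k, -, r1, r2⟩ := fb hE hE' hc
      exact ⟨c, hc, M'.R_congr r2 (M.unique r1 r)⟩
  have bo : ∀ v ∈ M.cl eL, ∃ c, M.R c v ∧ M'.R c v := by
    intro v hv
    have gen : ∀ g ∈ {g | ∃ c ∈ eL, M.R c g}, ∃ c, M.R c g ∧ M'.R c g := by
      rintro g ⟨c, hc, r⟩
      obtain ⟨k, -, r1, r2⟩ := fb hE hE' hc
      exact ⟨c, r, M'.R_congr r2 (M.unique r1 r)⟩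
    induction hv using closure_induction'' with
    | one => exact ⟨kone, s.2.1 ▸ M.R_one, s'.2.1 ▸ M'.R_one⟩
    | mem g hg => exact gen g hg
    | inv_mem g hg =>
      obtain ⟨c, hc, r⟩ := id hg
      obtain ⟨α, k1, k2, -⟩ := ea c hc
      rw [show g⁻¹ = g by rw [M.unique r k1]; exact inv_eq_of_mul_eq_one_right k2]
      exact gen g hg
    | mul g k _ _ ia ib =>
      obtain ⟨c, c1, c2⟩ := ia
      obtain ⟨d, d1, d2⟩ := ib
      exact ⟨kmul c d, mu c1 d1, s'.1 ▸ M'.R_mul c2 d2⟩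
  have t1 : ∀ {c : ℕ} {v : G}, v ∈ M.cl eL → M.R c v → M'.R c v := fun {c v} hv r => by
    obtain ⟨d, d1, d2⟩ := bo v hv
    have := (M.eqb_iff r d1).2 rfl
    rw [s.2.2] at this
    rw [Nat.eq_of_beq_eq_true this]; exact d2
  have t2 : ∀ {c : ℕ} {v : G}, v ∈ M.cl eL → M'.R c v → M.R c v := fun {c v} hv r => by
    obtain ⟨d, d1, d2⟩ := bo v hv
    have := (M'.eqb_iff r d2).2 rfl
    rw [s'.2.2] at this
    rw [Nat.eq_of_beq_eq_true this]; exact d1
  refine ⟨M', x', y', ⟨f', by rw [VV, cl]; exact f.nV, by rw [VV]; exact f.cV, fun c hc d r => ?_,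
    by rw [cl]; exact f.xe, f.tri⟩, ?_, ?_⟩
  · rw [cl]
    refine f.cD c hc d (t2 (f.cV ?_) r)
    have : M'.cl eL ≤ centralizer {d} := Model.cl_le' fun c' hc' g r' => mem_centralizer_singleton_iff.2
      (M'.eq_of (M'.R_mul r r') (M'.R_mul r' r) (by
        rw [s'.1, s'.2.2]; exact allL_spec (allL_spec q5 c hc) c' hc')).symm
    rw [← VV]
    exact fun v hv => mem_centralizer_singleton_iff.1 (this hv)
  · have : wr.g [x', y', y'⁻¹, e] = wr.g [x, y, y⁻¹, e] :=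
      eq (by rw [← s.1, ← s.2.1]; exact Ex.R h' wr) (by rw [← s.1, ← s.2.1]; exact Ex.R f.h wr) q9
    unfold Tt
    rw [this]; exact ht
  · obtain ⟨g, g1, g2⟩ := h
    obtain ⟨g', m1, m2⟩ := em_in f.toMd mg
    rw [q6] at m2
    obtain ⟨k, k1, k2⟩ := em_in f.toMd mca
    have w1 : M.R cB (k * wca.g [x', y', y'⁻¹, e]) := q7 ▸ mu k2 (by rw [← s.1, ← s.2.1]; exact Ex.R h' wca)
    have w2 : M'.R cA (k * wca.g [x', y', y'⁻¹, e]) := by
      have := M'.R_mul (t1 k1 k2) (Ex.R f'.h wca)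
      rwa [s'.1, s'.2.1, q8] at this
    exact ⟨g, t1 (M.unique m2 g1 ▸ m1) g1, M'.R_congr w2 (M.unique w1 g2)⟩

end H1.Tw4
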